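import Mathlib
import Cfsg.Agent.H12.MaxT
import Cfsg.Agent.H26.MD1

/-! Small permutation representations of special linear groups, I. -/

set_option autoImplicit false
set_option linter.unusedSectionVars false

namespace Cfsg.Agent.H26.ML

open Module H12 MD
open scoped Pointwise

variable {F V : Type*} [Field F] [Finite F] [AddCommGroup V] [Module F V] [FiniteDimensional F V]
  [Finite V]

local notation "q" => Nat.card F
local notation "n" => finrank F V
local notation "G" => SLV F V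

open Classical in
noncomputable def tr (p : V) (φ : Dual F V) : SLV F V :=
  if h : φ p = 0 then ⟨LinearEquiv.transvection h, LinearEquiv.transvection.det_eq_one h⟩ else 1

theorem g_def (g : G) (x : V) : g • x = g.1 x := rfl
theorem g_ext {g h : G} (H : ∀ x : V, g • x = h • x) : g = h := Subtype.ext (LinearEquiv.ext H)
theorem g_smul (g : G) (c : F) (x : V) : g • c • x = c • g • x := map_smul g.1 c x
theorem g_ne (g : G) {x : V} (hx : x ≠ 0) : g • x ≠ 0 := fun h => hx ((smul_eq_zero_iff_eq g).1 h)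
theorem smem (c : F) (x : V) : c • x ∈ F ∙ x := Submodule.smul_mem _ _ (Submodule.mem_span_singleton_self x)

theorem tr_apply {p : V} {φ : Dual F V} (h : φ p = 0) (x : V) : tr p φ • x = x + φ x • p := by
  rw [tr, dif_pos h]; rfl
theorem tr_fix {p x : V} {φ : Dual F V} (h : φ x = 0) : tr p φ • x = x := by
  by_cases h' : φ p = 0
  · simp [tr_apply h', h]
  · rw [tr, dif_neg h', one_smul]
theorem tr_self (p : V) (φ : Dual F V) : tr p φ • p = p := by
  by_cases h' : φ p = 0
  · exact tr_fix h'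
  · rw [tr, dif_neg h', one_smul]

noncomputable def dl (g : G) (φ : Dual F V) : Dual F V := φ ∘ₗ g.1.symm.toLinearMap
@[simp] theorem dl_apply (g : G) (φ : Dual F V) (x : V) : dl g φ x = φ (g⁻¹ • x) := rfl

theorem conj_tr (g : G) (p : V) (φ : Dual F V) : g * tr p φ * g⁻¹ = tr (g • p) (dl g φ) := by
  by_cases h : φ p = 0
  · exact g_ext fun x => by simp [mul_smul, tr_apply h, tr_apply (p := g • p) (φ := dl g φ) (by simpa), g_smul]
  · rw [tr, tr, dif_neg h, dif_neg (by simpa)]; simp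

theorem exists_dil {p : V} {φ : Dual F V} (h : φ p = 1) {a : F} (ha : a ≠ 0) :
    ∃ g : V ≃ₗ[F] V, LinearMap.det (g : V →ₗ[F] V) = a ∧ ∀ x, g x = x + ((a - 1) * φ x) • p :=
  ⟨LinearEquiv.dilatransvection (f := (a - 1) • φ) (v := p) (by simpa [h]), by
    simp [LinearEquiv.dilatransvection.coe_toLinearMap, h], fun x => by
    simp [LinearEquiv.dilatransvection.apply]⟩

theorem exists_tor {p r : V} {φ ψ : Dual F V} (h : φ p = 1) (h' : ψ r = 1) {a : F} (ha : a ≠ 0) :
    ∃ g : G, ∀ x, g • x = x + ((a⁻¹ - 1) * ψ x) • r + ((a - 1) * (φ x + (a⁻¹ - 1) * ψ x * φ r)) • p := by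
  obtain ⟨g, g1, g2⟩ := exists_dil h ha
  obtain ⟨k, k1, k2⟩ := exists_dil h' (inv_ne_zero ha)
  exact ⟨⟨g * k, mem_SLV.2 (by rw [LinearEquiv.coe_toLinearMap_mul, map_mul, g1, k1, mul_inv_cancel₀ ha])⟩,
    fun x => by simp [g_def, g2, k2]⟩

theorem move1 {W : Submodule F V} {x y : V} (hx : x ∉ W) (hy : y ∉ W ⊔ F ∙ x) :
    ∃ g : G, (∀ w ∈ W, g • w = w) ∧ g • x = y := by
  obtain ⟨φ, h1, h2⟩ := exists_dual_one (W := W ⊔ F ∙ (y - x)) (v := x) fun h => by
    obtain ⟨w, hw, _, hs, e⟩ := Submodule.mem_sup.1 h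
    obtain ⟨c, rfl⟩ := Submodule.mem_span_singleton.1 hs
    by_cases hc : c = 0
    · exact hx (by rw [← e, hc, zero_smul, add_zero]; exact hw)
    · refine hy (Submodule.mem_sup.2 ⟨-(c⁻¹ • w), neg_mem (W.smul_mem _ hw), _, smem (c⁻¹ + 1) x, ?_⟩)
      rw [← sub_eq_zero, ← smul_eq_zero_iff_right hc]
      linear_combination (norm := (match_scalars <;> field_simp <;> ring)) -e
  exact ⟨tr (y - x) φ, fun w hw => tr_fix (h2 w (Submodule.mem_sup_left hw)), by
    simp [tr_apply (h2 _ (Submodule.mem_sup_right (Submodule.mem_span_singleton_self _))), h1]⟩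

theorem move {W : Submodule F V} {x y : V} (hx : x ∉ W) (hy : y ∉ W) (h : finrank F W + 2 ≤ n) :
    ∃ g : G, (∀ w ∈ W, g • w = w) ∧ g • x = y := by
  by_cases h1 : y ∈ W ⊔ F ∙ x
  swap
  · exact move1 hx h1
  obtain ⟨z, -, hz⟩ := SetLike.exists_of_lt (lt_top_iff_ne_top.2 fun e : W ⊔ F ∙ x = ⊤ => by
    have := Submodule.finrank_add_le_finrank_add_finrank W (F ∙ x)
    rw [e, finrank_top, finrank_span_singleton (by rintro rfl; simp at hx)] at this
    omega)
  obtain ⟨g, g1, g2⟩ := move1 hx hz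
  obtain ⟨k, k1, k2⟩ := move1 hy fun h => hz
    ((sup_le le_sup_left ((Submodule.span_singleton_le_iff_mem _ _).2 h1) : W ⊔ F ∙ y ≤ _) h)
  exact ⟨k⁻¹ * g, fun w hw => by rw [mul_smul, g1 w hw, inv_smul_eq_iff, k1 w hw],
    by rw [mul_smul, g2, inv_smul_eq_iff, k2]⟩

theorem trans1 (hn : 3 ≤ n) {x y : V} (hx : x ≠ 0) (hy : y ≠ 0) : ∃ g : G, g • x = y :=
  (move (W := ⊥) hx hy (by simp; omega)).imp fun _ h => h.2

theorem trans2 (hn : 3 ≤ n) {p x y : V} (hp : p ≠ 0) (hx : x ∉ F ∙ p) (hy : y ∉ F ∙ p) :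
    ∃ g : G, g • p = p ∧ g • x = y :=
  (move hx hy (by rw [finrank_span_singleton hp]; omega)).imp fun _ h =>
    ⟨h.1 p (Submodule.mem_span_singleton_self p), h.2⟩

theorem card_sub (W : Submodule F V) : Nat.card W = q ^ finrank F W := Module.natCard_eq_pow_finrank

theorem finrank_pair_le (a b : V) : finrank F (Submodule.span F {a, b}) ≤ 2 := by
  classical
  have := (finrank_span_finset_le_card (R := F) ({a, b} : Finset V)).trans Finset.card_le_two
  rwa [Set.finrank, Finset.coe_pair] at this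

theorem finrank_pair {x y : V} (hx : x ≠ 0) (hy : y ∉ F ∙ x) : finrank F (Submodule.span F {x, y}) = 2 := by
  have := finrank_span_eq_card (R := F) (b := ![x, y]) (by
    rw [LinearIndependent.pair_iff' hx]; exact fun a h => hy (Submodule.mem_span_singleton.2 ⟨a, h⟩))
  rwa [Matrix.range_cons_cons_empty] at this

theorem span_eq {p x y z : V} (hy : y ≠ 0) (hz : z ∉ F ∙ y) (h1 : y ∈ Submodule.span F {p, x})
    (h2 : z ∈ Submodule.span F {p, x}) : Submodule.span F {y, z} = Submodule.span F {p, x} :=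
  Submodule.eq_of_le_of_finrank_le (Submodule.span_le.2 (Set.pair_subset h1 h2))
    ((finrank_pair_le p x).trans (finrank_pair hy hz).ge)

theorem exists_notMem {W : Submodule F V} (h : finrank F W < n) : ∃ v, v ∉ W := by
  by_contra! H
  rw [show W = ⊤ from eq_top_iff.2 fun v _ => H v, finrank_top] at h
  omega

instance : Finite (Dual F V) := Module.finite_of_finite F

variable (F) in
def DD (p : V) : AddSubgroup (Dual F V) := (LinearMap.ker (Dual.eval F V p)).toAddSubgroup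
theorem mem_DD {p : V} {φ : Dual F V} : φ ∈ DD F p ↔ φ p = 0 := Iff.rfl

variable (F) in
theorem rr (p : V) : RR (DD F p) (tr p) := fun a ha b hb => g_ext fun x => by
  rw [mul_smul, tr_apply (mem_DD.1 hb), tr_apply (mem_DD.1 ha), tr_apply (mem_DD.1 (add_mem ha hb))]
  simp [mem_DD.1 ha, add_smul]; abel

theorem card_V {p : V} (hp : p ≠ 0) : Nat.card V = q * Nat.card (DD F p) := by
  have h := LinearMap.finrank_range_add_finrank_ker (Dual.eval F V p)
  obtain ⟨φ, h1, -⟩ := exists_dual_one (F := F) (W := ⊥) hp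
  rw [show LinearMap.range (Dual.eval F V p) = ⊤ from eq_top_iff.2 fun c _ => ⟨c • φ, by simp [h1]⟩,
    finrank_top, finrank_self, Subspace.dual_finrank_eq] at h
  rw [Module.natCard_eq_pow_finrank (K := F), ← h, pow_add, pow_one]
  exact congrArg _ (Module.natCard_eq_pow_finrank (V := LinearMap.ker (Dual.eval F V p))).symm

theorem hβ (φ : Dual F V) (h : ∀ x, Dual.eval F V x φ = 0) : φ = 0 := LinearMap.ext h

variable {X : Type*} [MulAction (SLV F V) X] [Finite X]

variable (F) in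
noncomputable def SS (p : V) (ω : X) : AddSubgroup (Dual F V) := (rr F p).St ({ω} : Set X)
theorem mem_SS {p : V} {φ : Dual F V} {ω : X} : φ ∈ SS F p ω ↔ φ p = 0 ∧ tr p φ • ω = ω := by
  rw [SS, RR.mem_St_one, mem_DD]
variable (F) in
noncomputable def AA (p : V) (ω : X) : AddSubgroup V := Ann (Dual.eval F V) (SS F p ω)
theorem mem_AA {p x : V} {ω : X} : x ∈ AA F p ω ↔ ∀ φ ∈ SS F p ω, psi F (φ x) = 1 := Iff.rfl

theorem g_mem_SS (g : G) {p : V} {φ : Dual F V} {ω : X} (h : φ ∈ SS F p ω) :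
    dl g φ ∈ SS F (g • p) (g • ω) := by
  simpa [mem_SS, ← conj_tr, mul_smul] using h

theorem g_mem_AA (g : G) {p x : V} {ω : X} (h : x ∈ AA F p ω) : g • x ∈ AA F (g • p) (g • ω) :=
  fun φ hφ => by
    have := mem_AA.1 h (dl g⁻¹ φ) (by simpa using g_mem_SS g⁻¹ hφ)
    rwa [dl_apply, inv_inv] at this

theorem self_mem_AA {p x : V} (ω : X) (h : x ∈ F ∙ p) : x ∈ AA F p ω := by
  obtain ⟨c, rfl⟩ := Submodule.mem_span_singleton.1 h
  exact mem_AA.2 fun w hw => by simp [(mem_SS.1 hw).1]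

variable (F) in
abbrev ob (p : V) (ω : X) : Set X := orb (DD F p) (tr p) ω

theorem card_AA {p : V} (hp : p ≠ 0) (ω : X) : Nat.card (AA F p ω) = q * (ob F p ω).ncard :=
  (rr F p).card_Ann_eq hβ (card_V hp) ω

theorem ob_g (g : G) (p : V) (ω : X) : ob F (g • p) (g • ω) = g • ob F p ω := by
  have : ∀ (g : G) (p : V) (ω : X), g • ob F p ω ⊆ ob F (g • p) (g • ω) := by
    rintro g e ω _ ⟨_, ⟨a, ha, rfl⟩, rfl⟩
    exact ⟨dl g a, mem_DD.2 (by simpa using mem_DD.1 ha), by simp [← conj_tr, mul_smul]⟩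
  refine (this g p ω).antisymm' fun y hy => Set.mem_smul_set_iff_inv_smul_mem.2 ?_
  simpa using this g⁻¹ _ _ (Set.smul_mem_smul_set hy)

theorem AA_of_ob {p : V} {ω y : X} (h : ob F p y = ob F p ω) : AA F p y = AA F p ω := by
  rw [AA, AA, SS, SS, ← RR.St_orb, ← RR.St_orb]; exact congrArg (fun O => Ann _ ((rr F p).St O)) h

variable (F X) in
noncomputable def MM (p x : V) : Finset (Set X) := (rr F p).M (Dual.eval F V) X (fun _ => True) x

theorem mem_MM {p x : V} {O : Set X} : O ∈ MM F X p x ↔ ∃ ω, ob F p ω = O ∧ x ∈ AA F p ω := by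
  simp [MM, RR.mem_M, AA, SS]

theorem g_mem_MM (g : G) {p x : V} {O : Set X} (h : O ∈ MM F X p x) : g • O ∈ MM F X (g • p) (g • x) := by
  obtain ⟨ω, rfl, h'⟩ := mem_MM.1 h
  exact mem_MM.2 ⟨g • ω, ob_g .., g_mem_AA g h'⟩

theorem card_MM_g (g : G) (p x : V) : (MM F X (g • p) (g • x)).card = (MM F X p x).card := by
  have : ∀ (g : G) (p x : V), (MM F X p x).card ≤ (MM F X (g • p) (g • x)).card :=
    fun g e y => Finset.card_le_card_of_injOn (g • ·) (fun O h => g_mem_MM g h)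
      (MulAction.injective g).injOn
  exact le_antisymm (by simpa using this g⁻¹ (g • p) (g • x)) (this g p x)

theorem MM_self {p x : V} (h : x ∈ F ∙ p) : MM F X p x = Orbs (DD F p) (tr p) X fun _ => True := by
  ext O; simp [mem_MM, mem_Orbs, self_mem_AA _ h]

theorem sum_O (p : V) : ∑ O ∈ Orbs (DD F p) (tr p) X (fun _ => True), O.ncard = Nat.card X := by
  rw [(rr F p).sum_Orbs]; simp

theorem sum_MM [Fintype V] {p : V} (hp : p ≠ 0) : ∑ x, (MM F X p x).card = q * Nat.card X := by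
  rw [← sum_O (F := F) (X := X) p]; exact (rr F p).sum_M hβ (card_V hp) _

variable (F V X) in
abbrev HX : Prop := (q - 1) * Nat.card X + q ≤ q ^ n

variable (hn : 3 ≤ finrank F V) (hX : HX F V X) {p : V} (hp : p ≠ 0)
include hn hX hp

theorem mu_le {x : V} (hx : x ∉ F ∙ p) : (MM F X p x).card ≤ 1 := by
  classical
  have := Fintype.ofFinite V
  have h1 : ∀ y, (MM F X p x).card ≤ (MM F X p y).card := fun y => by
    by_cases hy : y ∈ F ∙ p
    · rw [MM_self hy]; exact Finset.card_le_card (Finset.filter_subset _ _)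
    · obtain ⟨g, g1, rfl⟩ := trans2 hn hp hx hy
      rw [← card_MM_g g p x, g1]
  have h2 := Finset.card_nsmul_le_sum Finset.univ _ _ fun y _ => h1 y
  rw [sum_MM hp, Finset.card_univ, ← Nat.card_eq_fintype_card, Module.natCard_eq_pow_finrank (K := F),
    smul_eq_mul] at h2
  by_contra! H
  have h3 := Nat.mul_le_mul_left (q ^ n) H
  obtain ⟨r, hr⟩ : ∃ r, q = r + 2 := ⟨q - 2, by have : 2 ≤ q := Finite.one_lt_card; omega⟩
  simp only [HX, hr, show r + 2 - 1 = r + 1 by omega] at *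
  nlinarith [Nat.zero_le (r * Nat.card X)]

theorem ob_eq {x : V} (hx : x ∉ F ∙ p) {ω ω' : X} (h : x ∈ AA F p ω) (h' : x ∈ AA F p ω') :
    ob F p ω' = ob F p ω :=
  Finset.card_le_one.1 (mu_le hn hX hp hx) _ (mem_MM.2 ⟨_, rfl, h'⟩) _ (mem_MM.2 ⟨_, rfl, h⟩)

theorem inA {x y v : V} {ω : X} (hx : x ∉ F ∙ p) (h : x ∈ AA F p ω) (h' : y ∈ AA F p ω)
    (hy : y ∉ Submodule.span F {p, x, v}) (c : F) : c • v ∈ AA F p ω := by
  obtain ⟨φ, h1, h2⟩ := exists_dual_one hy
  have e1 : tr (c • v) φ • p = p := tr_fix (h2 _ (Submodule.subset_span (by simp)))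
  have e2 := g_mem_AA (tr (c • v) φ) h
  have e3 := g_mem_AA (tr (c • v) φ) h'
  rw [e1, tr_fix (h2 _ (Submodule.subset_span (by simp)))] at e2
  rw [e1, AA_of_ob (ob_eq hn hX hp hx h e2),
    tr_apply (by simp [h2 v (Submodule.subset_span (by simp))]), h1, one_smul] at e3
  simpa using sub_mem e3 h'

theorem dich (ω : X) : AA F p ω = ⊤ ∨ ∃ x ∉ F ∙ p, ∀ y ∈ AA F p ω, y ∈ Submodule.span F {p, x} := by
  by_cases h : ∀ x ∈ AA F p ω, x ∈ F ∙ p
  · obtain ⟨x, hx⟩ := exists_notMem (W := F ∙ p) (by rw [finrank_span_singleton hp]; omega)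
    exact Or.inr ⟨x, hx, fun y hy => Submodule.span_mono (by simp) (h y hy)⟩
  push Not at h
  obtain ⟨x, h, hx⟩ := h
  refine or_iff_not_imp_right.2 fun H => eq_top_iff.2 fun v _ => ?_
  push Not at H
  obtain ⟨y, h', hy⟩ := H x hx
  have hy' : y ∉ F ∙ p := fun h => hy (Submodule.span_mono (by simp) h)
  have hx' : x ∉ Submodule.span F {p, y} := fun h => hy (by
    rw [span_eq hp hx (Submodule.subset_span (by simp)) h]; exact Submodule.subset_span (by simp))
  have k1 := inA hn hX hp hx h h' (v := x) (by simpa using hy)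
  have k2 := inA hn hX hp hy' h' h (v := y) (by simpa using hx')
  by_cases hv : y ∈ Submodule.span F {p, x, v}
  · obtain ⟨a, b, c, rfl⟩ := Submodule.mem_span_triple.1 hv
    have hc : c ≠ 0 := by rintro rfl; exact hy (Submodule.mem_span_pair.2 ⟨a, b, by simp⟩)
    convert sub_mem (sub_mem (k2 c⁻¹) (self_mem_AA ω (smem (c⁻¹ * a) p))) (k1 (c⁻¹ * b)) using 1
    match_scalars <;> field_simp <;> ring
  · simpa using inA hn hX hp hx h h' hv 1

end Cfsg.Agent.H26.ML
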