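import Mathlib
import Cfsg.Agent.H26.ML1
import Cfsg.Agent.H26.MO9
import Cfsg.Agent.H12.Lin
import Cfsg.Agent.H12.Transport

/-! Small permutation representations of special linear groups, II. -/

set_option autoImplicit false
set_option linter.unusedSectionVars false

namespace Cfsg.Agent.H26.ML

open Module H12 MD
open scoped Pointwise

variable {F V : Type*} [Field F] [Finite F] [AddCommGroup V] [Module F V] [FiniteDimensional F V]
  [Finite V]

local notation "q" => Nat.card F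
local notation "n" => finrank F V
local notation "G" => SLV F V

variable {X : Type*} [MulAction (SLV F V) X] [Finite X]

variable (F V) in
noncomputable abbrev St (ω : X) : Subgroup (V ≃ₗ[F] V) := (MulAction.stabilizer G ω).map (SLV F V).subtype

theorem TR_iff {p : V} {φ : Dual F V} {ω : X} : TR (St F V ω) p φ ↔ φ ∈ SS F p ω := by
  rw [mem_SS]
  refine ⟨fun h => ⟨h.1, ?_⟩, fun h => ⟨h.1, _, ⟨_, h.2, rfl⟩, tr_apply h.1⟩⟩
  obtain ⟨g, hg, e⟩ := h.mem (g := (tr p φ).1) (tr_apply h.1)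
  exact (Subtype.ext e : g = _) ▸ hg

theorem mem_PS_iff {p : V} {ω : X} : p ∈ PS (St F V ω) ↔ ∀ x ∈ AA F p ω, x ∈ F ∙ p := by
  simp only [mem_PS, TR_iff]
  refine ⟨fun h x hx => by_contra fun H => ?_, fun h φ h0 => mem_of_Ann hβ fun x hx => ?_⟩
  · obtain ⟨φ, h1, h2⟩ := exists_dual_one_zero H
    simpa [h1] using eq_zero_of_mem_Ann hx (w := φ) fun c => h _ (by simp [h2])
  · obtain ⟨c, rfl⟩ := Submodule.mem_span_singleton.1 (h x hx)
    simp [h0]

theorem PS_ne {ω : X} (hω : ¬ ∀ g : G, g • ω = ω) : PS (St F V ω) ≠ ⊤ := fun h => hω fun g => by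
  obtain ⟨g', hg, e⟩ := SLV_le_of_PS h g.2
  exact (Subtype.ext e : g' = _) ▸ hg

theorem exists_notMem_of_finrank_lt' {H W : Submodule F V} (h : finrank F H < finrank F W) :
    ∃ w ∈ W, w ∉ H := by
  by_contra! h'
  exact h.not_ge (Submodule.finrank_mono h')

theorem no_lines (hn : 3 ≤ n) {ω : X} (h : ∀ p : V, p ≠ 0 → ∃ x ∉ F ∙ p, ∀ φ : Dual F V, φ p = 0 →
    (φ ∈ SS F p ω ↔ φ x = 0)) : False := by
  choose! ℓ h1 h2 using h
  have A : ∀ p p', p ≠ 0 → p' ≠ 0 → p' ∉ Submodule.span F {p, ℓ p} →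
      ℓ p ∈ Submodule.span F {p, p', ℓ p'} := fun p p' hp hp' h => by
    by_contra H
    obtain ⟨φ, a1, a2⟩ := exists_dual_one H
    obtain ⟨ψ, b1, b2⟩ := exists_dual_one h
    have a3 := a2 p (Submodule.subset_span (by simp))
    have b3 := b2 p (Submodule.subset_span (by simp))
    have := (TR_iff.2 ((h2 p' hp' φ (a2 _ (Submodule.subset_span (by simp)))).2
      (a2 _ (Submodule.subset_span (by simp))))).comm'
      (TR_iff.2 ((h2 p hp ψ b3).2 (b2 _ (Submodule.subset_span (by simp))))) a3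
    simpa [a1, b1] using (h2 p hp _ this.1).1 (TR_iff.1 this)
  have B : ∀ p y, p ≠ 0 → y ≠ 0 → y ∈ Submodule.span F {p, ℓ p} → p ∈ Submodule.span F {y, ℓ y} :=
    fun p y hp hy h => by
      by_contra H
      refine H (span_eq hy (h1 y hy) h ?_ ▸ Submodule.subset_span (by simp))
      exact Submodule.span_le.2 (Set.insert_subset h Submodule.subset_span) (A y p hy hp H)
  obtain ⟨p, hp⟩ := exists_notMem (W := (⊥ : Submodule F V)) (by simp; omega)
  obtain ⟨p', hp'⟩ := exists_notMem (W := Submodule.span F {p, ℓ p}) (by have := finrank_pair_le (F := F) p (ℓ p); omega)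
  have h0 : p' ≠ 0 := by rintro rfl; simp at hp'
  obtain ⟨a, b, c, e⟩ := Submodule.mem_span_triple.1 (A p p' hp h0 hp')
  have h3 : b • p' + c • ℓ p' ∉ F ∙ p := fun h => h1 p hp (by rw [← e, add_assoc]; exact add_mem (smem a p) h)
  have h4 : b • p' + c • ℓ p' ≠ 0 := fun h => h3 (h ▸ zero_mem _)
  have h5 : b • p' + c • ℓ p' ∈ Submodule.span F {p, ℓ p} :=
    Submodule.mem_span_pair.2 ⟨-a, 1, by rw [← e]; module⟩
  have h6 := B p' _ h0 h4 (Submodule.mem_span_pair.2 ⟨b, c, rfl⟩)
  have h7 := B p _ hp h4 h5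
  generalize b • p' + c • ℓ p' = y at *
  rw [← span_eq hp h3 h7 (Submodule.subset_span (by simp)),
    span_eq hp h3 (Submodule.subset_span (by simp)) h5] at h6
  exact hp' h6

variable (hn : 3 ≤ finrank F V) (hX : HX F V X) (hω : ∀ ω : X, ¬ ∀ g : SLV F V, g • ω = ω)
include hn hX hω

theorem line_of {p : V} (hp : p ≠ 0) (h : ∀ ω : X, AA F p ω ≠ ⊤) (ω : X) :
    ∃ x ∉ F ∙ p, ∀ φ : Dual F V, φ p = 0 → (φ ∈ SS F p ω ↔ φ x = 0) := by
  classical
  have := Fintype.ofFinite V
  have hq : 2 ≤ q := Finite.one_lt_card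
  have h1 : ∀ x ∉ F ∙ p, 1 ≤ (MM F X p x).card := fun x hx => by
    obtain ⟨p', -, h2⟩ := SetLike.exists_of_lt (lt_top_iff_ne_top.2 (PS_ne (hω ω)))
    obtain ⟨g, hg⟩ := trans1 hn (by rintro rfl; simp at h2 : p' ≠ 0) hp
    rw [mem_PS_iff] at h2
    push Not at h2
    obtain ⟨y, h2, h3⟩ := h2
    obtain ⟨k, k1, rfl⟩ := trans2 hn hp (x := g • y) (fun h => by
      obtain ⟨c, hc⟩ := Submodule.mem_span_singleton.1 h
      rw [← hg, ← g_smul, smul_left_cancel_iff] at hc
      exact h3 (hc ▸ smem c p')) hx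
    exact Finset.card_pos.2 ⟨_, mem_MM.2 ⟨_, rfl, by simpa [hg, k1] using g_mem_AA k (g_mem_AA g h2)⟩⟩
  have h2 : ∀ ω : X, ∃ x ∉ F ∙ p, (∀ y ∈ AA F p ω, y ∈ Submodule.span F {p, x}) ∧
      Nat.card (AA F p ω) ≤ Nat.card (Submodule.span F {p, x}) ∧ Nat.card (Submodule.span F {p, x}) = q * q :=
    fun ω => ((dich hn hX hp ω).resolve_left (h ω)).imp fun x h => ⟨h.1, h.2, Nat.card_le_card_of_injective
      (fun v : AA F p ω => (⟨v.1, h.2 v v.2⟩ : Submodule.span F {p, x})) fun a b e => by simpa using e,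
      by rw [card_sub, finrank_pair hp h.1, sq]⟩
  have h3 : ∀ O ∈ Orbs (DD F p) (tr p) X (fun _ => True), O.ncard ≤ q := fun O hO => by
    obtain ⟨⟨ω, rfl⟩, -⟩ := mem_Orbs.1 hO
    obtain ⟨x, -, -, a, b⟩ := h2 ω
    rw [card_AA hp, b] at a
    exact Nat.le_of_mul_le_mul_left a (by omega)
  have c1 := sum_MM (F := F) (X := X) hp
  rw [← Finset.sum_filter_add_sum_filter_not _ (· ∈ F ∙ p), Finset.sum_congr rfl fun x hx =>
    congrArg _ (MM_self (Finset.mem_filter.1 hx).2), Finset.sum_const, smul_eq_mul] at c1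
  have c2 := Finset.card_nsmul_le_sum _ _ _ fun x (hx : x ∈ Finset.univ.filter (· ∉ F ∙ p)) =>
    h1 x (Finset.mem_filter.1 hx).2
  have c3 := Finset.card_filter_add_card_filter_not (s := Finset.univ) (· ∈ F ∙ p)
  rw [Finset.card_univ, ← Nat.card_eq_fintype_card, Module.natCard_eq_pow_finrank (K := F)] at c3
  have c4 : (Finset.univ.filter (· ∈ F ∙ p)).card = q := by
    rw [← Fintype.card_subtype, ← Nat.card_eq_fintype_card, card_sub, finrank_span_singleton hp, pow_one]
  have c5 : (ob F p ω).ncard = q := by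
    refine (Finset.sum_eq_sum_iff_of_le h3).1 (le_antisymm (Finset.sum_le_sum h3) ?_) _
      (mem_Orbs.2 ⟨⟨ω, rfl⟩, trivial⟩)
    rw [sum_O, Finset.sum_const, smul_eq_mul]
    rw [HX, Nat.sub_mul, one_mul] at hX
    have := Nat.le_mul_of_pos_left (Nat.card X) (show 0 < q by omega)
    rw [c4] at c1 c3
    rw [smul_eq_mul] at c2
    rw [mul_comm]; omega
  obtain ⟨x, hx, a, -, b⟩ := h2 ω
  have c6 : AA F p ω = (Submodule.span F {p, x}).toAddSubgroup :=
    AddSubgroup.eq_of_le_of_card_ge a (b.le.trans (by rw [card_AA hp, c5]))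
  refine ⟨x, hx, fun φ h0 => ⟨fun h => eq_zero_of_psi fun c => ?_, fun h => mem_of_Ann hβ fun y hy => ?_⟩⟩
  · simpa using (mem_AA (x := c • x)).1 (c6.ge (Submodule.mem_span_pair.2 ⟨0, c, by simp⟩)) φ h
  · obtain ⟨a, b, rfl⟩ := Submodule.mem_span_pair.1 (a y hy)
    simp [h0, h]

theorem exists_reg [Nonempty X] {p : V} (hp : p ≠ 0) : ∃ ω : X, AA F p ω = ⊤ := by
  by_contra! H
  refine no_lines hn (ω := Classical.arbitrary X) fun p' hp' => line_of hn hX hω hp' (fun ω h => ?_) _
  obtain ⟨g, rfl⟩ := trans1 hn hp' hp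
  exact H (g • ω) (eq_top_iff.2 fun v _ => by simpa using g_mem_AA g (h.ge (show g⁻¹ • v ∈ ⊤ from trivial)))

variable {p : V} {ω : X} (h : p ∉ PS (St F V ω))
include h

theorem reg : AA F p ω = ⊤ ∧ ∀ ω', AA F p ω' = ⊤ → ob F p ω' = ob F p ω := by
  have hp : p ≠ 0 := by rintro rfl; simp at h
  have : Nonempty X := ⟨ω⟩
  rw [mem_PS_iff] at h
  push Not at h
  obtain ⟨x, h1, h2⟩ := h
  have := fun ω' (h' : AA F p ω' = ⊤) => ob_eq hn hX hp h2 h1 (h'.ge trivial)
  obtain ⟨ω', h3⟩ := exists_reg hn hX hω hp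
  exact ⟨(AA_of_ob (this _ h3)).symm.trans h3, this⟩

theorem triv {φ : Dual F V} (h1 : φ ∈ SS F p ω) : φ = 0 := LinearMap.ext fun x => eq_zero_of_psi fun c => by
  simpa using mem_AA.1 ((reg hn hX hω h).1.ge (show c • x ∈ ⊤ from trivial)) φ h1

theorem triv2 {k k' : G} (hk : k • ω = ω) (hk' : k' • ω = ω) {t : F} (h1' : k' • p = t • p)
    (h1 : k • p = t • p) (h2 : ∀ v : V, k • v - k' • v ∈ F ∙ p) : k = k' := by
  have hp : p ≠ 0 := by rintro rfl; simp at h
  have ht : t ≠ 0 := by rintro rfl; exact g_ne k hp (by simpa using h1)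
  obtain ⟨π, h3, -⟩ := exists_dual_one (F := F) (W := ⊥) hp
  have h4 : ∀ v : V, (k'⁻¹ * k) • v = v + (π ∘ₗ ((k'⁻¹ * k).1.toLinearMap - 1)) v • p := fun v => by
    obtain ⟨s, hs⟩ := Submodule.mem_span_singleton.1 (h2 v)
    have : (k'⁻¹ * k) • v = v + (s / t) • p := by
      rw [mul_smul, inv_smul_eq_iff, smul_add, g_smul, h1', smul_smul, div_mul_cancel₀ s ht, hs, add_sub_cancel]
    simp only [LinearMap.comp_apply, LinearMap.sub_apply, LinearEquiv.coe_coe, ← g_def, this]
    simp [h3]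
  have h5 : (π ∘ₗ ((k'⁻¹ * k).1.toLinearMap - 1)) p = 0 := by
    simpa [hp, mul_smul, h1, ← h1'] using h4 p
  have h6 := triv hn hX hω h (mem_SS.2 ⟨h5, by
    rw [show tr p _ = k'⁻¹ * k from g_ext fun v => by rw [tr_apply h5, h4], mul_smul, hk, inv_smul_eq_iff, hk']⟩)
  exact (eq_of_inv_mul_eq_one (g_ext fun v => by rw [h4, h6]; simp)).symm

theorem cover {g : G} {t : F} (h1 : g • p = t • p) : ∃ φ : Dual F V, φ p = 0 ∧ (tr p φ * g) • ω = ω := by
  have h' : p ∉ PS (St F V (g • ω)) := fun h' => h (mem_PS_iff.2 fun x hx => by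
    have hp : p ≠ 0 := by rintro rfl; simp at h
    have ht : t ≠ 0 := by rintro rfl; exact g_ne g hp (by simpa using h1)
    have h2 := (PS _).smul_mem t h'
    rw [← h1] at h2
    obtain ⟨c, hc⟩ := Submodule.mem_span_singleton.1 (mem_PS_iff.1 h2 _ (g_mem_AA g hx))
    rw [← g_smul, smul_left_cancel_iff] at hc
    exact hc ▸ smem c p)
  obtain ⟨φ, h2, h3⟩ := (((reg hn hX hω h').2 ω (reg hn hX hω h).1)).le ((rr F p).self_mem ω)
  exact ⟨φ, h2, by rwa [mul_smul]⟩

theorem sup_top (h0 : PS (St F V ω) ≠ ⊥) : PS (St F V ω) ⊔ F ∙ p = ⊤ := by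
  have hp : p ≠ 0 := by rintro rfl; simp at h
  obtain ⟨u, hu, u0⟩ := Submodule.exists_mem_ne_zero_of_ne_bot h0
  refine eq_top_iff.2 fun y _ => ?_
  by_cases hy : y ∈ F ∙ p
  · exact Submodule.mem_sup_right hy
  obtain ⟨g, g1, rfl⟩ := trans2 hn hp (x := u) (fun h' => by
    obtain ⟨c, rfl⟩ := Submodule.mem_span_singleton.1 h'
    exact h (((PS _).smul_mem_iff (by rintro rfl; simp at u0)).1 hu)) hy
  obtain ⟨φ, h1, h2⟩ := cover hn hX hω h (g1.trans (one_smul F _).symm)
  have := map_mem_PS hu (k := (tr p φ * g).1) ⟨_, h2, rfl⟩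
  rw [← g_def, mul_smul, tr_apply h1] at this
  simpa using sub_mem (Submodule.mem_sup_left this) (Submodule.mem_sup_right (smem (φ (g • u)) p))

omit h in
theorem PS_ne_bot (hexc : ¬ (n = 4 ∧ q = 2)) : PS (St F V ω) ≠ ⊥ := fun h0 => by
  have h : ∀ p : V, p ≠ 0 → p ∉ PS (St F V ω) := fun p hp => by simpa [h0] using hp
  obtain ⟨p, hp⟩ := exists_notMem (W := (⊥ : Submodule F V)) (by simp; omega)
  obtain ⟨r, hr⟩ := exists_notMem (W := F ∙ p) (by rw [finrank_span_singleton hp]; omega)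
  obtain ⟨v0, hv0⟩ := exists_notMem (W := Submodule.span F {p, r}) (by have := finrank_pair_le (F := F) p r; omega)
  obtain ⟨ψ, h1, h2⟩ := exists_dual_one hv0
  have ψp := h2 p (Submodule.subset_span (by simp))
  have ψr := h2 r (Submodule.subset_span (by simp))
  have C : ∀ r, ψ r = 0 → ∃ φ : Dual F V, φ p = 0 ∧ (tr p φ * tr r ψ) • ω = ω := fun r _ =>
    cover hn hX hω (h p hp) ((tr_fix ψp).trans (one_smul F _).symm)
  choose! φ φp φω using C
  have hh : ∀ r, ψ r = 0 → ∀ v, (tr p (φ r) * tr r ψ) • v = v + ψ v • r + (φ r v + ψ v * φ r r) • p :=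
    fun r hr v => by simp [mul_smul, tr_apply hr, tr_apply (φp r hr)]
  have E0 : ∀ r, ψ r = 0 → ∀ (k : G) (l μ c : F), k • ω = ω → k • p = l • p → (∀ v, ψ (k • v) = μ * ψ v) →
      k • r = μ • r + c • p → ∀ v, φ r (k • v) + μ * ψ v * φ r r = l * (φ r v + ψ v * φ r r) + ψ v * c := by
    intro r hr k l μ c k1 k2 k3 k4 v
    have e : ∀ v, (k * (tr p (φ r) * tr r ψ)) • v - (tr p (φ r) * tr r ψ * k) • v =
        (l * (φ r v + ψ v * φ r r) + ψ v * c - (φ r (k • v) + μ * ψ v * φ r r)) • p := fun v => by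
      rw [mul_smul, mul_smul _ k, hh r hr, hh r hr, smul_add, smul_add, g_smul, g_smul, k2, k3, k4]
      generalize k • v = z
      module
    have := triv2 hn hX hω (h p hp) (k := k * (tr p (φ r) * tr r ψ)) (k' := tr p (φ r) * tr r ψ * k)
      (by rw [mul_smul, φω r hr, k1]) (by rw [mul_smul, k1, φω r hr]) (t := l)
      (by simp [mul_smul _ k, k2, g_smul, hh r hr, ψp, φp r hr]) (by simp [mul_smul k, k2, hh r hr, ψp, φp r hr])
      fun v => e v ▸ smem _ _
    have e2 := e v
    rw [this, sub_self, eq_comm, smul_eq_zero_iff_left hp, sub_eq_zero] at e2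
    exact e2.symm
  have E : ∀ r, ψ r = 0 → ∀ (g : G) (l μ : F), g • p = l • p → (∀ v, ψ (g • v) = μ * ψ v) →
      g • r = μ • r → ∀ v, ψ v = 0 → φ r (g • v) = l * φ r v := by
    intro r hr g l μ g2 g3 g4 v hv
    obtain ⟨χ, a1, a2⟩ := cover hn hX hω (h p hp) g2
    simpa [hv, mul_smul, tr_apply a1, φp r hr] using E0 r hr _ l μ _ a2 (by simp [mul_smul, g2, g_smul, tr_self])
      (fun v => by simp [mul_smul, tr_apply a1, g3, ψp]) (by rw [mul_smul, tr_apply a1, g4]) v
  have Alt : ∀ r, ψ r = 0 → φ r r = 0 := fun r hr => by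
    by_cases h3 : r ∈ F ∙ p
    · obtain ⟨c, hc⟩ := Submodule.mem_span_singleton.1 h3
      conv_lhs => arg 2; rw [← hc]
      simp [φp r hr]
    by_cases h4 : (2 : F) = 0
    · have := triv2 hn hX hω (h p hp) (k := tr p (φ r) * tr r ψ * (tr p (φ r) * tr r ψ)) (k' := 1)
        (by rw [mul_smul, φω r hr, φω r hr]) (one_smul _ _) (t := 1) (by simp)
        (by simp [mul_smul _ (_ * _), hh r hr, ψp, φp r hr]) fun v =>
          Submodule.mem_span_singleton.2 ⟨ψ v * φ r r, by
            simp [mul_smul _ (_ * _), hh r hr, ψp, φp r hr, hr]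
            linear_combination (norm := module) -(h4 • (ψ v • r + (φ r v + ψ v * φ r r) • p))⟩
      have := congrArg (· • v0) this
      simp [mul_smul _ (_ * _), hh r hr, ψp, φp r hr, hr, h1] at this
      have e : φ r r • p = 0 := by
        linear_combination (norm := module) this - h4 • (r + (φ r v0 + φ r r) • p)
      exact (smul_eq_zero.1 e).resolve_right hp
    · obtain ⟨χ, a1, a2⟩ := exists_dual_one_zero h3
      obtain ⟨g, hg⟩ := exists_tor a1 h1 (a := -1) (by simp)
      have := E r hr g 1 (-1) (by simp [hg, ψp, a2]) (fun v => by simp [hg, h1, hr]; ring)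
        (by simp [hg, hr, a1]; module) r hr
      simp [hg, hr, a1] at this
      exact this.resolve_left fun h => h4 (by linear_combination -h)
  obtain ⟨v, hv, hv'⟩ : ∃ v, ψ v = 0 ∧ φ r v ≠ 0 := by
    by_contra! H
    have e : ∀ v, φ r v = φ r v0 * ψ v := fun v => by
      have := H (v - ψ v • v0) (by simp [h1])
      simp at this; linear_combination this
    have e2 : ψ (r + φ r v0 • p) = 0 := by simp [ψp, ψr]
    have := triv hn hX hω (h (r + φ r v0 • p) fun h => hr (by
      rw [eq_neg_of_add_eq_zero_left h]; exact neg_mem (smem _ _))) (mem_SS.2 ⟨e2, by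
      rw [show tr _ ψ = tr p (φ r) * tr r ψ from g_ext fun v => by
        rw [hh r ψr, tr_apply e2, e v, Alt r ψr]; module, φω r ψr]⟩)
    simp [this] at h1
  have S : ∀ r r', ψ r = 0 → ψ r' = 0 → φ r r' = φ r' r := fun r r' ψr hr' => by
    have := E0 r ψr _ 1 1 (φ r' r) (φω r' hr') (by simp [hh r' hr', ψp, φp r' hr'])
      (fun v => by simp [hh r' hr', ψp, hr']) (by simp [hh r' hr', ψr]) v0
    simp [hh r' hr', h1, φp r ψr] at this
    linear_combination this
  have hvr : v ∉ Submodule.span F {p, r} := fun h => by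
    obtain ⟨a, b, rfl⟩ := Submodule.mem_span_pair.1 h
    simp [φp r ψr, Alt r ψr] at hv'
  have hq : 2 ≤ q := Finite.one_lt_card
  by_cases h4 : (2 : F) = 0
  swap
  · have e : ψ (r + v) = 0 := by simp [hv, ψr]
    have e1 := Alt _ e
    rw [map_add (φ (r + v)), ← S r _ ψr e, ← S v _ hv e, map_add, map_add, Alt r ψr, Alt v hv, ← S r v ψr hv] at e1
    exact mul_ne_zero h4 hv' (by linear_combination e1)
  by_cases hq2 : q = 2
  · have e := LinearMap.finrank_range_add_finrank_ker ψ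
    rw [show LinearMap.range ψ = ⊤ from eq_top_iff.2 fun c _ => ⟨c • v0, by simp [h1]⟩, finrank_top,
      finrank_self] at e
    by_cases h3 : n = 3
    · refine hvr ((Submodule.eq_of_le_of_finrank_le (S₂ := LinearMap.ker ψ) h2 ?_).ge hv)
      rw [finrank_pair hp hr]; omega
    classical
    obtain ⟨r', a1, a2⟩ := exists_notMem_of_finrank_lt' (H := Submodule.span F {p, r, v}) (W := LinearMap.ker ψ) (by
      have := (finrank_span_finset_le_card (R := F) ({p, r, v} : Finset V)).trans Finset.card_le_three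
      rw [Set.finrank, Finset.coe_insert, Finset.coe_pair] at this
      omega)
    obtain ⟨χ, b1, b2⟩ := exists_dual_one a2
    have b3 := b2 v (Submodule.subset_span (by simp))
    have := E r ψr (tr v χ) 1 1 (by rw [tr_fix (b2 p (Submodule.subset_span (by simp))), one_smul])
      (fun w => by simp [tr_apply b3, hv]) (by rw [tr_fix (b2 r (Submodule.subset_span (by simp))), one_smul]) r' a1
    simp [tr_apply b3, b1, hv'] at this
  · obtain ⟨a, a0, a1⟩ := exists_sq_ne_one_of_four_le (F := F) (by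
      by_contra H
      exact two_ne_of_odd (show Odd q by rw [show q = 3 by omega]; decide) h4)
    obtain ⟨χ, b1, b2⟩ := exists_dual_one hvr
    obtain ⟨χ', c1, c2⟩ := exists_dual_one (W := Submodule.span F {r, v}) (v := p) fun h => hvr (by
      rw [span_eq hp hr h (Submodule.subset_span (by simp))]; exact Submodule.subset_span (by simp))
    have b3 := b2 p (Submodule.subset_span (by simp))
    have b4 := b2 r (Submodule.subset_span (by simp))
    have c3 := c2 r (Submodule.subset_span (by simp))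
    have c4 := c2 v (Submodule.subset_span (by simp))
    obtain ⟨g, hg⟩ := exists_tor c1 b1 a0
    have := E r ψr g a 1 (by simp [hg, b3, c1]; module) (fun w => by simp [hg, ψp, hv])
      (by simp [hg, b4, c3]) v hv
    simp [hg, b1, c4, φp r ψr] at this
    refine a1 (mul_right_cancel₀ hv' ?_)
    linear_combination (-a) * this + φ r v * mul_inv_cancel₀ a0

omit h in
theorem main [Nonempty X] (hexc : ¬ (n = 4 ∧ q = 2)) : False := by
  classical
  have := Fintype.ofFinite V
  have := Fintype.ofFinite X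
  have hq : 2 ≤ q := Finite.one_lt_card
  obtain ⟨k, hk⟩ : ∃ k, n = k + 1 := ⟨n - 1, by omega⟩
  have c : (Finset.univ.erase (0 : V)).card * q ^ k ≤ (Finset.univ : Finset X).card * (q ^ k * (q - 1)) :=
    Finset.card_mul_le_card_mul (fun p ω => p ∉ PS (St F V ω)) (fun p hp => by
      have hp := Finset.ne_of_mem_erase hp
      obtain ⟨ω, h1⟩ := exists_reg hn hX hω hp
      have h2 := card_AA (F := F) hp ω
      rw [h1, AddSubgroup.card_top, Module.natCard_eq_pow_finrank (K := F), hk, pow_succ'] at h2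
      rw [Nat.eq_of_mul_eq_mul_left (by omega) h2, ← Set.ncard_coe_finset]
      refine Set.ncard_le_ncard (fun y hy => ?_) (Finset.finite_toSet _)
      simp only [Finset.mem_coe, Finset.mem_bipartiteAbove, Finset.mem_univ, true_and, mem_PS_iff,
        AA_of_ob ((rr F p).orb_eq hy), h1]
      obtain ⟨x, hx⟩ := exists_notMem (W := F ∙ p) (by rw [finrank_span_singleton hp]; omega)
      exact fun h => hx (h x trivial)) fun ω _ => by
      obtain ⟨p, -, hp⟩ := SetLike.exists_of_lt (lt_top_iff_ne_top.2 (PS_ne (hω ω)))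
      have h1 := Submodule.finrank_add_le_finrank_add_finrank (PS (St F V ω)) (F ∙ p)
      rw [sup_top hn hX hω hp (PS_ne_bot hn hX hω hexc), finrank_top,
        finrank_span_singleton (by rintro rfl; simp at hp)] at h1
      have h2 := Finset.card_filter_add_card_filter_not (s := Finset.univ) (· ∈ PS (St F V ω))
      rw [Finset.card_univ, ← Nat.card_eq_fintype_card, Module.natCard_eq_pow_finrank (K := F),
        ← Fintype.card_subtype, ← Nat.card_eq_fintype_card, card_sub, hk, pow_succ] at h2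
      have h3 := Nat.pow_le_pow_right (show q > 0 by omega) (show k ≤ finrank F (PS (St F V ω)) by omega)
      refine (Finset.card_le_card (t := Finset.univ.filter (· ∉ PS (St F V ω))) fun x hx => by
        simpa using ((Finset.mem_bipartiteBelow _).1 hx).2).trans ?_
      rw [Nat.mul_sub, mul_one]; omega
  rw [Finset.card_erase_of_mem (Finset.mem_univ _), Finset.card_univ, Finset.card_univ,
    ← Nat.card_eq_fintype_card, ← Nat.card_eq_fintype_card, Module.natCard_eq_pow_finrank (K := F),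
    mul_left_comm, mul_comm _ (q ^ k)] at c
  have := Nat.le_of_mul_le_mul_left c (by positivity)
  rw [HX, mul_comm] at hX
  omega

omit h hX hω hn

variable (F) in
def Ls (y : V) : Subgroup G where
  carrier := {g | ∃ t : Fˣ, g • y = (t : F) • y}
  one_mem' := ⟨1, by simp⟩
  mul_mem' := by
    rintro a b ⟨s, hs⟩ ⟨t, ht⟩
    exact ⟨t * s, by rw [mul_smul, ht, g_smul, hs, smul_smul, Units.val_mul]⟩
  inv_mem' := by
    rintro a ⟨s, hs⟩
    exact ⟨s⁻¹, by rw [inv_smul_eq_iff, g_smul, hs, smul_smul]; simp⟩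

theorem index_Ls (hn : 3 ≤ n) {y : V} (hy : y ≠ 0) : (Ls F y).index * (q - 1) = q ^ n - 1 := by
  rw [← Nat.card_units, Subgroup.index, ← Nat.card_prod, ← Module.natCard_eq_pow_finrank, ← Set.ncard_univ V,
    ← Set.ncard_diff_singleton_of_mem (Set.mem_univ (0 : V))]
  refine Nat.card_congr (Equiv.ofBijective (fun p => ⟨(p.2 : F) • p.1.out • y, trivial,
    smul_ne_zero p.2.ne_zero (g_ne _ hy)⟩) ⟨?_, ?_⟩)
  · rintro ⟨a, s⟩ ⟨b, t⟩ h
    replace h : (s : F) • a.out • y = (t : F) • b.out • y := congrArg Subtype.val h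
    obtain rfl : a = b := by
      rw [← a.out_eq, ← b.out_eq]
      exact QuotientGroup.eq.2 ⟨t⁻¹ * s, by
        rw [mul_smul, inv_smul_eq_iff, g_smul, Units.val_mul, mul_smul, h, smul_smul]; simp⟩
    rw [Units.ext (smul_left_injective F (g_ne _ hy) h)]
  · rintro ⟨x, -, hx⟩
    obtain ⟨g, hg⟩ := trans1 hn hy hx
    obtain ⟨⟨l, s, hs⟩, hl⟩ := QuotientGroup.mk_out_eq_mul (Ls F y) g
    refine ⟨(g, s⁻¹), Subtype.ext ?_⟩
    change _ • (g : G ⧸ Ls F y).out • y = x
    rw [hl, mul_smul, hs, g_smul, hg, smul_smul]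
    simp

instance : Finite G := Finite.of_injective (fun g : G => (g.1 : V → V))
  fun _ _ h => g_ext (congrFun h)

variable (F V) in
theorem minIdx (hn : 3 ≤ n) (hexc : ¬ (n = 4 ∧ q = 2)) :
    MinIdx (G ⧸ Subgroup.center G) ((q ^ n - 1) / (q - 1)) := by
  have hq : 2 ≤ q := Finite.one_lt_card
  obtain ⟨y, hy⟩ := exists_notMem (W := (⊥ : Submodule F V)) (by simp; omega)
  have h := index_Ls hn hy
  rw [← h, Nat.mul_div_cancel _ (by omega)]
  refine MinIdx.of_surj (QuotientGroup.mk' _) (QuotientGroup.mk'_surjective _) (fun H hH => ?_)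
    (fun g hg => ?_) rfl
  · by_contra! hN
    refine main (X := G ⧸ H) hn ?_ (fun ω h => hH ?_) hexc
    · have := Nat.mul_le_mul_right (q - 1) hN
      have : 0 < q ^ n := by positivity
      rw [Nat.succ_mul, h, mul_comm] at *
      change _ * H.index + _ ≤ _
      omega
    · obtain ⟨k, rfl⟩ := MulAction.exists_smul_eq G ((1 : G) : G ⧸ H) ω
      exact eq_top_iff.2 fun g _ => by simpa [QuotientGroup.eq] using (h (k * g * k⁻¹)).symm
  · rw [QuotientGroup.ker_mk'] at hg
    obtain ⟨x, hx⟩ := exists_notMem (W := F ∙ y) (by rw [finrank_span_singleton hy]; omega)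
    obtain ⟨φ, h1, h2⟩ := exists_dual_one_zero hx
    have := congrArg (· • x) (Subgroup.mem_center_iff.1 hg (tr y φ))
    simp only [mul_smul, tr_apply h2, smul_add, h1, one_smul, add_right_inj] at this
    exact ⟨Units.mk0 _ (fun h => g_ne g hy (by rw [← this, h, zero_smul])), this.symm⟩

end Cfsg.Agent.H26.ML
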