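import Mathlib
import Cfsg.Agent.H12.SBridge
import Cfsg.Agent.H26.MS1
import Cfsg.Agent.H26.MO9

/-! The minimal index of a proper subgroup of `Sp_2m(2)`. -/

set_option autoImplicit false
set_option linter.unusedSectionVars false

namespace Cfsg.Agent.H26.MS

open Module H12 MD
open scoped Pointwise

theorem no_fix {G : Type*} [Group G] {H : Subgroup G} (hH : H ≠ ⊤) (ω : G ⧸ H) : ¬ ∀ g : G, g • ω = ω :=
  fun h => hH (eq_top_iff.2 fun g _ => by
    have : ∀ x, x = ω := fun x => by obtain ⟨k, rfl⟩ := MulAction.exists_smul_eq G ω x; exact h k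
    simpa using QuotientGroup.eq.1 ((this (1 : G)).trans (this g).symm))

variable {F V : Type*} [Field F] [Finite F] [AddCommGroup V] [Module F V] [FiniteDimensional F V]
  [Finite V] {B : V →ₛₗ[RingHom.id F] V →ₗ[F] F} [hC : SC B]

local notation "q" => Nat.card F
local notation "n" => finrank F V

section
variable {X : Type*} [MulAction (UG B) X] [Finite X]

theorem sum_le' (e : V) {P : AddSubgroup V → AddSubgroup F → Prop} {Z : Set X}
    (hZ : ∀ ω : X, P (SS B e ω) (GG B e ω) → ω ∈ Z) : ∑ O ∈ MP B X e P, O.ncard ≤ Z.ncard := by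
  classical
  have := Fintype.ofFinite X
  simp only [Set.ncard_eq_toFinset_card']
  rw [← Finset.card_biUnion]
  · refine Finset.card_le_card fun z hz => ?_
    obtain ⟨O, hO, hz⟩ := Finset.mem_biUnion.1 hz
    obtain ⟨ω, rfl, -⟩ := mem_MP.1 hO
    have e1 : ob B e z = ob B e ω := (rm1 B e).orb_eq (Set.mem_toFinset.1 hz)
    exact Set.mem_toFinset.2 (hZ z (ob_mem_MP.1 (e1 ▸ hO)))
  · intro O hO O' hO' hne
    obtain ⟨ω, rfl, -⟩ := mem_MP.1 hO
    obtain ⟨ω', rfl, -⟩ := mem_MP.1 hO'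
    exact Set.disjoint_toFinset.2 (Set.disjoint_left.2 fun z h1 h2 =>
      hne (((rm1 B e).orb_eq h1).symm.trans ((rm1 B e).orb_eq h2)))

theorem exists_AA {e u : V} {ω : X} (hu : B e u = 0) (h : u ∉ SS B e ω) : ∃ y ∈ AA B e ω, y ∉ F ∙ e := by
  by_contra! H
  refine h (mem_of_Ann (hβ (B := B)) fun x hx => ?_)
  obtain ⟨c, rfl⟩ := Submodule.mem_span_singleton.1 (H x hx)
  simp [hu]

theorem cnt_AA {e : V} (h0 : e ≠ 0) (R : AddSubgroup F → Prop) (ω : X) {y : V} (hy : B e y = 0)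
    (hy' : y ∉ F ∙ e) : (MP B X e fun S G => (Nat.card S = Nat.card (SS B e ω) ∧ R G) ∧ y ∈ Ann B S).card *
      (q ^ (n - 1) - q) = (MP B X e fun S G => Nat.card S = Nat.card (SS B e ω) ∧ R G).card *
      (Nat.card (AA B e ω) - q) :=
  countS h0 (Ann B) (fun g hg ω h => by rwa [card_SS_f hg, GG_f hg])
    (fun g hg ω y h => mem_AA_f hg h) (self_mem_AA e) (fun _ _ => perp_of_AA)
    (fun S G h => Nat.eq_of_mul_eq_mul_right Nat.card_pos (by rw [card_AA, h.1, card_AA])) hy hy'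

theorem cnt_SS {e : V} (h0 : e ≠ 0) (R : AddSubgroup F → Prop) (s : ℕ) {y : V} (hy : B e y = 0)
    (hy' : y ∉ F ∙ e) : (MP B X e fun S G => (Nat.card S = s ∧ R G) ∧ y ∈ S).card *
      (q ^ (n - 1) - q) = (MP B X e fun S G => Nat.card S = s ∧ R G).card * (s - q) :=
  countS h0 id (fun g hg ω h => by rwa [card_SS_f hg, GG_f hg])
    (fun g hg ω y h => (mem_SS_f hg).2 h) (fun ω => self_mem_SS e ω)
    (fun _ _ h => (mem_SS.1 h).1) (fun S G h => h.1) hy hy'

theorem all_of_ES {ω : X} {x y : V} (hx : ∀ u c, B x u = 0 → rho B x u c • ω = ω)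
    (hy : ∀ u c, B y u = 0 → rho B y u c • ω = ω) (h : B x y ≠ 0) (g : UG B) : g • ω = ω := by
  have : ∀ {x}, (∀ u c, B x u = 0 → rho B x u c • ω = ω) → ES (MulAction.stabilizer (UG B) ω) x :=
    fun {x} hx => ⟨Bss x, fun u c => by
      by_cases h : B x u = 0
      · exact hx u c h
      · rw [rho_of_not fun h' => h h'.eu]; exact one_mem _⟩
  exact hC.sd.SUG_le_of_ES₂ ns_id (this hx) (this hy) h (by rw [hC.sd.SUG_eq_top rfl]; trivial)

end

theorem exists_pair {e : V} (he : e ≠ 0) : ∃ u v, B e u = 0 ∧ B e v = 0 ∧ B u v = 1 := by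
  obtain ⟨u, hu, hu'⟩ := exists_notMem_of_finrank_lt (H := F ∙ e) (W := P1 B e) (by
    rw [finrank_P1 he, finrank_span_singleton he]; have := hC.four; omega)
  obtain ⟨v, h1, h2⟩ := hC.sd.exists_perp_one (F ∙ e) hu'
  exact ⟨u, v, mem_P1.1 hu, h1 e (Submodule.mem_span_singleton_self e), h2⟩

theorem t_comm {x y : V} (h : B x y = 0) (c d : F) : tv B x c * tv B y d = tv B y d * tv B x c := by
  rw [← mul_inv_eq_iff_eq_mul, conj_t, t_fix c h]

variable (h2 : Nat.card F = 2)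
include h2

theorem two0 (a : F) : a + a = 0 := by
  have : (1 : F) + 1 = 0 := by_contra fun h => by simpa using eq_of_two h2 h
  linear_combination a * this

open Classical in
theorem sq_sum (D : Submodule F V) [Fintype D] (θ : V → F)
    (hθ : ∀ u ∈ D, ∀ v ∈ D, θ (u + v) = θ u + θ v + B u v) :
    (∑ y : D, if θ y = 0 then (1 : ℤ) else -1) ^ 2 = Nat.card D *
      ∑ z ∈ Finset.univ.filter (fun z : D => ∀ y ∈ D, B y z.1 = 0), if θ z.1 = 0 then (1 : ℤ) else -1 := by
  set χ : F → ℤ := fun a => if a = 0 then 1 else -1 with hχ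
  have h1 : ∀ a b, χ (a + b) = χ a * χ b := fun a b => by
    by_cases ha : a = 0
    · simp [ha, hχ]
    by_cases hb : b = 0
    · simp [hb, hχ]
    rw [eq_of_two h2 ha, eq_of_two h2 hb, two0 h2]; simp [hχ]
  have h3 : ∀ a, χ a * χ a = 1 := fun a => by rw [← h1, two0 h2]; simp [hχ]
  change (∑ y : D, χ (θ y)) ^ 2 = _ * ∑ z ∈ Finset.univ.filter (fun z : D => ∀ y ∈ D, B y z.1 = 0), χ (θ z.1)
  have h4 : ∀ y : D, χ (θ y) * ∑ z : D, χ (θ z) = ∑ z : D, χ (θ y) * χ (θ (Equiv.addLeft y z : D)) :=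
    fun y => by rw [← Equiv.sum_comp (Equiv.addLeft y), Finset.mul_sum]
  rw [sq, Finset.sum_mul]
  simp only [h4]
  rw [Finset.sum_comm, Finset.sum_filter, Finset.mul_sum]
  refine Finset.sum_congr rfl fun z _ => ?_
  simp only [Equiv.coe_addLeft, Submodule.coe_add, hθ _ (Subtype.mem _) _ z.2, h1, ← mul_assoc, h3, one_mul]
  rw [← Finset.mul_sum]
  split_ifs with h
  · simp [fun y : D => h y y.2, hχ, mul_comm]
  · push Not at h
    obtain ⟨y, hy, h⟩ := h
    have := Equiv.sum_comp (Equiv.addRight (⟨y, hy⟩ : D)) fun a : D => χ (B a z)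
    simp only [Equiv.coe_addRight, Submodule.coe_add, map_add, LinearMap.add_apply, h1, ← Finset.sum_mul,
      show χ (B y z) = -1 by simp [hχ, h]] at this
    rw [show ∑ a : D, χ (B a z) = 0 by linarith]; simp

omit h2 in
open Classical in
theorem sum_eq (D : Submodule F V) [Fintype D] (θ : V → F) :
    (∑ y : D, if θ y = 0 then (1 : ℤ) else -1) + Nat.card D = 2 * {y | y ∈ D ∧ θ y = 0}.ncard := by
  have : {y | y ∈ D ∧ θ y = 0}.ncard = (Finset.univ.filter fun y : D => θ y = 0).card := by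
    rw [← Fintype.card_subtype, ← Nat.card_eq_fintype_card]
    exact Nat.card_congr ⟨fun a => ⟨⟨a.1, a.2.1⟩, a.2.2⟩, fun a => ⟨a.1.1, a.1.2, a.2⟩, fun _ => rfl, fun _ => rfl⟩
  rw [this, Nat.card_eq_fintype_card, ← Finset.card_univ, Finset.card_eq_sum_ones, Finset.card_filter]
  push_cast
  rw [← Finset.sum_add_distrib, Finset.mul_sum]
  exact Finset.sum_congr rfl fun y _ => by split_ifs <;> simp

variable {X : Type*} [MulAction (UG B) X] [Finite X] {r : ℕ} (hr : 2 * (r * r) = 2 ^ (finrank F V - 1))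
  (hX : Nat.card X + r < 2 * (r * r)) (h6 : 6 ≤ finrank F V)
include hr hX h6

omit h2 hX in
theorem four_le : 4 ≤ r := by
  have := Nat.pow_le_pow_right two_pos (show 5 ≤ n - 1 by omega)
  nlinarith

theorem full {e u : V} {ω : X} (h0 : e ≠ 0) (h : ¬ TT B ω e) (hu : B e u = 0) : u ∈ SS B e ω := by
  classical
  have := Fintype.ofFinite F
  by_contra H
  obtain ⟨y, hy, hy'⟩ := exists_AA hu H
  obtain ⟨a, ha, a0⟩ := exists_GG h
  have c1 := cnt_AA h0 (a ∈ ·) ω (perp_of_AA hy) hy'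
  have c2 := countA (B := B) (X := X) (P := fun S _ => Nat.card S = Nat.card (SS B e ω)) h0 fun _ _ h => h
  have c3 := (Finset.sum_le_sum_of_subset (f := fun a => (MP B X e fun S G =>
    Nat.card S = Nat.card (SS B e ω) ∧ a ∈ G).card) (Finset.subset_univ {0, a}))
  rw [Finset.sum_pair a0.symm] at c3
  have c4 := Finset.card_le_card (MP_mono (B := B) (X := X) (e := e)
    (P := fun S G => Nat.card S = Nat.card (SS B e ω) ∧ a ∈ G)
    (P' := fun S G => Nat.card S = Nat.card (SS B e ω) ∧ 0 ∈ G) fun _ h => ⟨h.1, zero_mem _⟩)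
  have c5 := Finset.card_pos.2 ⟨_, (ob_mem_MP (B := B) (e := e) (ω := ω) (P := fun S G =>
    (Nat.card S = Nat.card (SS B e ω) ∧ a ∈ G) ∧ y ∈ Ann B S)).2 ⟨⟨rfl, ha⟩, hy⟩⟩
  have c6 := card_AA (B := B) (SS B e ω)
  have c7 := four_le hr h6
  have c8 : 0 < Nat.card (SS B e ω) := Nat.card_pos
  rw [show n = n - 1 + 1 by omega, pow_succ] at c6
  rw [h2, ← hr] at c1 c2 c6
  generalize Nat.card (AA B e ω) = t at *
  generalize Nat.card (SS B e ω) = s at *
  generalize (MP B X e fun S G => Nat.card S = s ∧ a ∈ G).card = k at *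
  have c9 : k * t ≤ Nat.card X := Nat.le_of_mul_le_mul_right (a := k * t) (c := s) (by
    rw [mul_assoc, c6]; nlinarith) c8
  have := Nat.mul_le_mul_left k (Nat.sub_le t 2)
  have := Nat.mul_le_mul_right (2 * (r * r) - 2) c5
  omega

omit hr hX h6 in
theorem all01 {p : F → Prop} {c : F} (h0 : p c) (h1 : p (c + 1)) (d : F) : p d := by
  by_cases h : d - c = 0
  · rwa [sub_eq_zero.1 h]
  · rwa [← eq_of_two h2 h, add_sub_cancel] at h1

theorem exists_θ {e : V} {ω : X} (h0 : e ≠ 0) (h : ¬ TT B ω e) : ∃ θ : V → F,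
    (∀ u c, B e u = 0 → (rho B e u c • ω = ω ↔ c = θ u)) ∧
    (∀ u ∈ P1 B e, ∀ v ∈ P1 B e, θ (u + v) = θ u + θ v + B u v) ∧ θ e = 0 ∧ θ 0 = 0 := by
  have h1 : ∀ u, ∃ c, B e u = 0 → rho B e u c • ω = ω := fun u => by
    by_cases hu : B e u = 0
    · exact (mem_SS.1 (full h2 hr hX h6 h0 h hu)).2.imp fun _ h _ => h
    · exact ⟨0, fun h => absurd h hu⟩
  choose θ hθ using h1
  have h3 : ∀ u c, B e u = 0 → (rho B e u c • ω = ω ↔ c = θ u) := fun u c hu =>
    ⟨fun hc => by_contra fun h' => h (all01 h2 (c := 0) (by rw [tv_zero hC.sd, one_smul]) (by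
      have := congrArg (· • ω) (t_R hu (c - θ u) (θ u))
      rw [sub_add_cancel, eq_of_two h2 (sub_ne_zero.2 h')] at this
      simpa [mul_smul, hθ u hu, hc] using this)), fun h => h ▸ hθ u hu⟩
  refine ⟨θ, h3, fun u hu v hv => ((h3 _ _ (mem_P1.1 (add_mem hu hv))).1 ?_).symm,
    ((h3 _ _ (Bss e)).1 ?_).symm, ((h3 _ _ (by simp)).1 ?_).symm⟩
  · rw [← R_mul (mem_P1.1 hu) (mem_P1.1 hv), mul_smul, hθ v (mem_P1.1 hv), hθ u (mem_P1.1 hu)]
  · have := R_add (B := B) (e := e) (u := 0) (by simp) 0 1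
    rw [zero_add, one_smul, two0 h2, add_zero, rho_zero hC.sd] at this
    rw [this, one_smul]
  · rw [rho_zero hC.sd, one_smul]

omit hr hX h6 in
theorem R_one {e u : V} (hu : B e u = 0) : rho B e u 1 = tv B (e + u) 1 * tv B u 1 := by
  have := rho_eq_tv_mul hC.sd (Bss e) (Bss u) hu (c := 1) rfl
  rwa [one_smul, neg_eq_of_add_eq_zero_left (two0 h2 1)] at this

omit hr hX h6 in
theorem t_t (x : V) (ω : X) : tv B x 1 • tv B x 1 • ω = ω := by
  rw [← mul_smul, t_mul, two0 h2, tv_zero hC.sd, one_smul]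

theorem card_X1 {e : V} {ω : X} (h0 : e ≠ 0) (h : ¬ TT B ω e) :
    r * r ≤ {y : X | ¬ TT B y e}.ncard + r := by
  classical
  have := Fintype.ofFinite (P1 B e)
  obtain ⟨θ, h1, h3, h4, h5⟩ := exists_θ h2 hr hX h6 h0 h
  have c1 := sq_sum h2 (P1 B e) θ h3
  have c2 := sum_eq (P1 B e) θ
  have c3 : (Finset.univ.filter fun z : P1 B e => ∀ y ∈ P1 B e, B y z = 0) =
      {0, ⟨e, mem_P1.2 (Bss e)⟩} := by
    ext z
    simp only [Finset.mem_filter, Finset.mem_univ, true_and, Finset.mem_insert, Finset.mem_singleton]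
    refine ⟨fun hz => ?_, by rintro (rfl | rfl) y hy <;> simp [c0 (mem_P1.1 hy)]⟩
    obtain ⟨c, hc⟩ := Submodule.mem_span_singleton.1 (hC.sd.sperp_sperp (F ∙ e) ▸ hz : z.1 ∈ F ∙ e)
    by_cases hc0 : c = 0
    · exact Or.inl (Subtype.ext (by simp [← hc, hc0]))
    · exact Or.inr (Subtype.ext (by simp [← hc, eq_of_two h2 hc0]))
  rw [c3, Finset.sum_pair (fun h => h0 (congrArg Subtype.val h).symm)] at c1
  simp only [ZeroMemClass.coe_zero, h4, h5, if_true] at c1
  rw [card_sub, finrank_P1 h0, h2, ← hr] at c1 c2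
  have c4 : {y | y ∈ P1 B e ∧ θ y = 0}.ncard ≤ {y : X | ¬ TT B y e}.ncard := by
    refine Set.ncard_le_ncard_of_injOn (fun y => tv B y 1 • ω) (fun y hy hT => h ?_) fun y hy z hz (hyz : tv B y 1 • ω = tv B z 1 • ω) => ?_
    · simpa [inv_smul_eq_iff.2 (t_fix 1 (c0 (mem_P1.1 hy.1))).symm] using TT.map hT (tv B y 1)⁻¹
    have key : ∀ y ∈ P1 B e, θ y = 0 → ∀ u, B e u = 0 →
        rho B e u (θ u + B y u) • tv B y 1 • ω = tv B y 1 • ω := fun y hy hy' u hu => by
      have e1 := conj_R (tv B y 1) e (tv B y 1 • u) (θ u + B y u)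
      rw [t_fix 1 (c0 (mem_P1.1 hy)), ← mul_smul, t_mul, two0 h2, tv_zero hC.sd, one_smul] at e1
      rw [← e1, mul_smul, inv_smul_smul, mul_smul, (h1 _ _ (by simp [t_apply, hu, mem_P1.1 hy])).2]
      rw [t_apply, h3 _ (mem_P1.2 hu) _ (Submodule.smul_mem _ _ hy)]
      by_cases hb : B y u = 0
      · simp [hb, h5]
      · simp [eq_of_two h2 hb, hy', eq_of_two h2 (n0 hb)]
    have hT : ¬ TT B (tv B y 1 • ω) e := fun hT => h (by
      simpa [inv_smul_eq_iff.2 (t_fix 1 (c0 (mem_P1.1 hy.1))).symm] using TT.map hT (tv B y 1)⁻¹)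
    obtain ⟨θ', k1, -⟩ := exists_θ h2 hr hX h6 h0 hT
    obtain ⟨c, hc⟩ := Submodule.mem_span_singleton.1 (hC.sd.sperp_sperp (F ∙ e) ▸ fun u hu => c0 (by
      have a := (k1 _ _ (mem_P1.1 hu)).1 (key y hy.1 hy.2 u (mem_P1.1 hu))
      have b := (k1 _ _ (mem_P1.1 hu)).1 (hyz ▸ key z hz.1 hz.2 u (mem_P1.1 hu))
      simp; linear_combination a - b) : y - z ∈ F ∙ e)
    by_cases hc0 : c = 0
    · simpa [hc0, eq_comm, sub_eq_zero] using hc
    rw [eq_of_two h2 hc0, one_smul, eq_sub_iff_add_eq] at hc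
    have := (h1 z 1 (mem_P1.1 hz.1)).1 (by
      rw [R_one h2 (mem_P1.1 hz.1), hc, mul_smul]; exact hyz ▸ t_t h2 y ω)
    simp [hz.2] at this
  generalize (∑ y : P1 B e, if θ y = 0 then (1 : ℤ) else -1) = s at c1 c2
  have : -(2 * r : ℤ) ≤ s := (abs_le_of_sq_le_sq' (by rw [c1]; push_cast; linarith) (by positivity)).1
  push_cast at c2
  zify at c4 ⊢
  linarith

theorem es_of_TT (hω : ∀ ω : X, ¬ ∀ g : UG B, g • ω = ω) {e u : V} {ω : X} (h0 : e ≠ 0) (h : TT B ω e)
    (c : F) (hu : B e u = 0) : rho B e u c • ω = ω := by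
  classical
  obtain ⟨c', hc⟩ : ∃ c', rho B e u c' • ω = ω := by
    by_contra H
    obtain ⟨y, hy, hy'⟩ := exists_AA (ω := ω) hu fun h => H (mem_SS.1 h).2
    obtain ⟨x, hx⟩ := not_forall.1 fun h => hω ω (all_of_TT h)
    obtain ⟨g, rfl⟩ := trans1 (B := B) (show x ≠ 0 by rintro rfl; exact hx (TT.zero ω)) h0
    have c0 := card_X1 h2 hr hX h6 (ω := g • ω) h0 fun h => hx (by simpa using h.map g⁻¹)
    set e := g • x
    have c1 := cnt_AA h0 (1 ∉ ·) ω (perp_of_AA hy) hy'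
    have c2 := sum_le' (B := B) (P := fun S G => Nat.card S = Nat.card (SS B e ω) ∧ 1 ∉ G) e
      (Z := {y : X | TT B y e}) fun y hy => by_contra fun h => by
        obtain ⟨a, ha, a0⟩ := exists_GG h
        exact hy.2 (eq_of_two h2 a0 ▸ ha)
    have c6 := card_AA (B := B) (SS B e ω)
    rw [show n = n - 1 + 1 by omega, pow_succ] at c6
    have c3 : ∀ O ∈ MP B X e fun S G => Nat.card S = Nat.card (SS B e ω) ∧ 1 ∉ G,
        O.ncard * 2 = Nat.card (AA B e ω) := fun O hO => by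
      obtain ⟨y, rfl, h3, h4⟩ := mem_MP.1 hO
      have := card_ob (B := B) h0 y
      rw [h3, show GG B e y = ⊥ from eq_bot_iff.2 fun a ha => by_contra fun a0 =>
        h4 (eq_of_two h2 a0 ▸ ha), AddSubgroup.card_bot, mul_one] at this
      refine Nat.eq_of_mul_eq_mul_right (Nat.card_pos (α := SS B e ω)) ?_
      rw [c6, mul_right_comm, this, h2]
    have c4 := Finset.sum_congr rfl c3
    rw [← Finset.sum_mul, Finset.sum_const, smul_eq_mul] at c4
    have c5 := Finset.card_pos.2 ⟨_, (ob_mem_MP (B := B) (e := e) (ω := ω) (P := fun S G =>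
      (Nat.card S = Nat.card (SS B e ω) ∧ 1 ∉ G) ∧ y ∈ Ann B S)).2
        ⟨⟨rfl, fun h' => one_ne_zero (h.of_GG h')⟩, hy⟩⟩
    have c7 := Set.ncard_add_ncard_compl {y : X | TT B y e}
    have c8 := four_le hr h6
    rw [h2, ← hr] at c1
    change _ ≤ {y : X | TT B y e}ᶜ.ncard + r at c0
    generalize Nat.card (AA B e ω) = t at *
    generalize (MP B X e fun S G => Nat.card S = Nat.card (SS B e ω) ∧ 1 ∉ G).card = k at *
    have := Nat.mul_le_mul_right (2 * (r * r) - 2) c5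
    have h16 : 16 ≤ r * r := by nlinarith
    obtain ⟨t, rfl⟩ : ∃ t', t = t' + 2 := ⟨t - 2, by
      by_contra h; rw [show t - 2 = 0 by omega] at c1; omega⟩
    obtain ⟨k, rfl⟩ : ∃ k', k = k' + 1 := ⟨k - 1, by
      by_contra h; rw [show k = 0 by omega] at c1; omega⟩
    rw [Nat.add_sub_cancel] at c1
    have : (k + 1) * (t + 2) = (k + 1) * t + 2 * k + 2 := by ring
    omega
  rw [← sub_add_cancel c c', ← t_R hu, mul_smul, hc, h]

theorem no_TT (hω : ∀ ω : X, ¬ ∀ g : UG B, g • ω = ω) {x : V} (ω : X) (h0 : x ≠ 0) : ¬ TT B ω x := by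
  intro hx
  have es := fun {x} (h0 : x ≠ 0) (hx : TT B ω x) u c => es_of_TT h2 hr hX h6 hω (u := u) h0 hx c
  have key : ∀ y, TT B ω y → B x y = 0 := fun y hy => by_contra fun h =>
    hω ω (all_of_ES (es h0 hx) (es (by rintro rfl; simp at h) hy) h)
  obtain ⟨e, he⟩ := hC.sd.exists_ne h0
  have e0 : e ≠ 0 := by rintro rfl; simp at he
  obtain ⟨θ, h1, h3, -⟩ := exists_θ h2 hr hX h6 e0 fun h => he (key e h)
  obtain ⟨u, v, hu, hv, huv⟩ := exists_pair (B := B) e0
  have : ∀ u, B e u = 0 → θ u = 0 := fun u hu => by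
    have := key _ (hx.map' ((h1 u _ hu).2 rfl))
    rw [R_apply hu] at this
    simp only [map_add, map_smul, Bss, eq_of_two h2 he, eq_of_two h2 (n0 he), smul_eq_mul, Bc u x] at this
    linear_combination this
  simpa [this, hu, hv, huv] using h3 u (mem_P1.2 hu) v (mem_P1.2 hv)

theorem main2 (hω : ∀ ω : X, ¬ ∀ g : UG B, g • ω = ω) (ω : X) : False := by
  have hT := fun x h0 => no_TT h2 hr hX h6 hω (x := x) ω h0
  have h1 : ∀ x, x ≠ 0 → tv B x 1 • ω ≠ ω := fun x h0 h => hT x h0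
    (all01 h2 (p := fun c => tv B x c • ω = ω) (c := 0) (by rw [tv_zero hC.sd, one_smul]) (by rwa [zero_add]))
  have h3 : ∀ a b : V, a ≠ 0 → B a b = 0 → rho B a b 0 • ω ≠ ω → tv B (a + b) 1 • ω = tv B b 1 • ω := by
    intro a b a0 hab h
    obtain ⟨θ, k1, -⟩ := exists_θ (B := B) h2 hr hX h6 a0 (hT a a0)
    have := (k1 b 1 hab).2 (eq_of_two h2 fun e => h ((k1 b 0 hab).2 e.symm)).symm
    rw [R_one h2 hab, mul_smul] at this
    simpa only [t_t h2] using (congrArg (tv B (a + b) 1 • ·) this).symm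
  have h4 : ∀ a b, a ≠ 0 → b ≠ 0 → B a b = 0 → rho B a b 0 • ω ≠ ω → tv B a 1 • ω = tv B b 1 • ω :=
    fun a b a0 b0 hab h => by rw [← h3 a b a0 hab h, add_comm, h3 b a b0 (c0 hab) (by rwa [R_swap hab])]
  have h5 : ∀ a b, a + b ≠ 0 → B a b = 0 → tv B a 1 • ω = tv B b 1 • ω → rho B a b 0 • ω ≠ ω := by
    intro a b h0 hab h h'
    have := congrArg (· • ω) (t_R hab 1 0)
    simp only [add_zero, R_one h2 hab, mul_smul, h', ← h] at this
    rw [← mul_smul, ← t_comm (by simp [hab]), mul_smul, smul_left_cancel_iff] at this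
    exact h1 _ h0 this.symm
  have := Module.nontrivial_of_finrank_pos (R := F) (M := V) (by omega)
  obtain ⟨e, e0⟩ := exists_ne (0 : V)
  obtain ⟨θ, k1, k2, k3, k4⟩ := exists_θ (B := B) h2 hr hX h6 e0 (hT e e0)
  obtain ⟨u, hu, hu'⟩ : ∃ u, B e u = 0 ∧ θ u ≠ 0 := by
    by_contra! H
    obtain ⟨u, v, hu, hv, huv⟩ := exists_pair (B := B) e0
    simpa [H, hu, hv, huv] using k2 u (mem_P1.2 hu) v (mem_P1.2 hv)
  have ue : u ∉ F ∙ e := fun h => by
    obtain ⟨c, rfl⟩ := Submodule.mem_span_singleton.1 h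
    exact hu' (all01 h2 (p := fun c => θ (c • e) = 0) (c := 0) (by simpa) (by simpa) c)
  have uu : u + u = 0 := by rw [← one_smul F u, ← add_smul, two0 h2, zero_smul]
  have key : ∀ v, B e v = 0 → B u v = 0 → v ∉ Submodule.span F {e, u} → θ v ≠ 0 := by
    intro v v1 v2 v3 v4
    have a1 := h4 e u e0 (by rintro rfl; simp at ue) hu fun h => hu' ((k1 _ _ hu).1 h).symm
    have a2 := h4 e (u + v) e0 (fun h => v3 (by
      rw [eq_neg_of_add_eq_zero_right h]; exact neg_mem (Submodule.subset_span (by simp)))) (by simp [hu, v1])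
      fun h => hu' (by simpa [k2 u (mem_P1.2 hu) v (mem_P1.2 v1), v2, v4, eq_comm] using
        (k1 _ _ (by simp [hu, v1])).1 h)
    have a3 := h3 u (u + v) (by rintro rfl; simp at ue) (by simp [v2]) (h5 u (u + v) (by
      rw [← add_assoc, uu, zero_add]; rintro rfl; simp at v3) (by simp [v2]) (a1.symm.trans a2))
    rw [← add_assoc, uu, zero_add] at a3
    exact h5 e v (fun h => v3 (by
      rw [eq_neg_of_add_eq_zero_right h]; exact neg_mem (Submodule.subset_span (by simp)))) v1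
      (a2.trans a3.symm) ((k1 _ _ v1).2 v4.symm)
  obtain ⟨v, hv, hv'⟩ := exists_notMem_of_finrank_lt (H := Submodule.span F {e, u}) (W := spp B e u) (by
    have := H13.finrank_span_pair_le (F := F) e u
    rw [finrank_spp e0 ue]; omega)
  obtain ⟨v1, v2⟩ := mem_sperp_pair.1 hv
  refine key (u + v) (by simp [hu, v1]) (by simp [v2]) (fun h => hv' ?_) ?_
  · exact (Submodule.add_mem_iff_right _ (Submodule.subset_span (by simp))).1 h
  · rw [k2 u (mem_P1.2 hu) v (mem_P1.2 v1), v2, eq_of_two h2 hu', eq_of_two h2 (key v v1 v2 hv'), two0 h2,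
      add_zero]

omit hX in
theorem exists_minus {θ : V → F} (hθ : ∀ u v, θ (u + v) = θ u + θ v + B u v) : ∃ θ : V → F,
    (∀ u v, θ (u + v) = θ u + θ v + B u v) ∧ {y | θ y = 0}.ncard + r = 2 * (r * r) := by
  classical
  have := Fintype.ofFinite (⊤ : Submodule F V)
  have c1 := sq_sum h2 ⊤ θ fun u _ v _ => hθ u v
  have c2 := sum_eq ⊤ θ
  have c3 : (Finset.univ.filter fun z : (⊤ : Submodule F V) => ∀ y ∈ (⊤ : Submodule F V), B y z = 0) = {0} := by
    ext z; simpa using ⟨fun h => Subtype.ext (hβ _ h), by rintro rfl; simp⟩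
  have h0 : θ 0 = 0 := by simpa [two0 h2] using hθ 0 0
  have c4 := Set.ncard_add_ncard_compl {y | θ y = 0}
  rw [c3, card_sub] at c1
  rw [card_sub] at c2
  rw [Module.natCard_eq_pow_finrank (K := F)] at c4
  simp only [finrank_top, Submodule.mem_top, true_and, Finset.sum_singleton, ZeroMemClass.coe_zero, h0,
    if_true, mul_one] at c1 c2
  rw [h2, show n = n - 1 + 1 by omega, pow_succ 2, ← hr] at c1 c2 c4
  have c5 := four_le hr h6
  rcases sq_eq_sq_iff_eq_or_eq_neg.1 (c1.trans (by push_cast; ring : _ = (2 * r : ℤ) ^ 2)) with h | h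
  · obtain ⟨w, hw⟩ : {y | θ y = 0}ᶜ.Nonempty := Set.nonempty_of_ncard_ne_zero (by
      rw [h] at c2; zify at c4 c5 ⊢; nlinarith)
    refine ⟨fun y => θ y + B w y, fun u v => by simp only [hθ, map_add]; ring, ?_⟩
    rw [Set.ncard_congr (t := {y | θ y = 0}ᶜ) (fun y _ => w + y) (fun y hy => by
      simpa [hθ, add_assoc, show θ y + B w y = 0 from hy] using hw) (fun _ _ _ _ => add_left_cancel)
      fun y hy => ⟨y - w, by
        have := hθ w (y - w)
        rw [add_sub_cancel, eq_of_two h2 hy, eq_of_two h2 hw] at this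
        show _ + _ = _
        linear_combination -this, add_sub_cancel _ _⟩]
    rw [h] at c2; zify at c2 c4 ⊢; linarith
  · exact ⟨θ, hθ, by rw [h] at c2; zify at c2 ⊢; linarith⟩

omit hX in
theorem minIdx2 {θ : V → F} (hθ : ∀ u v, θ (u + v) = θ u + θ v + B u v) :
    MinIdx (UG B ⧸ Subgroup.center (UG B)) (2 * (r * r) - r) := by
  classical
  obtain ⟨θ, hθ, h⟩ := exists_minus h2 hr h6 hθ
  have h0 : θ 0 = 0 := by simpa [two0 h2] using hθ 0 0
  letI : MulAction (UG B) (V → F) := arrowAction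
  have h1 : ∀ x w, tv B x 1 • (fun y => θ y + B w y) =
      fun y => θ y + B (if θ x + B w x = 0 then w + x else w) y := fun x w => by
    funext y
    change θ ((tv B x 1)⁻¹ • y) + B w ((tv B x 1)⁻¹ • y) = _
    rw [tv_inv hC.sd, neg_eq_of_add_eq_zero_left (two0 h2 1), t_apply, hθ]
    by_cases hb : B x y = 0
    · split_ifs <;> simp [hb, h0]
    rw [eq_of_two h2 hb]
    split_ifs with h
    · simp [eq_of_two h2 hb, eq_of_two h2 (n0 hb)]; linear_combination h
    · simp [eq_of_two h2 (n0 hb)]; linear_combination eq_of_two h2 h + two0 h2 1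
  refine MinIdx.of_surj (QuotientGroup.mk' _) (QuotientGroup.mk'_surjective _) (fun H hH => ?_)
    (H := MulAction.stabilizer (UG B) θ) (fun g hg => ?_) ?_
  · by_contra! hN
    exact main2 (B := B) (X := UG B ⧸ H) h2 hr (Nat.add_lt_of_lt_sub hN) h6 (no_fix hH) (1 : UG B)
  · rw [QuotientGroup.ker_mk'] at hg
    obtain ⟨a, ha⟩ := (hC.sd.mem_center_UG_iff ns_id (by omega)).1 (inv_mem hg)
    funext y
    change θ (g⁻¹.1 y) = _
    by_cases hy : y = 0
    · simp [hy]
    rw [ha, eq_of_two h2 (a := a) (by rintro rfl; exact UG_ne_zero g⁻¹ hy (by rw [ha, zero_smul])), one_smul]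
  rw [MulAction.index_stabilizer, ← h, Nat.add_sub_cancel, ← Set.ncard_image_of_injective _
    (f := fun w y => θ y + B w y) fun a b e => hC.sd.ext_left fun z => add_left_cancel (congrFun e z)]
  congr 1
  refine Set.Subset.antisymm ?_ ?_
  · rintro _ ⟨g, rfl⟩
    have : ∀ g ∈ TG B, ∀ f ∈ (fun w y => θ y + B w y) '' {y | θ y = 0},
        g • f ∈ (fun w y => θ y + B w y) '' {y | θ y = 0} := fun g hg => by
      induction hg using Subgroup.closure_induction'' with
      | one => simp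
      | mul a b _ _ ha hb => exact fun f hf => mul_smul a b f ▸ ha _ (hb f hf)
      | mem _ h | inv_mem _ h =>
        obtain ⟨x, c, rfl⟩ := h
        rintro _ ⟨w, hw, rfl⟩
        by_cases hc : c = 0
        · simpa [hc, tv_zero hC.sd] using ⟨w, hw, rfl⟩
        simp only [eq_of_two h2 hc, tv_inv hC.sd, neg_eq_of_add_eq_zero_left (two0 h2 1), h1]
        refine ⟨_, ?_, rfl⟩
        split_ifs with h
        · simpa [hθ, show θ w = 0 from hw] using h
        · exact hw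
    exact this g (by rw [hC.sd.TG_eq_top rfl]; trivial) θ ⟨0, h0, by simp⟩
  · rintro _ ⟨w, hw, rfl⟩
    exact ⟨tv B w 1, by simpa [show θ w = 0 from hw] using h1 w 0⟩

end Cfsg.Agent.H26.MS
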