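import Mathlib
import Cfsg.Agent.H26.MS2

/-! Types of orbits of the unipotent radical in a small action of a symplectic group. -/

set_option autoImplicit false
set_option linter.unusedSectionVars false

namespace Cfsg.Agent.H26.MS

open Module H12 MD
open scoped Pointwise

theorem num0 {q z s k μ : ℤ} (hs : q ≤ s) (h1 : μ * (z * q ^ 3 - q) = k * (s - q))
    (h2 : (q + 1) * (q - 1) * k < 2 * q * s) : μ * (z * q ^ 3 - q) * ((q + 1) * (q - 1)) ≤ 2 * q * s * (s - q) := by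
  rw [h1]; nlinarith

theorem num1 {q z s μ : ℤ} (hq : 3 ≤ q) (hz : 1 ≤ z) (hs : q ≤ s)
    (h : μ * (z * q ^ 3 - q) * ((q + 1) * (q - 1)) ≤ 2 * q * s * (s - q)) (h3 : s * s ≤ z * q ^ 4) : μ ≤ 2 := by
  by_contra! H
  have a1 : 9 ≤ q ^ 2 := by nlinarith
  have a2 : q ^ 3 ≤ z * q ^ 3 := by nlinarith [pow_pos (by omega : 0 < q) 3]
  have a3 : 9 * q ≤ q ^ 3 := by nlinarith
  have a4 : 3 * (z * q ^ 3 - q) * ((q + 1) * (q - 1)) ≤ μ * (z * q ^ 3 - q) * ((q + 1) * (q - 1)) := by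
    gcongr <;> nlinarith
  have a5 : 2 * q * s * (s - q) ≤ 2 * q * (z * q ^ 4) := by nlinarith [mul_nonneg (by omega : 0 ≤ q) (by nlinarith : 0 ≤ q * s)]
  have a6 : 9 * (z * q ^ 3) ≤ q ^ 2 * (z * q ^ 3) := by gcongr
  nlinarith

theorem num2 {q z s μ : ℤ} (hq : 3 ≤ q) (hz : 1 ≤ z) (hs : q ≤ s) (hμ : 1 ≤ μ)
    (h : μ * (z * q ^ 3 - q) * ((q + 1) * (q - 1)) ≤ 2 * q * s * (s - q)) (h3 : s ≤ q ^ 2) :
    z < q ∧ q ^ 2 < 2 * s := by
  have a1 : 9 ≤ q ^ 2 := by nlinarith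
  have a2 : q ^ 3 ≤ z * q ^ 3 := by nlinarith [pow_pos (by omega : 0 < q) 3]
  have a3 : 9 * q ≤ q ^ 3 := by nlinarith
  have a4 : 1 * (z * q ^ 3 - q) * ((q + 1) * (q - 1)) ≤ μ * (z * q ^ 3 - q) * ((q + 1) * (q - 1)) := by
    gcongr <;> nlinarith
  constructor <;> by_contra! H
  · have a5 : 2 * q * s * (s - q) ≤ 2 * q * q ^ 2 * (q ^ 2 - q) := by gcongr
    have a6 : (q * q ^ 3 - q) * ((q + 1) * (q - 1)) ≤ (z * q ^ 3 - q) * ((q + 1) * (q - 1)) := by
      gcongr; nlinarith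
    obtain ⟨r, rfl⟩ : ∃ r, q = r + 3 := ⟨q - 3, by ring⟩
    have : 0 ≤ r := by omega
    nlinarith [pow_nonneg this 2, pow_nonneg this 3, pow_nonneg this 4, pow_nonneg this 5, pow_nonneg this 6]
  · have a5 : q * (2 * s) * (2 * s) ≤ q * q ^ 2 * q ^ 2 := by gcongr; nlinarith
    have a6 : (q ^ 3 - q) * ((q + 1) * (q - 1)) ≤ (z * q ^ 3 - q) * ((q + 1) * (q - 1)) := by
      gcongr; nlinarith
    have a7 : 0 ≤ q * s * q := by have : 0 ≤ s := by omega
                                  positivity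
    obtain ⟨r, rfl⟩ : ∃ r, q = r + 3 := ⟨q - 3, by ring⟩
    have : 0 ≤ r := by omega
    nlinarith [pow_nonneg this 2, pow_nonneg this 3, pow_nonneg this 4, pow_nonneg this 5]

theorem num3 {q z s t k ν : ℤ} (hq : 4 ≤ q) (hz : 1 ≤ z) (ht : q ≤ t) (hk : 0 ≤ k) (hν : 1 ≤ ν)
    (h1 : ν * (z * q ^ 3 - q) = k * (t - q)) (h2 : (q - 1) * k < s) (h3 : t * s = z * q ^ 4) :
    ν ≤ 1 ∧ q ^ 2 < 2 * t := by
  have a0 : (q - 1) * k * t ≤ z * q ^ 4 := by nlinarith
  have a1 : 16 ≤ q ^ 2 := by nlinarith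
  have a2 : q ^ 3 ≤ z * q ^ 3 := by nlinarith [pow_pos (by omega : 0 < q) 3]
  have a3 : 16 * q ≤ q ^ 3 := by nlinarith
  constructor <;> by_contra! H
  · have a4 : 2 * (z * q ^ 3 - q) * (q - 1) ≤ ν * (z * q ^ 3 - q) * (q - 1) := by gcongr <;> nlinarith
    have a5 : 0 ≤ (q - 1) * k * q := by have : 0 ≤ q - 1 := by omega
                                        positivity
    have a6 : 4 * (z * q ^ 3) ≤ q * (z * q ^ 3) := by gcongr
    have a7 : q * q ^ 3 ≤ q * (z * q ^ 3) := by gcongr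
    nlinarith
  · have a4 : 1 * (z * q ^ 3 - q) * (q - 1) * t ≤ ν * (z * q ^ 3 - q) * (q - 1) * t := by gcongr <;> nlinarith
    have a5 : (q - 1) * k * t * (t - q) ≤ z * q ^ 4 * (t - q) := by gcongr
    have a6 : 2 * t * (z * q ^ 3 + q ^ 2 - q) ≤ q ^ 2 * (z * q ^ 3 + q ^ 2 - q) := by gcongr; nlinarith
    have a7 : q ^ 2 * (4 * q ^ 2) ≤ q ^ 2 * (z * q ^ 3) := mul_le_mul_of_nonneg_left (by nlinarith) (by omega)
    have a8 : ν * (z * q ^ 3 - q) * (q - 1) * t = (q - 1) * k * t * (t - q) := by rw [h1]; ring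
    nlinarith

theorem numA {q m s k μ : ℕ} (hq : 3 ≤ q) (hm : 4 ≤ m) (hs : q ≤ s) (h1 : μ * (q ^ (m - 1) - q) = k * (s - q))
    (h2 : (q + 1) * (q - 1) * k < 2 * q * s) :
    (s * s ≤ q ^ m → μ ≤ 2) ∧ (1 ≤ μ → s ≤ q ^ 2 → m = 4 ∧ q ^ 2 < 2 * s) := by
  obtain ⟨j, rfl⟩ : ∃ j, m = j + 4 := ⟨m - 4, by omega⟩
  have c6 : q ≤ q ^ (j + 4 - 1) := Nat.le_self_pow (by omega) _
  have c7 : 1 ≤ q ^ j := Nat.one_le_pow _ _ (by omega)
  zify [c6, show 1 ≤ q by omega, hs] at h1 h2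
  rw [show j + 4 - 1 = j + 3 from rfl, pow_add] at h1
  zify at hq hs c7
  have := num0 hs h1 h2
  refine ⟨fun h => by exact_mod_cast num1 hq c7 hs this (by rw [← pow_add]; exact_mod_cast h), fun h h' => ?_⟩
  obtain ⟨k4, k5⟩ := num2 hq c7 hs (by exact_mod_cast h) this (by exact_mod_cast h')
  refine ⟨?_, by exact_mod_cast k5⟩
  rcases j with _ | j
  · rfl
  · exact absurd k4 (le_self_pow₀ (by omega) (by omega)).not_gt

theorem numB {q m s t k ν : ℕ} (hq : 4 ≤ q) (hm : 4 ≤ m) (ht : q ≤ t) (hν : 1 ≤ ν)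
    (h1 : ν * (q ^ (m - 1) - q) = k * (t - q)) (h2 : (q - 1) * k < s) (h3 : t * s = q ^ m) :
    ν ≤ 1 ∧ q ^ 2 < 2 * t := by
  obtain ⟨j, rfl⟩ : ∃ j, m = j + 4 := ⟨m - 4, by omega⟩
  have c6 : q ≤ q ^ (j + 4 - 1) := Nat.le_self_pow (by omega) _
  have c7 : 1 ≤ q ^ j := Nat.one_le_pow _ _ (by omega)
  zify [c6, show 1 ≤ q by omega, ht] at h1 h2 h3
  rw [show j + 4 - 1 = j + 3 from rfl, pow_add] at h1
  rw [pow_add] at h3
  zify at hq ht c7 hν
  exact_mod_cast num3 hq c7 ht (by positivity) hν h1 h2 h3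

variable {F V : Type*} [Field F] [Finite F] [AddCommGroup V] [Module F V] [FiniteDimensional F V]
  [Finite V] {B : V →ₛₗ[RingHom.id F] V →ₗ[F] F} [hC : SC B]

local notation "q" => Nat.card F
local notation "n" => finrank F V

theorem sum_ge [Fintype F] (f : F → ℕ) {a : F} (ha : a ≠ 0) {k : ℕ} (h : ∀ t, t ≠ 0 → k ≤ f (t * t * a)) :
    2 * f 0 + (q - 1) * k ≤ 2 * ∑ c, f c ∧ ((2 : F) = 0 → f 0 + (q - 1) * k ≤ ∑ c, f c) := by
  classical
  obtain ⟨S, s1, s2, s3⟩ := exists_sq ha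
  have h0 : 0 ∉ S := fun h => by obtain ⟨t, ht, e⟩ := s1 0 h; simp [ht, ha] at e
  have h1 := Finset.sum_le_sum_of_subset (f := f) (Finset.subset_univ (insert 0 S))
  rw [Finset.sum_insert h0] at h1
  have h2 : S.card * k ≤ ∑ x ∈ S, f x := Finset.card_nsmul_le_sum S f k fun c hc => by
    obtain ⟨t, ht, rfl⟩ := s1 c hc; exact sq t ▸ h t ht
  have := Nat.mul_le_mul_right k s2
  exact ⟨by nlinarith, fun h => by have := Nat.mul_le_mul_right k (s3 h); omega⟩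

theorem exists_sqrt (h2 : (2 : F) = 0) (c : F) : ∃ t, t * t = c :=
  Finite.surjective_of_injective (f := fun t : F => t * t) (fun s t h => by
    rcases mul_self_eq_mul_self_iff.1 h with h | h
    · exact h
    · linear_combination h - t * h2) c

theorem sq_fix {G Y : Type*} [Group G] [MulAction G Y] {M : Finset Y} (hM : M.card ≤ 2) {s : G}
    (h : ∀ O ∈ M, s • O ∈ M) {O : Y} (hO : O ∈ M) : s • s • O = O := by
  classical
  by_contra H
  have h1 : s • O ≠ O := fun e => H (by rw [e, e])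
  have := Finset.card_le_card (show {O, s • O, s • s • O} ⊆ M by
    simp [Finset.insert_subset_iff, hO, h])
  rw [Finset.card_eq_three.2 ⟨_, _, _, h1.symm, Ne.symm H, by simpa using h1.symm, rfl⟩] at this
  omega

theorem sub_line {A : AddSubgroup V} {e y v : V}
    (hA : ∀ x c, B e x = 0 → B y x = 0 → tv B x c • v ∈ A) (hv : v ∈ A)
    (hv' : v ∉ Submodule.span F {e, y}) {x : V} (h1 : B e x = 0) (h2 : B y x = 0) : x ∈ A := by
  have key : ∀ x, B e x = 0 → B y x = 0 → B x v ≠ 0 → x ∈ A := fun x h1 h2 h => by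
    simpa [t_apply, h] using sub_mem (hA x (B x v)⁻¹ h1 h2) hv
  by_cases h : B x v = 0
  · obtain ⟨z, z1, z2⟩ := hC.sd.exists_perp_one _ hv'
    have z3 := z1 e (Submodule.subset_span (by simp))
    have z4 := z1 y (Submodule.subset_span (by simp))
    have z5 : B z v ≠ 0 := n0 (by simp [z2])
    simpa using sub_mem (key (x + z) (by simp [h1, z3]) (by simp [h2, z4]) (by simp [h, z5])) (key z z3 z4 z5)
  · exact key x h1 h2 h

theorem card_pair {e y : V} (h0 : e ≠ 0) (hy : y ∉ F ∙ e) : Nat.card (Submodule.span F {e, y}) = q ^ 2 := by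
  have h2 := finrank_span_eq_card (li_pair h0 hy)
  rw [Matrix.range_cons_cons_empty] at h2
  rw [card_sub, h2]; rfl

theorem mem_line (h4 : n = 4) {e y x : V} (h0 : e ≠ 0) (hy : y ∉ F ∙ e) (h : B e y = 0) (h1 : B e x = 0)
    (h2 : B y x = 0) : x ∈ Submodule.span F {e, y} := by
  have h3 := finrank_span_eq_card (li_pair h0 hy)
  rw [Matrix.range_cons_cons_empty] at h3
  rw [Submodule.eq_of_le_of_finrank_eq (S₁ := Submodule.span F {e, y}) (S₂ := spp B e y)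
    (Submodule.span_le.2 (by rintro _ (rfl | rfl) <;> simp [mem_sperp_pair, h, c0 h]))
    (by rw [h3, finrank_spp h0 hy, h4]; rfl)]
  exact mem_sperp_pair.2 ⟨h1, h2⟩

theorem eq_or_le {A : AddSubgroup V} {W : Submodule F V} (h : ∀ u ∈ A, u ∈ W) :
    (∀ u, u ∈ A ↔ u ∈ W) ∨ 2 * Nat.card A ≤ Nat.card W := by
  have h1 := AddSubgroup.card_dvd_of_le (H := A) (K := W.toAddSubgroup) h
  obtain ⟨j, hj⟩ := h1
  change Nat.card W = _ at hj
  have : 0 < Nat.card W := Nat.card_pos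
  rcases j with _ | _ | j
  · omega
  · rw [AddSubgroup.eq_of_le_of_card_ge (H := A) (K := W.toAddSubgroup) h (by change Nat.card W ≤ _; omega)]
    exact Or.inl fun _ => Iff.rfl
  · exact Or.inr (by rw [hj]; nlinarith)

theorem q_le {e : V} (h0 : e ≠ 0) {A : AddSubgroup V} (h : ∀ c : F, c • e ∈ A) : q ≤ Nat.card A :=
  card_line (F := F) h0 ▸ AddSubgroup.card_le_of_le (H := (F ∙ e).toAddSubgroup) fun u hu => by
    obtain ⟨c, rfl⟩ := Submodule.mem_span_singleton.1 hu; exact h c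

theorem four_le_q (h2 : (2 : F) = 0) (h3 : 3 ≤ q) : 4 ≤ q := by
  by_contra h
  have := addOrderOf_dvd_natCard (1 : F)
  rw [addOrderOf_eq_prime (p := 2) (by simpa using h2) one_ne_zero] at this
  omega

variable {X : Type*} [MulAction (UG B) X] [Finite X]

section
variable {g : UG B} {e : V} {t : F} (hg : g • e = t • e) (ht : t ≠ 0)
include hg ht
theorem SS_sg {u : V} {ω : X} : t • g • u ∈ SS B e (g • ω) ↔ u ∈ SS B e ω := by
  rw [← SS_smul e _ ht, ← hg, g_mem_SS]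
theorem GG_sg {a : F} {ω : X} : a ∈ GG B e (g • ω) ↔ t * t * a ∈ GG B e ω := by
  rw [← GG_smul e _ ht, ← hg, GG_g]
theorem card_SS_sg (ω : X) : Nat.card (SS B e (g • ω)) = Nat.card (SS B e ω) :=
  (Nat.card_congr (((MulAction.toPerm g).trans (MulAction.toPerm (Units.mk0 t ht))).subtypeEquiv
    fun _ => (SS_sg hg ht).symm)).symm
theorem iff_sg {R : Submodule F V} (hR : ∀ w ∈ R, g • w ∈ R) {ω : X} (h : ∀ u, u ∈ SS B e ω ↔ u ∈ R) (u : V) :
    u ∈ SS B e (g • ω) ↔ u ∈ R := by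
  have := SS_sg hg ht (u := g⁻¹ • t⁻¹ • u) (ω := ω)
  rw [smul_inv_smul, smul_inv_smul₀ ht] at this
  rw [this, h, ← mem_stabW.1 (mem_stabW_of_mapsTo hR), ← g_def, smul_inv_smul, R.smul_mem_iff (inv_ne_zero ht)]
end

theorem of_fix {g : UG B} {e : V} {ω : X} (hg : g • e = e) (h : g • ob B e ω = ob B e ω) :
    SS B e (g • ω) = SS B e ω := (of_ob (by rw [← h, ← ob_g, hg])).1

variable (B X) in
noncomputable abbrev kk (e : V) (P : AddSubgroup V → Prop) (a : F) : ℕ :=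
  (MP B X e fun S G => P S ∧ a ∈ G).card

theorem kk_sq {e : V} {P : AddSubgroup V → Prop} {g : UG B} {t : F} (ht : t ≠ 0) (hg : g • e = t⁻¹ • e)
    (h : ∀ ω : X, P (SS B e ω) → P (SS B e (g • ω))) (a : F) : kk B X e P a ≤ kk B X e P (t * t * a) :=
  card_MP_le g (inv_ne_zero ht) hg fun ω h' => ⟨h ω h'.1, (GG_sg hg (inv_ne_zero ht)).2 (by
    convert h'.2 using 1; field_simp)⟩

theorem kk_zero {e : V} {P : AddSubgroup V → Prop} (a : F) : kk B X e P a ≤ kk B X e P 0 :=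
  Finset.card_le_card (MP_mono fun _ h => ⟨h.1, zero_mem _⟩)

theorem fix_uniq [Fintype F] {e : V} {ω : X} {R : Submodule F V} (h3 : 3 ≤ q) (hT : ¬ TT B ω e)
    (hR : ∀ u, u ∈ SS B e ω ↔ u ∈ R) (hS : ∑ a, kk B X e (fun S => ∀ u, u ∈ S ↔ u ∈ R) a ≤ q + 1)
    (hg : ∀ t : F, t ≠ 0 → ∃ g : UG B, g • e = t • e ∧ ∀ w ∈ R, g • w ∈ R) {g : UG B} {t : F} (ht : t ≠ 0)
    (g1 : g • e = t • e) (g2 : ∀ w ∈ R, g • w ∈ R) (h : t * t = 1 ∨ (2 : F) = 0) :
    g • ob B e ω = ob B e ω := by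
  classical
  set P : AddSubgroup V → Prop := fun S => ∀ u, u ∈ S ↔ u ∈ R
  have k1 : ∀ a t : F, t ≠ 0 → kk B X e P a ≤ kk B X e P (t * t * a) := fun a t ht => by
    obtain ⟨g, g1, g2⟩ := hg _ (inv_ne_zero ht)
    exact kk_sq ht g1 (fun ω => iff_sg g1 (inv_ne_zero ht) g2) a
  have k0 : ∀ a : F, kk B X e P a = kk B X e P 0 → ∀ y : X, P (SS B e y) → a ∈ GG B e y := fun a h y hy => by
    have : ob B e y ∈ MP B X e fun S G => P S ∧ 0 ∈ G := ob_mem_MP.2 ⟨hy, zero_mem _⟩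
    rw [← Finset.eq_of_subset_of_card_le (MP_mono (B := B) (X := X) (e := e)
      (P := fun S G => P S ∧ a ∈ G) (P' := fun S G => P S ∧ 0 ∈ G) fun _ h => ⟨h.1, zero_mem _⟩) h.ge] at this
    exact (ob_mem_MP.1 this).2
  have k2 : ∀ a : F, a ≠ 0 → kk B X e P a ≤ 1 := fun a ha => by
    by_contra! H
    obtain ⟨s1, s2⟩ := sum_ge (kk B X e P) ha (k := 2) fun t ht => H.trans_le (k1 a t ht)
    have s3 := kk_zero (B := B) (X := X) (e := e) (P := P) a
    by_cases h2 : (2 : F) = 0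
    · have := s2 h2; omega
    have s4 : ∀ y : X, P (SS B e y) → ∀ t, t * t * a ∈ GG B e y := fun y hy t => by
      by_cases ht : t = 0
      · simp [ht]
      · have := k1 a t ht
        have := kk_zero (B := B) (X := X) (e := e) (P := P) (t * t * a)
        exact k0 _ (by omega) y hy
    have : _ ≤ ∑ a, kk B X e P a := Finset.card_nsmul_le_sum Finset.univ (kk B X e P) 2 fun b _ => H.trans_le (Finset.card_le_card
      (MP_mono fun y h => ⟨h.1, by
        convert sub_mem (s4 y h.1 ((b / a + 1) / 2)) (s4 y h.1 ((b / a - 1) / 2)) using 1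
        field_simp; ring⟩))
    rw [Finset.card_univ, ← Nat.card_eq_fintype_card, smul_eq_mul] at this
    omega
  obtain ⟨a, ha, a0⟩ := exists_GG hT
  have hO : ob B e ω ∈ MP B X e fun S G => P S ∧ a ∈ G := ob_mem_MP.2 ⟨hR, ha⟩
  have fin : t * t * a ∈ GG B e ω → g • ob B e ω = ob B e ω := fun h => by
    refine Finset.card_le_one.1 (k2 a a0) _ ?_ _ hO
    rw [← ob_g, g1, ob_smul e ht]
    exact ob_mem_MP.2 ⟨iff_sg g1 ht g2 hR, (GG_sg g1 ht).2 h⟩
  rcases h with h | h2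
  · exact fin (by rwa [h, one_mul])
  refine fin (by_contra fun hb => ?_)
  have k3 : ∀ t : F, t ≠ 0 → ∃ y : X, P (SS B e y) ∧ t * t * a ∈ GG B e y := fun t ht => by
    obtain ⟨O, h⟩ := Finset.card_pos.1 ((Finset.card_pos.2 ⟨_, hO⟩).trans_le (k1 a t ht))
    obtain ⟨y, -, h⟩ := mem_MP.1 h
    exact ⟨y, h⟩
  obtain ⟨y, y1, y2⟩ := k3 t ht
  have s2 := (sum_ge (kk B X e P) a0 (k := 1) fun t ht =>
    (Finset.card_pos.2 ⟨_, hO⟩).trans_le (k1 a t ht)).2 h2
  have ne : ob B e y ≠ ob B e ω := fun h => hb ((of_ob h).2.2 ▸ y2)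
  have k4 : ∀ c, c ∈ GG B e y ∨ c ∈ GG B e ω := fun c => by
    by_cases hc : c = 0
    · simp [hc]
    obtain ⟨s, hs⟩ := exists_sqrt h2 (c / a)
    obtain ⟨z, z1, z2⟩ := k3 s (by rintro rfl; exact div_ne_zero hc a0 (by simpa using hs.symm))
    rw [hs, div_mul_cancel₀ _ a0] at z2
    by_contra! H
    have := Finset.card_le_card (show {ob B e z, ob B e y, ob B e ω} ⊆ MP B X e fun S G => P S ∧ 0 ∈ G by
      simp only [Finset.insert_subset_iff, Finset.singleton_subset_iff, ob_mem_MP, zero_mem, and_true]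
      exact ⟨z1, y1, hR⟩)
    have n1 : ob B e z ≠ ob B e y := fun h => H.1 ((of_ob h).2.2 ▸ z2)
    have n2 : ob B e z ≠ ob B e ω := fun h => H.2 ((of_ob h).2.2 ▸ z2)
    rw [Finset.card_eq_three.2 ⟨_, _, _, n1, n2, ne, rfl⟩] at this
    change _ ≤ kk B X e P 0 at this
    omega
  have y3 : a ∉ GG B e y := fun h => ne (Finset.card_le_one.1 (k2 a a0) _ (ob_mem_MP.2 ⟨y1, h⟩) _ hO)
  rcases k4 (t * t * a + a) with h | h
  · exact y3 (by simpa using sub_mem h y2)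
  · exact hb (by simpa using sub_mem h ha)

variable (hX : Nat.card X * (Nat.card F - 1) < Nat.card F ^ finrank F V) (h3 : 3 ≤ Nat.card F)
include hX

theorem bnd [Fintype F] {e : V} (h0 : e ≠ 0) {P : AddSubgroup V → Prop} {s : ℕ} (hs : 0 < s)
    (hP : ∀ S, P S → Nat.card S = s) : (∑ a, kk B X e P a) * (q - 1) < q * s := by
  have := countA (B := B) (X := X) (P := fun S _ => P S) h0 fun S _ => hP S
  refine Nat.lt_of_mul_lt_mul_right (a := q ^ (n - 1)) ?_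
  have h4 := hC.four
  rw [show n = n - 1 + 1 by omega, pow_succ] at hX
  calc _ = (∑ a, kk B X e P a) * q ^ (n - 1) * (q - 1) := by ring
    _ ≤ Nat.card X * s * (q - 1) := Nat.mul_le_mul_right _ this
    _ = Nat.card X * (q - 1) * s := by ring
    _ < q ^ (n - 1) * q * s := Nat.mul_lt_mul_of_pos_right hX hs
    _ = _ := by ring

theorem bnd' {e : V} (h0 : e ≠ 0) {s : ℕ} (hs : 0 < s) {a : F} (ha : a ≠ 0) :
    (q + 1) * (q - 1) * kk B X e (Nat.card · = s) a < 2 * q * s ∧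
    ((2 : F) = 0 → (q - 1) * kk B X e (Nat.card · = s) a < s) := by
  have := Fintype.ofFinite F
  have h1 := bnd (B := B) hX h0 (P := (Nat.card · = s)) hs fun _ h => h
  obtain ⟨h2, h3⟩ := sum_ge (kk B X e (Nat.card · = s)) ha (k := kk B X e (Nat.card · = s) a) fun t ht => by
    obtain ⟨g, hg⟩ := trans1 (B := B) h0 (smul_ne_zero (inv_ne_zero ht) h0)
    exact kk_sq ht hg (fun ω h => by rwa [card_SS_sg hg (inv_ne_zero ht)]) a
  have h4 := kk_zero (B := B) (X := X) (e := e) (P := (Nat.card · = s)) a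
  obtain ⟨r, hr⟩ : ∃ r, q = r + 1 := ⟨q - 1, by have := two_le_q (F := F); omega⟩
  simp only [hr, Nat.add_sub_cancel] at h1 h2 h3 ⊢
  generalize kk B X e (Nat.card · = s) a = k at *
  refine ⟨by nlinarith [Nat.mul_le_mul_right r h2, Nat.mul_le_mul_right r h4],
    fun h => Nat.lt_of_mul_lt_mul_left (a := r + 1) ?_⟩
  nlinarith [Nat.mul_le_mul_right r (h3 h), Nat.mul_le_mul_right r h4]

include h3

theorem fix_rg {e : V} {ω : X} (h0 : e ≠ 0) (hT : ¬ TT B ω e) (hR : ∀ u, u ∈ SS B e ω ↔ u ∈ F ∙ e)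
    {g : UG B} {t : F} (ht : t ≠ 0) (g1 : g • e = t • e) (h : t * t = 1 ∨ (2 : F) = 0) :
    g • ob B e ω = ob B e ω := by
  have := Fintype.ofFinite F
  have k : ∀ {g : UG B} {t : F}, g • e = t • e → ∀ w ∈ F ∙ e, g • w ∈ F ∙ e := fun h w hw => by
    obtain ⟨c, rfl⟩ := Submodule.mem_span_singleton.1 hw
    rw [g_smul, h, smul_smul]; exact smem _ _
  refine fix_uniq h3 hT hR ?_ (fun t ht => (trans1 h0 (smul_ne_zero ht h0)).imp fun g h => ⟨h, k h⟩) ht g1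
    (k g1) h
  have := bnd (B := B) hX h0 (P := fun S => ∀ u, u ∈ S ↔ u ∈ F ∙ e) (s := q) (by omega) fun S h =>
    (Nat.card_congr (Equiv.subtypeEquivRight h)).trans (card_line h0)
  obtain ⟨r, hr⟩ : ∃ r, q = r + 3 := ⟨q - 3, by omega⟩
  simp only [hr, show r + 3 - 1 = r + 2 from rfl] at this ⊢
  nlinarith

theorem fix_ln {e y : V} {ω : X} (h4 : n = 4) (h0 : e ≠ 0) (hT : ¬ TT B ω e) (hy : B e y = 0) (hy' : y ∉ F ∙ e)
    (hR : ∀ u, u ∈ SS B e ω ↔ u ∈ Submodule.span F {e, y})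
    {g : UG B} {t : F} (ht : t ≠ 0) (g1 : g • e = t • e) (g2 : g • y ∈ Submodule.span F {e, y})
    (h : t * t = 1 ∨ (2 : F) = 0) : g • ob B e ω = ob B e ω := by
  have := Fintype.ofFinite F
  have k : ∀ {g : UG B} {t : F}, g • e = t • e → g • y ∈ Submodule.span F {e, y} →
      ∀ w ∈ Submodule.span F {e, y}, g • w ∈ Submodule.span F {e, y} := fun h h' w hw => by
    obtain ⟨c, d, rfl⟩ := Submodule.mem_span_pair.1 hw
    rw [smul_add, g_smul, g_smul, h, smul_smul]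
    exact add_mem (Submodule.smul_mem _ _ (Submodule.subset_span (by simp))) (Submodule.smul_mem _ _ h')
  refine fix_uniq h3 hT hR ?_ (fun t ht => (trans2 h0 hy' (smul_ne_zero ht h0) (by
    rwa [Submodule.span_singleton_smul_eq ht.isUnit]) (by simp [hy])).imp fun g h =>
      ⟨h.1, k h.1 (by rw [h.2]; exact Submodule.subset_span (by simp))⟩) ht g1 (k g1 g2) h
  have c1 := bnd (B := B) hX h0 (P := (Nat.card · = q ^ 2)) (by positivity) fun S h => h
  have c2 : ∀ a, kk B X e (fun S => ∀ u, u ∈ S ↔ u ∈ Submodule.span F {e, y}) a * (q + 1) ≤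
      kk B X e (Nat.card · = q ^ 2) a := fun a => by
    have d1 := cnt_SS (B := B) (X := X) h0 (a ∈ ·) (q ^ 2) hy hy'
    have d2 := Finset.card_le_card (MP_mono (B := B) (X := X) (e := e)
      (P := fun S G => (∀ u, u ∈ S ↔ u ∈ Submodule.span F {e, y}) ∧ a ∈ G)
      (P' := fun S G => (Nat.card S = q ^ 2 ∧ a ∈ G) ∧ y ∈ S) fun ω h =>
        ⟨⟨(Nat.card_congr (Equiv.subtypeEquivRight h.1)).trans (card_pair h0 hy'), h.2⟩,
          (h.1 y).2 (Submodule.subset_span (by simp))⟩)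
    refine (Nat.mul_le_mul_right _ d2).trans (Nat.le_of_mul_le_mul_right (c := q ^ 2 - q) (le_of_eq ?_) ?_)
    · rw [← d1, h4, mul_assoc]; congr 1
      zify [show q ≤ q ^ 2 by nlinarith, show q ≤ q ^ (4 - 1) from Nat.le_self_pow (by omega) _]; ring
    · exact Nat.sub_pos_of_lt (by nlinarith)
  have c3 := Finset.sum_le_sum fun a (_ : a ∈ Finset.univ) => c2 a
  rw [← Finset.sum_mul] at c3
  obtain ⟨r, hr⟩ : ∃ r, q = r + 3 := ⟨q - 3, by omega⟩
  simp only [hr, show r + 3 - 1 = r + 2 from rfl] at c1 c3 ⊢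
  by_contra! H
  nlinarith [Nat.mul_le_mul_right (r + 2) ((Nat.mul_le_mul_right (r + 3 + 1) H).trans c3)]

theorem cls_odd (h2 : (2 : F) ≠ 0) {e y : V} {ω : X} (h0 : e ≠ 0) (hT : ¬ TT B ω e) (hy : y ∈ SS B e ω)
    (hy' : y ∉ F ∙ e) : n = 4 ∧ ∀ u, u ∈ SS B e ω ↔ u ∈ Submodule.span F {e, y} := by
  obtain ⟨a, ha, a0⟩ := exists_GG hT
  have y1 := (mem_SS.1 hy).1
  have c1 := cnt_SS (B := B) (X := X) h0 (a ∈ ·) (Nat.card (SS B e ω)) y1 hy'
  have c2 := (bnd' (B := B) hX h0 (Nat.card_pos (α := SS B e ω)) a0).1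
  have iso : ∀ u ∈ SS B e ω, ∀ v ∈ SS B e ω, psi F (a * 2 * B u v) = 1 := fun u hu v hv => by
    simpa [mul_assoc, two_mul] using ha _ (comm_ZZ hu hv)
  have c3 : Nat.card (SS B e ω) * Nat.card (SS B e ω) ≤ q ^ n := by
    rw [← card_AA (B := B) (SS B e ω)]
    refine Nat.mul_le_mul_right _ (Nat.card_le_card_of_injective
      (fun u => ⟨(a * 2) • u.1, fun b hb => by simpa using iso u u.2 b hb⟩) fun u v e => ?_)
    exact Subtype.ext (smul_right_injective V (mul_ne_zero a0 h2) (congrArg Subtype.val e))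
  set M := MP B X e fun S G => (Nat.card S = Nat.card (SS B e ω) ∧ a ∈ G) ∧ y ∈ S
  have hO : ob B e ω ∈ M := ob_mem_MP.2 ⟨⟨rfl, ha⟩, hy⟩
  obtain ⟨c4, c5⟩ := numA h3 hC.four (q_le h0 (self_mem_SS (B := B) e ω)) c1 c2
  have hM := c4 c3
  have k1 : ∀ u ∈ SS B e ω, u ∈ Submodule.span F {e, y} := fun v hv => by
    by_contra hv'
    obtain ⟨z, z1, z2⟩ := hC.sd.exists_perp_one _ hv'
    refine mul_ne_zero a0 h2 (eq_zero_of_psi fun c => ?_)
    have := iso v hv (c • z) (sub_line (B := B) (fun x c x1 x2 => ?_) hv hv'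
      (by simp [z1 e (Submodule.subset_span (by simp))]) (by simp [z1 y (Submodule.subset_span (by simp))]))
    · simpa [z2, mul_comm] using this
    have g1 : ∀ c, tv B x c • e = e := fun c => t_fix c (c0 x1)
    have := sq_fix hM (s := tv B x (c / 2)) (fun O hO => g_mem_MP _ one_ne_zero (by simp [g1]) (fun ω h => by
      rw [card_SS_f (g1 _), GG_f (g1 _)]
      exact ⟨h.1, t_fix (c / 2) (c0 x2) ▸ (mem_SS_f (g1 _)).2 h.2⟩) hO) hO
    rw [← mul_smul, t_mul, show c / 2 + c / 2 = c by field_simp; ring] at this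
    exact of_fix (g1 c) this ▸ (mem_SS_f (g1 c)).2 hv
  have k2 := eq_or_le k1
  have k3 := AddSubgroup.card_le_of_le (H := SS B e ω) (K := (Submodule.span F {e, y}).toAddSubgroup) k1
  change _ ≤ Nat.card (Submodule.span F {e, y}) at k3
  rw [card_pair h0 hy'] at k2 k3
  obtain ⟨k4, k5⟩ := c5 (Finset.card_pos.2 ⟨_, hO⟩) k3
  exact ⟨k4, k2.resolve_right k5.not_ge⟩

omit hX h3 in
theorem fix_ob (h2 : (2 : F) = 0) {e u : V} {c : F} {ω y : X} (hy : y ∈ ob B e ω) (hu : B e u = 0)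
    (h : rho B e u c • ω = ω) : rho B e u c • y = y := by
  obtain ⟨w, d, hw, rfl⟩ := mem_ob.1 hy
  rw [← mul_smul, show rho B e u c * rho B e w d = rho B e w d * rho B e u c by
    rw [R_mul hu hw, R_mul hw hu, add_comm u, Bc u w]; congr 1; linear_combination B u w * h2, mul_smul, h]

omit hX h3 in
theorem lemC (h2 : (2 : F) = 0) {e x u : V} {d : F} {ω : X} (hx : B e x = 0)
    (h : tv B x d • ob B e ω = ob B e ω) (hu : u ∈ SS B e ω) :
    rho B e ((d * B x u) • x) (d * B x u * B x u) • ω = ω := by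
  obtain ⟨u1, c, hc⟩ := mem_SS.1 hu
  have g1 := t_fix (B := B) d (c0 hx)
  have h1 := conj_R (tv B x d) e u c
  rw [← ob_g, g1] at h
  rw [g1, t_apply] at h1
  have h3 := fix_ob h2 (h.ge ((rm1 B e).self_mem ω)) (u := u + (d * B x u) • x) (c := c) (by simp [u1, hx])
    (by rw [← h1, mul_smul, inv_smul_smul, mul_smul, hc])
  rw [← hc, ← mul_smul, R_mul (by simp [hx]) u1, hc, add_comm _ u]
  convert h3 using 3
  simp; linear_combination d * B x u * B x u * h2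

theorem cls_even (h2 : (2 : F) = 0) {e y : V} {ω : X} (h0 : e ≠ 0) (hT : ¬ TT B ω e) (hy : y ∈ AA B e ω)
    (hy' : y ∉ F ∙ e) :
    (∀ u, u ∈ SS B e ω ↔ u ∈ F ∙ e) ∨ (n = 4 ∧ ∀ u, u ∈ SS B e ω ↔ u ∈ Submodule.span F {e, y}) := by
  obtain ⟨a, ha, a0⟩ := exists_GG hT
  have h4 := hC.four
  have hq := four_le_q h2 h3
  have key : ∀ y ∈ AA B e ω, y ∉ F ∙ e → (∀ x c, B e x = 0 → B y x = 0 → tv B x c • ob B e ω = ob B e ω) ∧
      q ^ 2 < 2 * Nat.card (AA B e ω) := fun y hy hy' => by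
    have c1 := cnt_AA (B := B) (X := X) h0 (a ∈ ·) ω (perp_of_AA hy) hy'
    have c2 := (bnd' (B := B) hX h0 (Nat.card_pos (α := SS B e ω)) a0).2 h2
    have c3 := card_AA (B := B) (SS B e ω)
    set M := MP B X e fun S G => (Nat.card S = Nat.card (SS B e ω) ∧ a ∈ G) ∧ y ∈ Ann B S
    have hO : ob B e ω ∈ M := ob_mem_MP.2 ⟨⟨rfl, ha⟩, hy⟩
    obtain ⟨c8, c9⟩ := numB hq h4 (q_le h0 (self_mem_AA (B := B) e ω)) (Finset.card_pos.2 ⟨_, hO⟩) c1 c2 c3
    refine ⟨fun x c x1 x2 => Finset.card_le_one.1 c8 _ ?_ _ hO, c9⟩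
    have g1 : tv B x c • e = e := t_fix c (c0 x1)
    exact g_mem_MP _ one_ne_zero (by simp [g1]) (fun ω h => by
      rw [card_SS_f g1, GG_f g1]
      exact ⟨h.1, by simpa [card_SS_f g1, t_fix c (c0 x2)] using mem_AA_f g1 h.2⟩) hO
  have sl : ∀ y ∈ AA B e ω, y ∉ F ∙ e → ∀ v ∈ AA B e ω, v ∉ Submodule.span F {e, y} →
      ∀ x, B e x = 0 → B y x = 0 → x ∈ AA B e ω := fun y hy hy' v hv hv' x =>
    sub_line (fun x c x1 x2 => by
      have g1 : tv B x c • e = e := t_fix c (c0 x1)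
      simpa [AA, of_fix g1 ((key y hy hy').1 x c x1 x2)] using mem_AA_f g1 hv) hv hv'
  by_cases h : ∀ v ∈ AA B e ω, v ∈ Submodule.span F {e, y}
  · have k1 := (eq_or_le h).resolve_right (by rw [card_pair h0 hy']; exact (key y hy hy').2.not_ge)
    have k2 : ∀ u, u ∈ SS B e ω ↔ B e u = 0 ∧ B y u = 0 := fun u =>
      ⟨fun hu => ⟨(mem_SS.1 hu).1, eq_zero_of_psi fun c => by
        simpa using (k1 (c • y)).2 (Submodule.smul_mem _ _ (Submodule.subset_span (by simp))) u hu⟩,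
      fun hu => mem_of_Ann (hβ (B := B)) fun x hx => by
        obtain ⟨c, d, rfl⟩ := Submodule.mem_span_pair.1 (h x hx)
        simp [hu.1, hu.2]⟩
    by_cases hn : n = 4
    · refine Or.inr ⟨hn, fun u => (k2 u).trans ⟨fun h => mem_line hn h0 hy' (perp_of_AA hy) h.1 h.2, fun h => ?_⟩⟩
      obtain ⟨c, d, rfl⟩ := Submodule.mem_span_pair.1 h
      simp [perp_of_AA hy, c0 (perp_of_AA hy)]
    obtain ⟨u, hu, hu'⟩ := exists_notMem_of_finrank_lt (H := Submodule.span F {e, y}) (W := spp B e y) (by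
      have := H13.finrank_span_pair_le (F := F) e y
      rw [finrank_spp h0 hy']; omega)
    obtain ⟨x, x1, x2⟩ := hC.sd.exists_perp_one _ hu'
    have x3 := x1 e (Submodule.subset_span (by simp))
    obtain ⟨b, -, b0, b1⟩ := exists_fix_ne_of_three_le (σ := RingHom.id F) (by rwa [q0_id])
    have k3 : ∀ b β : F, b ≠ 0 → rho B e (β • x) (β * b) • ω = ω := fun b β hb => by
      simpa [Bc u x, x2, hb] using lemC h2 x3 ((key y hy hy').1 x (β / b) x3
        (x1 y (Submodule.subset_span (by simp)))) ((k2 (-b • u)).2 (by simpa [hb] using mem_sperp_pair.1 hu))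
    refine absurd (fun c => ?_) hT
    have := congrArg (· • ω) (t_R (B := B) (e := e) (u := (c / (b - 1)) • x) (by simp [x3]) c (c / (b - 1) * 1))
    rw [show c + c / (b - 1) * 1 = c / (b - 1) * b by field_simp [sub_ne_zero.2 b1]; ring] at this
    simpa only [mul_smul, k3 _ _ b0, k3 _ _ one_ne_zero] using this
  push Not at h
  obtain ⟨v, hv, hv'⟩ := h
  have v1 : v ∉ F ∙ e := fun h => hv' (Submodule.span_mono (by simp) h)
  have v2 : y ∉ Submodule.span F {e, v} := fun h => by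
    obtain ⟨c, d, rfl⟩ := Submodule.mem_span_pair.1 h
    have hd : d ≠ 0 := by rintro rfl; exact hy' (by simpa using smem c e)
    exact hv' (Submodule.mem_span_pair.2 ⟨-(c / d), d⁻¹, by match_scalars <;> field_simp <;> ring⟩)
  obtain ⟨x, x1, x2⟩ := hC.sd.exists_perp_one _ v2
  have x3 := x1 e (Submodule.subset_span (by simp))
  have x4 := x1 v (Submodule.subset_span (by simp))
  refine Or.inl fun u => ⟨fun hu => ?_, fun hu => ?_⟩
  · rw [← hC.sd.sperp_sperp (F ∙ e)]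
    refine fun w hw => eq_zero_of_psi fun c => ?_
    have := add_mem (sl y hy hy' v hv hv' (c • w - (c * B y w) • x) (by simp [mem_P1.1 hw, x3]) (by simp [x2]))
      (sl v hv v1 y hy v2 ((c * B y w) • x) (by simp [x3]) (by simp [x4]))
    simpa using this u hu
  · obtain ⟨c, rfl⟩ := Submodule.mem_span_singleton.1 hu; exact self_mem_SS _ _ _

theorem cls {e : V} (ω : X) (h0 : e ≠ 0) : TT B ω e ∨ (∀ u, u ∈ SS B e ω ↔ u ∈ F ∙ e) ∨
    (n = 4 ∧ ∃ y, B e y = 0 ∧ y ∉ F ∙ e ∧ ∀ u, u ∈ SS B e ω ↔ u ∈ Submodule.span F {e, y}) ∨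
    ((2 : F) = 0 ∧ ∀ u, B e u = 0 → u ∈ SS B e ω) := by
  refine or_iff_not_imp_left.2 fun hT => ?_
  by_cases h2 : (2 : F) = 0
  · refine or_assoc.1 (or_iff_not_imp_right.2 fun h => ?_)
    push Not at h
    obtain ⟨u, hu, hu'⟩ := h h2
    obtain ⟨y, hy, hy'⟩ := exists_AA hu hu'
    exact (cls_even hX h3 h2 h0 hT hy hy').imp_right fun h => ⟨h.1, y, perp_of_AA hy, hy', h.2⟩
  refine or_iff_not_imp_left.2 fun h => Or.inl ?_
  obtain ⟨y, hy, hy'⟩ : ∃ y ∈ SS B e ω, y ∉ F ∙ e := by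
    by_contra! H
    exact h fun u => ⟨H u, fun hu => by
      obtain ⟨c, rfl⟩ := Submodule.mem_span_singleton.1 hu; exact self_mem_SS _ _ _⟩
  obtain ⟨k1, k2⟩ := cls_odd hX h3 h2 h0 hT hy hy'
  exact ⟨k1, y, (mem_SS.1 hy).1, hy', k2⟩

end Cfsg.Agent.H26.MS
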