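import Mathlib
import Cfsg.Agent.H26.MS3

/-! Transvections in the stabiliser of a point of a small action of a symplectic group. -/

set_option autoImplicit false
set_option linter.unusedSectionVars false

namespace Cfsg.Agent.H26.MS

open Module H12 MD
open scoped Pointwise

variable {F V : Type*} [Field F] [Finite F] [AddCommGroup V] [Module F V] [FiniteDimensional F V]
  [Finite V] {B : V →ₛₗ[RingHom.id F] V →ₗ[F] F} [hC : SC B]

local notation "q" => Nat.card F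
local notation "n" => finrank F V

theorem exists_z {e f : V} (hf : B e f = 1) {l ν : F} (hl : l ≠ 0) (hν : ν * ν = 1) : ∃ z : UG B,
    ∀ v, z • v = ν • v + ((l - ν) * B v f) • e + ((l⁻¹ - ν) * B e v) • f := by
  let φ : V →ₗ[F] V := ν • LinearMap.id + ((l - ν) • B.flip f).smulRight e + ((l⁻¹ - ν) • B e).smulRight f
  have h : ∀ x y, B (φ x) (φ y) = B x y := fun x y => by
    simp only [φ, LinearMap.add_apply, LinearMap.smul_apply, LinearMap.id_apply, LinearMap.smulRight_apply,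
      LinearMap.flip_apply, map_add, map_smul, smul_eq_mul, Bss, hf, Bc e f, Bc e x, Bc y f, RingHom.id_apply]
    linear_combination (B x y - B x f * B e y + B y f * B e x) * hν +
      (B x f * B e y - B y f * B e x) * mul_inv_cancel₀ hl
  exact ⟨⟨LinearEquiv.ofInjectiveEndo φ fun x y e => hC.sd.ext_left fun w => by rw [← h x, e, h], h⟩,
    fun v => rfl⟩

theorem exists_g {e f x y : V} (hf : B e f = 1) (x1 : B e x = 0) (x2 : B f x = 0) (y1 : B e y = 0)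
    (y2 : B f y = 0) (x0 : x ≠ 0) (y0 : y ≠ 0) : ∃ g : UG B, g • e = e ∧ g • f = f ∧ g • x = y := by
  obtain ⟨g, g1, g2⟩ := hC.sd.exists_ext_map' (SP.disjoint_spp ⟨Bss e, Bss f, hf⟩ hC.sd)
    (mem_sperp_pair.2 ⟨x1, x2⟩) (mem_sperp_pair.2 ⟨y1, y2⟩) x0 y0 (by simp)
  exact ⟨g, g2 e (hC.sd.le_sperp_sperp _ (Submodule.subset_span (by simp))),
    g2 f (hC.sd.le_sperp_sperp _ (Submodule.subset_span (by simp))), g1⟩

theorem t_sq {x y : V} (h : B x y = 0) (c : F) :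
    tv B (x + y) c * tv B (x - y) c = tv B x (c + c) * tv B y (c + c) := UG_ext fun v => by
  change tv B _ _ • tv B _ _ • v = tv B _ _ • tv B _ _ • v
  simp only [t_apply, map_add, map_sub, map_smul, LinearMap.add_apply, LinearMap.sub_apply, Bss, h, c0 h,
    smul_eq_mul]
  module

variable {X : Type*} [MulAction (UG B) X] [Finite X]

theorem sub_mem_SS {e u v : V} {c d : F} {ω : X} (hu : B e u = 0) (hv : B e v = 0)
    (h : rho B e u c • ω = rho B e v d • ω) : u - v ∈ SS B e ω := by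
  have hv' : B e (-v) = 0 := by simp [hv]
  refine mem_SS.2 ⟨by simp [hu, hv], -d + c + B (-v) u, ?_⟩
  rw [sub_eq_neg_add, ← R_mul hv' hu, mul_smul, h, ← mul_smul, R_mul hv' hv]
  simp [rho_zero hC.sd]

theorem g_t {g : UG B} {e : V} (hg : g • e = e) (d : F) (ω : X) : g • tv B e d • ω = tv B e d • g • ω := by
  nth_rw 2 [← hg]; simp [← conj_t, mul_smul]

theorem conj_eq {g h : UG B} {e : V} {ω : X} {c d : F} (g1 : g • e = e) (h1 : h • e = e)
    (g2 : g • ω = tv B e c • ω) (h2 : h • ω = tv B e d • ω) : (g * h * g⁻¹) • ω = h • ω := by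
  have : g⁻¹ • ω = tv B e (-c) • ω := by
    rw [inv_smul_eq_iff, g_t g1, g2, ← mul_smul, t_mul, neg_add_cancel, tv_zero hC.sd, one_smul]
  rw [mul_smul, mul_smul, this, g_t h1, h2, g_t g1, g_t g1, g2, ← mul_smul, ← mul_smul, t_mul, t_mul]
  congr 2; ring

theorem lemE (h3 : 3 ≤ q) {e : V} {ω : X} (h0 : e ≠ 0) {R : Submodule F V} (hR : ∀ u, u ∈ SS B e ω ↔ u ∈ R)
    (hfix : ∀ (g : UG B) (t : F), t ≠ 0 → g • e = t • e → (∀ w ∈ R, g • w ∈ R) → (t * t = 1 ∨ (2 : F) = 0) →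
      g • ob B e ω = ob B e ω) : ∃ f, B e f = 1 ∧ ∀ g : UG B, g • e = e → g • f = f → (∀ w ∈ R, g • w ∈ R) →
      ∃ d, g • ω = tv B e d • ω := by
  obtain ⟨l, ν, hl, hν, h1, h2⟩ : ∃ l ν : F, l ≠ 0 ∧ ν * ν = 1 ∧ l * ν - 1 ≠ 0 ∧ (l * l = 1 ∨ (2 : F) = 0) := by
    by_cases h2 : (2 : F) = 0
    · obtain ⟨b, -, b0, b1⟩ := exists_fix_ne_of_three_le (σ := RingHom.id F) (by rwa [q0_id])
      exact ⟨b, 1, b0, by simp, by simpa [sub_eq_zero], Or.inr h2⟩
    · exact ⟨1, -1, one_ne_zero, by simp, fun h => h2 (by linear_combination -h), by simp⟩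
  have K : ∀ {f : V} {z : UG B}, B e f = 1 → (∀ v, z • v = ν • v + ((l - ν) * B v f) • e +
      ((l⁻¹ - ν) * B e v) • f) → ∀ u c, B e u = 0 → ∃ c', ∀ y : X,
      z • rho B e u c • y = rho B e ((l * ν) • u) c' • z • y := fun {f z} hf hz u c hu => by
    have := conj_R z e u c
    rw [hz e, hz u, show ν • e + ((l - ν) * B e f) • e + ((l⁻¹ - ν) * B e e) • f = l • e by simp [hf, sub_smul],
      R_smul (by simp [hu]), hu, mul_zero, zero_smul, add_zero, smul_add, smul_smul, smul_smul,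
      R_add (by simp [hu])] at this
    exact ⟨_, fun y => by rw [← this]; simp [mul_smul]⟩
  have mem : ∀ g : UG B, g • ob B e ω = ob B e ω → ∃ u c, B e u = 0 ∧ rho B e u c • ω = g • ω := fun g h =>
    mem_ob.1 (h.le (Set.smul_mem_smul_set ((rm1 B e).self_mem ω)))
  obtain ⟨f0, hf0⟩ := hC.sd.exists_SP (Bss e) h0
  obtain ⟨z0, hz0⟩ := exists_z hf0.ef hl hν
  obtain ⟨w, γ, hw, e1⟩ := mem z0 (hfix z0 l hl (by simp [hz0, hf0.ef, sub_smul]) (fun w hw => by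
    simpa [hz0, (mem_SS.1 ((hR w).2 hw)).1] using add_mem (R.smul_mem ν hw) ((hR _).1 (self_mem_SS e ω _))) h2)
  have hu : B e ((-(l * ν - 1)⁻¹) • w) = 0 := by simp [hw]
  obtain ⟨c', e2⟩ := K hf0.ef hz0 _ 0 hu
  set h := rho B e ((-(l * ν - 1)⁻¹) • w) 0 with hh
  have he : h • e = e := R_self _ _ _
  have he' : h⁻¹ • e = e := inv_smul_eq_iff.2 he.symm
  obtain ⟨d, e3⟩ : ∃ d, (h⁻¹ * z0 * h) • ω = tv B e d • ω := ⟨_, by
    rw [mul_smul, mul_smul, inv_smul_eq_iff, e2, ← e1, ← mul_smul (rho B e _ _), R_mul (by simp [hw]) hw,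
      ← mul_smul h, R_t hu, zero_add, show (l * ν) • -(l * ν - 1)⁻¹ • w + w = -(l * ν - 1)⁻¹ • w by
        match_scalars; field_simp; ring]⟩
  have hf : B e (h⁻¹ • f0) = 1 := by rw [← Bg_left, he, hf0.ef]
  have hz : ∀ v, (h⁻¹ * z0 * h) • v = ν • v + ((l - ν) * B v (h⁻¹ • f0)) • e +
      ((l⁻¹ - ν) * B e v) • h⁻¹ • f0 := fun v => by
    rw [mul_smul, mul_smul, hz0, smul_add, smul_add, g_smul, g_smul, g_smul, inv_smul_smul, he', Bg_left,
      ← Bg h e v, he]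
  refine ⟨_, hf, fun g g1 g2 g3 => ?_⟩
  generalize h⁻¹ * z0 * h = z at *
  generalize h⁻¹ • f0 = f at *
  obtain ⟨u, c, hu, e4⟩ := mem g (hfix g 1 one_ne_zero (by simpa) g3 (by simp))
  obtain ⟨c'', e5⟩ := K hf hz u c hu
  have e6 : z * g = g * z := UG_ext fun v => by
    change z • g • v = g • z • v
    rw [hz, hz, smul_add, smul_add, g_smul, g_smul, g_smul, g1, g2, ← Bg g v f, ← Bg g e v, g1, g2]
  have e7 := e5 ω
  rw [e4, ← mul_smul, e6, mul_smul, e3, g_t g1, ← e4, ← mul_smul, ← mul_smul, t_R hu, R_t (by simp [hu])] at e7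
  have e8 := R.smul_mem (l * ν - 1)⁻¹ ((hR _).1 (sub_mem_SS (by simp [hu]) hu e7.symm))
  rw [show (l * ν - 1)⁻¹ • ((l * ν) • u - u) = u by match_scalars; field_simp] at e8
  obtain ⟨-, c3, e9⟩ := mem_SS.1 ((hR _).2 e8)
  exact ⟨c - c3, by rw [← e4, ← e9, ← mul_smul, ← mul_smul, t_R hu, sub_add_cancel, mul_smul, e9]⟩

theorem TT_of_kappa {e x : V} {ω : X} {g : UG B} {κ δ : F} (hκ : κ ^ 2 ≠ 1) (g1 : g • e = e) (g2 : g • x = κ • x)
    (g3 : g • ω = tv B e δ • ω) (hx : B x e = 0) (h : ∀ c, ∃ d, tv B x c • ω = tv B e d • ω) : TT B ω x :=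
  fun c => by
    obtain ⟨d, hd⟩ := h (c / (κ ^ 2 - 1))
    have := conj_eq g1 (t_fix _ hx) g3 hd
    rw [conj_t, g2, t_smul, show c / (κ ^ 2 - 1) * (κ * κ) = c / (κ ^ 2 - 1) + c by
      field_simp [sub_ne_zero.2 hκ]; ring, ← t_mul, mul_smul, smul_left_cancel_iff] at this
    exact this

variable (hX : Nat.card X * (Nat.card F - 1) < Nat.card F ^ finrank F V) (h3 : 3 ≤ Nat.card F)
  (hk : 4 ≤ Nat.card F ∨ 5 ≤ finrank F V)
include hX h3 hk

theorem E_rg {e : V} {ω : X} (h0 : e ≠ 0) (hT : ¬ TT B ω e) (hR : ∀ u, u ∈ SS B e ω ↔ u ∈ F ∙ e) :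
    ∃ f, B e f = 1 ∧ ∀ x, B e x = 0 → B f x = 0 → TT B ω x := by
  obtain ⟨f, hf, h⟩ := lemE h3 h0 hR fun g t ht g1 _ => fix_rg hX h3 h0 hT hR ht g1
  replace h : ∀ g : UG B, g • e = e → g • f = f → ∃ d, g • ω = tv B e d • ω := fun g g1 g2 =>
    h g g1 g2 fun w hw => by
      obtain ⟨c, rfl⟩ := Submodule.mem_span_singleton.1 hw
      rw [g_smul, g1]; exact hw
  have ht : ∀ x, B e x = 0 → B f x = 0 → ∀ c, ∃ d, tv B x c • ω = tv B e d • ω := fun x x1 x2 c =>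
    h _ (t_fix c (c0 x1)) (t_fix c (c0 x2))
  refine ⟨f, hf, fun x x1 x2 => ?_⟩
  by_cases x0 : x = 0
  · exact x0 ▸ TT.zero ω
  by_cases h4 : 4 ≤ q
  · obtain ⟨κ, κ0, hκ⟩ := exists_sq_ne_one_of_four_le h4
    obtain ⟨g, g1, g2, g3⟩ := exists_g hf x1 x2 (y := κ • x) (by simp [x1]) (by simp [x2]) x0 (smul_ne_zero κ0 x0)
    obtain ⟨δ, g4⟩ := h g g1 g2
    exact TT_of_kappa hκ g1 g3 g4 (c0 x1) (ht x x1 x2)
  have h2 : (2 : F) ≠ 0 := fun h => h4 (four_le_q h h3)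
  obtain ⟨y, hy, hy'⟩ := exists_notMem_of_finrank_lt (H := F ∙ x) (W := spp B e f ⊓ P1 B x) (by
    have := Submodule.finrank_sup_add_finrank_inf_eq (spp B e f) (P1 B x)
    have := Submodule.finrank_le (spp B e f ⊔ P1 B x)
    have := SP.finrank_spp ⟨Bss e, Bss f, hf⟩ hC.sd
    have := finrank_P1 (B := B) x0
    rw [finrank_span_singleton x0]; omega)
  obtain ⟨y1, y2⟩ := mem_sperp_pair.1 hy.1
  intro c
  obtain ⟨d, hd⟩ := ht x x1 x2 (c / 2)
  have key : ∀ y, B e y = 0 → B f y = 0 → y ≠ 0 → ∀ a, tv B y (c / 2) • tv B e a • ω = tv B e (a + d) • ω :=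
    fun y y1 y2 y0 a => by
      obtain ⟨g, g1, g2, g3⟩ := exists_g hf x1 x2 y1 y2 x0 y0
      obtain ⟨δ, g4⟩ := h g g1 g2
      have := conj_eq g1 (t_fix _ (c0 x1)) g4 hd
      rw [conj_t, g3] at this
      rw [g_t (t_fix _ (c0 y1)), this, hd, ← mul_smul, t_mul]
  have y0 : y ≠ 0 := by rintro rfl; simp at hy'
  have e1 := congrArg (· • tv B e 0 • ω) (t_sq (mem_P1.1 hy.2) (c / 2))
  simp only [← t_mul x, ← t_mul y, mul_smul, key x x1 x2 x0, key y y1 y2 y0,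
    key (x + y) (by simp [x1, y1]) (by simp [x2, y2]) fun h => hy' (by
      rw [eq_neg_of_add_eq_zero_right h]; exact neg_mem (Submodule.mem_span_singleton_self x)),
    key (x - y) (by simp [x1, y1]) (by simp [x2, y2]) fun h => hy' (by
      rw [← sub_eq_zero.1 h]; exact Submodule.mem_span_singleton_self x)] at e1
  rw [add_assoc (0 + d + d), ← t_mul e (0 + d + d), mul_smul, eq_comm, smul_left_cancel_iff] at e1
  rw [show c = c / 2 + c / 2 by field_simp; ring, ← t_mul, mul_smul, hd, key x x1 x2 x0, e1]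

theorem E_ln {e y : V} {ω : X} (h4 : n = 4) (h0 : e ≠ 0) (hT : ¬ TT B ω e) (hy : B e y = 0) (hy' : y ∉ F ∙ e)
    (hR : ∀ u, u ∈ SS B e ω ↔ u ∈ Submodule.span F {e, y}) : ∃ x, x ∈ Submodule.span F {e, y} ∧ x ∉ F ∙ e ∧
      TT B ω x ∧ ∃ (κ : F) (g : UG B), κ ≠ 0 ∧ κ ≠ 1 ∧ g • ω = ω ∧ g • e = e ∧ g • x = κ • x := by
  have me : e ∈ Submodule.span F {e, y} := Submodule.subset_span (by simp)
  have my : y ∈ Submodule.span F {e, y} := Submodule.subset_span (by simp)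
  obtain ⟨f, hf, h⟩ := lemE h3 h0 hR fun g t ht g1 g2 => fix_ln hX h3 h4 h0 hT hy hy' hR ht g1 (g2 y my)
  have x1 : B e (y + B f y • e) = 0 := by simp [hy]
  have x2 : B f (y + B f y • e) = 0 := by simp [Bc e f, hf]
  have x3 : y + B f y • e ∉ F ∙ e := by rwa [Submodule.add_mem_iff_left _ (smem _ _)]
  have x4 := add_mem my (Submodule.smul_mem _ (B f y) me)
  have x0 : y + B f y • e ≠ 0 := fun h => x3 (by simp [h])
  have x5 : B (y + B f y • e) y = 0 := by simp [hy]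
  replace h : ∀ (g : UG B) (κ : F), g • e = e → g • f = f → g • (y + B f y • e) = κ • (y + B f y • e) →
      ∃ d, g • ω = tv B e d • ω := fun g κ g1 g2 g3 => h g g1 g2 fun w hw => by
    obtain ⟨c, d, rfl⟩ := Submodule.mem_span_pair.1 hw
    rw [smul_add, g_smul, g1, ← eq_sub_iff_add_eq] at g3
    rw [smul_add, g_smul, g_smul, g1, g3]
    exact add_mem (Submodule.smul_mem _ _ me) (Submodule.smul_mem _ _
      (sub_mem (Submodule.smul_mem _ _ x4) (Submodule.smul_mem _ _ me)))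
  generalize y + B f y • e = x at *
  obtain ⟨κ, κ0, hκ⟩ := exists_sq_ne_one_of_four_le (F := F) (by omega)
  obtain ⟨g, g1, g2, g3⟩ := exists_g hf x1 x2 (y := κ • x) (by simp [x1]) (by simp [x2]) x0 (smul_ne_zero κ0 x0)
  obtain ⟨δ, g4⟩ := h g κ g1 g2 g3
  refine ⟨x, x4, x3, TT_of_kappa hκ g1 g3 g4 (c0 x1) fun c => h _ 1 (t_fix c (c0 x1)) (t_fix c (c0 x2))
    (by simp [t_fix]), κ, (tv B e δ)⁻¹ * g, κ0, by rintro rfl; simp at hκ, by simp [mul_smul, g4], ?_, ?_⟩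
  · rw [mul_smul, g1, inv_smul_eq_iff, t_fix _ (Bss e)]
  · rw [mul_smul, g3, inv_smul_eq_iff, t_fix _ (by simp [x1])]

end Cfsg.Agent.H26.MS
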