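import Mathlib
import Cfsg.Agent.H26.MS4

/-! The minimal index of a proper subgroup of a symplectic group. -/

set_option autoImplicit false
set_option linter.unusedSectionVars false

namespace Cfsg.Agent.H26.MS

open Module H12 MD
open scoped Pointwise

theorem orbit_le {G Y : Type*} [Group G] [Finite G] [MulAction G Y] (H : Subgroup G) (a : Y) :
    (MulAction.orbit G a).ncard ≤ (MulAction.orbit H a).ncard * H.index := by
  rw [← MulAction.index_stabilizer, ← MulAction.index_stabilizer]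
  change _ ≤ (MulAction.stabilizer G a).relIndex H * _
  rw [← Subgroup.inf_relIndex_right, Subgroup.relIndex_mul_index inf_le_right]
  exact Nat.le_of_dvd (Nat.pos_of_ne_zero Subgroup.index_ne_zero_of_finite)
    (Subgroup.index_dvd_of_le inf_le_left)

theorem ncard_pairs {Y : Type*} [Finite Y] (A : Set Y) (C : Y → Set Y) (k : ℕ) :
    ((∀ a ∈ A, k ≤ (C a).ncard) → A.ncard * k ≤ {p : Y × Y | p.1 ∈ A ∧ p.2 ∈ C p.1}.ncard) ∧
    ((∀ a ∈ A, (C a).ncard ≤ k) → {p : Y × Y | p.1 ∈ A ∧ p.2 ∈ C p.1}.ncard ≤ A.ncard * k) := by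
  have := Fintype.ofFinite A
  have : {p : Y × Y | p.1 ∈ A ∧ p.2 ∈ C p.1}.ncard = ∑ a : A, (C a).ncard :=
    (Nat.card_congr (β := Σ a : A, C a) ⟨fun p => ⟨⟨p.1.1, p.2.1⟩, p.1.2, p.2.2⟩,
      fun p => ⟨(p.1, p.2), p.1.2, p.2.2⟩, fun _ => rfl, fun _ => rfl⟩).trans Nat.card_sigma
  rw [this, ← Nat.card_coe_set_eq, Nat.card_eq_fintype_card]
  exact ⟨fun h => Finset.card_nsmul_le_sum _ _ _ fun a _ => h a a.2,
    fun h => Finset.sum_le_card_nsmul _ _ _ fun a _ => h a a.2⟩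

variable {F V : Type*} [Field F] [Finite F] [AddCommGroup V] [Module F V] [FiniteDimensional F V]
  [Finite V] {B : V →ₛₗ[RingHom.id F] V →ₗ[F] F} [hC : SC B]

local notation "q" => Nat.card F
local notation "n" => finrank F V

section
variable {X : Type*} [MulAction (UG B) X] [Finite X]

theorem t_of_R {e u : V} {c d : F} {ω : X} (hu : B e u = 0) (h : rho B e u c • ω = ω)
    (h' : rho B e u d • ω = ω) : tv B e (c - d) • ω = ω := by
  simpa [mul_smul, h, h'] using congrArg (· • ω) (t_R hu (c - d) d)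

theorem ob_fix {g : UG B} {e : V} {ω : X} (hg : g • e = e) (h : g • ω = ω) : g • ob B e ω = ob B e ω := by
  rw [← ob_g, hg, h]

theorem R_swap' {e u : V} (hu : B e u = 0) (b c : F) : rho B u (b • e) c = tv B u c * rho B e (b • u) 0 := by
  rw [← add_zero c, ← t_R (by simp [c0 hu]), add_zero, R_swap (by simp [hu]), R_smul hu, zero_mul]

section
variable (h2 : (2 : F) = 0) {e x : V} {ω : X} (hF : ∀ u, B e u = 0 → u ∈ SS B e ω) (hx : B e x = 0)
  (hx' : x ∉ F ∙ e)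
include h2 hF hx hx'

theorem FF0 {γ : F} (hγ : γ ≠ 0) (h : tv B x γ • ob B e ω = ob B e ω) (t : F) :
    rho B e (t • x) (t * t / γ) • ω = ω := by
  obtain ⟨u, u1, u2⟩ := hC.sd.exists_perp_one _ hx'
  convert lemC h2 hx h (hF ((t / γ) • u) (by simp [u1 e (Submodule.mem_span_singleton_self e)])) using 3 <;>
    simp [u2] <;> field_simp

theorem FF1 (hT : ¬ TT B ω e) {γ δ : F} (hγ : γ ≠ 0) (hδ : δ ≠ 0) (h : tv B x γ • ob B e ω = ob B e ω)
    (h' : tv B x δ • ob B e ω = ob B e ω) : γ = δ := by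
  by_contra H
  refine hT fun c => ?_
  obtain ⟨t, ht⟩ := exists_sqrt h2 (c * γ * δ / (δ - γ))
  convert t_of_R (by simp [hx]) (FF0 h2 hF hx hx' hγ h t) (FF0 h2 hF hx hx' hδ h' t) using 3
  rw [ht]; field_simp [sub_ne_zero.2 (Ne.symm H)]

variable (h3 : 3 ≤ Nat.card F)
include h3

theorem FF2 (hT : ¬ TT B ω e) : ¬ TT B ω x := fun h => by
  obtain ⟨b, -, b0, b1⟩ := exists_fix_ne_of_three_le (σ := RingHom.id F) (by rwa [q0_id])
  have := fun c => ob_fix (t_fix c (c0 hx)) (h c)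
  exact b1 (FF1 h2 hF hx hx' hT b0 one_ne_zero (this _) (this _))

theorem FFZ (hT : ¬ TT B ω e) (hF' : ∀ u, B x u = 0 → u ∈ SS B x ω) (h : rho B e x 0 • ω ≠ ω) :
    (∃ δ, δ ≠ 0 ∧ tv B e δ • ω = ω) ∧ ∀ δ, δ ≠ 0 → tv B x δ • ω ≠ ω := by
  have k1 : ∀ b : F, ∃ c, rho B x (b • e) c • ω = ω := fun b => (mem_SS.1 (hF' _ (by simp [c0 hx]))).2
  have k2 : ∀ b c : F, rho B x (b • e) c • ω = ω → tv B x c • ob B e ω = ob B e ω := fun b c h => by
    rw [R_swap' hx, mul_smul] at h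
    have e1 : ob B e (rho B e (b • x) 0 • ω) = ob B e ω :=
      (rm1 B e).orb_eq (mem_ob.2 ⟨_, _, by simp [hx], rfl⟩)
    rw [← e1, ← ob_g, t_fix c (c0 hx), h, e1]
  obtain ⟨γ, hγ⟩ := k1 1
  have γ0 : γ ≠ 0 := by
    rintro rfl
    exact h (by simpa [R_swap hx] using hγ)
  refine ⟨?_, fun δ δ0 h' => h ?_⟩
  · obtain ⟨b, -, b0, b1⟩ := exists_fix_ne_of_three_le (σ := RingHom.id F) (by rwa [q0_id])
    obtain ⟨b, b0, hb⟩ : ∃ b : F, b ≠ 0 ∧ rho B x (b • e) 0 • ω = ω := by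
      obtain ⟨c, hc⟩ := k1 b
      by_cases c0' : c = 0
      · exact ⟨b, b0, c0' ▸ hc⟩
      obtain rfl := FF1 h2 hF hx hx' hT c0' γ0 (k2 _ _ hc) (k2 _ _ hγ)
      refine ⟨b + 1, fun h => b1 (by linear_combination h - h2), ?_⟩
      have := congrArg (· • ω) (R_mul (B := B) (e := x) (u := b • e) (v := (1 : F) • e) (by simp [c0 hx])
        (by simp [c0 hx]) c c)
      rw [show c + c + B (b • e) ((1 : F) • e) = 0 by simp; linear_combination c * h2, ← add_smul] at this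
      simpa only [mul_smul, hc, hγ] using this.symm
    rw [R_swap' hx, tv_zero hC.sd, one_mul] at hb
    exact ⟨_, by simp [b0, γ0], t_of_R (by simp [hx]) (FF0 h2 hF hx hx' γ0 (k2 _ _ hγ) b) hb⟩
  obtain rfl := FF1 h2 hF hx hx' hT δ0 γ0 (ob_fix (t_fix _ (c0 hx)) h') (k2 _ _ hγ)
  rwa [R_swap' hx, mul_smul, one_smul, ← eq_inv_smul_iff, inv_smul_eq_iff.2 h'.symm] at hγ

theorem FF3 (h0 : e ≠ 0) (hT : ¬ TT B ω e) (hF' : ∀ u, B x u = 0 → u ∈ SS B x ω) : rho B e x 0 • ω = ω := by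
  by_contra h
  obtain ⟨⟨δ, δ0, hδ⟩, -⟩ := FFZ h2 hF hx hx' h3 hT hF' h
  refine (FFZ h2 hF' (c0 hx) (fun h => hx' ?_) h3 (FF2 h2 hF hx hx' h3 hT) hF (by rwa [R_swap hx])).2 δ δ0 hδ
  obtain ⟨c, rfl⟩ := Submodule.mem_span_singleton.1 h
  exact Submodule.mem_span_singleton.2 ⟨c⁻¹, inv_smul_smul₀ (by rintro rfl; simp at h0) x⟩

end

theorem TT.comb {ω : X} {x y : V} (hx : TT B ω x) (hy : TT B ω y) (h : B x y ≠ 0) (a b : F) :
    TT B ω (a • x + b • y) := by
  by_cases ha : a = 0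
  · simpa [ha] using hy.smul b
  by_cases hb : b = 0
  · simpa [hb] using hx.smul a
  exact (hx.smul a).add (hy.smul b) (by simp [ha, hb, h])

theorem R_of_TT {ω : X} {e x : V} (h : B e x = 0) {φ : F} (hx : TT B ω x) (hy : TT B ω (φ • e + x)) (c : F) :
    rho B e ((φ * c) • x) (c * (φ * φ)) • ω = ω := by
  rw [mul_smul φ, ← R_smul (by simp [h]), rho_eq_tv_mul hC.sd (Bss _) (Bss _) (by simp [h]) rfl, mul_smul, hx, hy]

variable (hX : Nat.card X * (Nat.card F - 1) < Nat.card F ^ finrank F V) (h3 : 3 ≤ Nat.card F)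
  (hk : 4 ≤ Nat.card F ∨ 5 ≤ finrank F V)
include hX h3 hk

theorem no_full (h2 : (2 : F) = 0) {e : V} {ω : X} (h0 : e ≠ 0) (hF : ∀ u, B e u = 0 → u ∈ SS B e ω) :
    TT B ω e := by
  by_contra hT
  have key : ∀ u, B e u = 0 → rho B e u 0 • ω = ω := fun u hu => by
    by_cases hu' : u ∈ F ∙ e
    · obtain ⟨c, rfl⟩ := Submodule.mem_span_singleton.1 hu'
      rw [← zero_add (c • e), R_add (by simp), show 0 + (c + c) = 0 by linear_combination c * h2, rho_zero hC.sd,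
        one_smul]
    have u0 : u ≠ 0 := by rintro rfl; simp at hu'
    have nT := FF2 h2 hF hu hu' h3 hT
    have k1 : ∀ x, TT B ω x → x ≠ 0 → B e x ≠ 0 := fun x h x0 hx => FF2 h2 hF hx (fun h' => hT (by
      obtain ⟨c, rfl⟩ := Submodule.mem_span_singleton.1 h'
      simpa [left_ne_zero_of_smul x0] using h.smul c⁻¹)) h3 hT h
    rcases (cls hX h3 ω u0).resolve_left nT with h | ⟨h4, y, y1, y2, h⟩ | h
    · obtain ⟨f, hf, h⟩ := E_rg hX h3 hk u0 nT h
      obtain ⟨x, hx, x0⟩ := exists_notMem_of_finrank_lt (H := ⊥) (W := spp B u f ⊓ P1 B e) (by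
        have := Submodule.finrank_sup_add_finrank_inf_eq (spp B u f) (P1 B e)
        have := Submodule.finrank_le (spp B u f ⊔ P1 B e)
        have := SP.finrank_spp ⟨Bss u, Bss f, hf⟩ hC.sd
        have := finrank_P1 (B := B) h0
        have := hC.four
        rw [finrank_bot]; omega)
      exact (k1 x (h x (mem_sperp_pair.1 hx.1).1 (mem_sperp_pair.1 hx.1).2) x0 (mem_P1.1 hx.2)).elim
    · obtain ⟨x, x1, x2, x3, -⟩ := E_ln hX h3 hk h4 u0 nT y1 y2 h
      have x4 := n0 (k1 x x3 (by rintro rfl; simp at x2))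
      obtain ⟨x5, c, hc⟩ := mem_SS.1 ((h _).2 (Submodule.smul_mem _ (B x e)⁻¹ x1))
      have e1 : rho B u ((B x e)⁻¹ • x) c • e = u + (1 : F) • e := by
        rw [R_perp x5 c (c0 hu)]; simp [x4, add_comm]
      have := FF3 h2 hF (x := u + (1 : F) • e) (by simp [hu]) (by rwa [Submodule.add_mem_iff_left _ (smem _ _)])
        h3 h0 hT fun v hv => by
          rw [← e1] at hv ⊢
          rw [← smul_inv_smul (rho B u _ c) v, ← hc]
          exact (g_mem_SS _).2 (hF _ (by rwa [← Bg_left]))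
      rwa [R_add hu, show (0 : F) + (1 + 1) = 0 by linear_combination h2] at this
    · exact FF3 h2 hF hu hu' h3 h0 hT h.2
  obtain ⟨u, v, hu, hv, huv⟩ := exists_pair (B := B) h0
  refine hT fun c => ?_
  have := congrArg (· • ω) (R_mul (B := B) (u := c • u) (by simp [hu]) hv 0 0)
  simp only [mul_smul, key _ hv, key (c • u) (by simp [hu])] at this
  simpa [huv] using t_of_R (by simp [hu, hv]) this.symm (key _ (by simp [hu, hv]))

theorem end_rg {e : V} {ω : X} (h0 : e ≠ 0) (hT : ¬ TT B ω e) (hR : ∀ u, u ∈ SS B e ω ↔ u ∈ F ∙ e) :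
    ∃ f z, B e f = 1 ∧ (∀ x, B e x = 0 → B f x = 0 → TT B ω x) ∧ z ≠ 0 ∧ ∀ x, TT B ω x → B z x = 0 := by
  obtain ⟨f, hf, h⟩ := E_rg hX h3 hk h0 hT hR
  have fe : B f e = -1 := by rw [Bc, hf]
  have a1 : ∀ x, TT B ω x → B e x = 0 → B f x = 0 := fun x hx x1 => by
    by_contra x2
    obtain ⟨c, hc⟩ := Submodule.mem_span_singleton.1 ((hR _).1 (mem_SS.2 ⟨by simp [x1], _, R_of_TT
      (φ := -B f x) (x := x + B f x • e) (by simp [x1]) (h _ (by simp [x1]) (by simp [fe])) (by simpa) 1⟩))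
    obtain rfl : c = 0 := by simpa [fe] using congrArg (B f) hc
    rw [zero_smul, eq_comm, smul_eq_zero, or_iff_right (by simpa), add_eq_zero_iff_eq_neg] at hc
    rw [hc] at hx
    exact hT (by simpa [x2] using hx.smul (-(B f x)⁻¹))
  have a2 : ∀ x y, TT B ω x → TT B ω y → B e x = 1 → B e y = 1 → B f x = B f y := by
    have k : ∀ x y, TT B ω x → TT B ω y → B e x = 1 → B e y = 1 → B x y ≠ 0 → B f x = B f y :=
      fun x y hx hy x1 y1 hxy => by
        simpa [sub_eq_zero, ← sub_eq_add_neg] using a1 _ (hx.comb hy hxy 1 (-1)) (by simp [x1, y1])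
    have k' : ∀ x y, B e x = 1 → B e y = 1 → B x y = 0 → (∀ w, B e w = 0 → B f w = 0 → B x w = 0) →
        B f x = B f y := fun x y x1 y1 hxy H => by
      have := H (y + B f y • e - f) (by simp [y1, hf]) (by simp [fe])
      simp only [map_sub, map_add, map_smul, hxy, Bc e x, Bc f x, x1, smul_eq_mul] at this
      linear_combination this
    intro x y hx hy x1 y1
    by_contra H
    have hxy : B x y = 0 := by_contra fun h => H (k x y hx hy x1 y1 h)
    obtain ⟨u, u1, u2, u3⟩ : ∃ w, B e w = 0 ∧ B f w = 0 ∧ B x w ≠ 0 := by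
      by_contra! h; exact H (k' x y x1 y1 hxy h)
    obtain ⟨v, v1, v2, v3⟩ : ∃ w, B e w = 0 ∧ B f w = 0 ∧ B y w ≠ 0 := by
      by_contra! h; exact H (k' y x y1 x1 (c0 hxy) h).symm
    obtain ⟨w, w1, w2, w3, w4⟩ : ∃ w, B e w = 0 ∧ B f w = 0 ∧ B x w ≠ 0 ∧ B y w ≠ 0 := by
      by_cases h1 : B y u = 0
      · by_cases h2 : B x v = 0
        · exact ⟨u + v, by simp [u1, v1], by simp [u2, v2], by simp [u3, h2], by simp [v3, h1]⟩
        · exact ⟨v, v1, v2, h2, v3⟩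
      · exact ⟨u, u1, u2, u3, h1⟩
    exact H (by simpa [w2] using k _ y (hx.add (h w w1 w2) w3) hy (by simp [x1, w1]) y1 (by simp [hxy, n0 w4]))
  by_cases H : ∀ x, TT B ω x → B e x = 0
  · exact ⟨f, e, hf, h, h0, H⟩
  push Not at H
  obtain ⟨x, hx, x1⟩ := H
  refine ⟨f, f - B f ((B e x)⁻¹ • x) • e, hf, h, fun h => by simpa [hf] using congrArg (B e) h, fun y hy => ?_⟩
  by_cases y1 : B e y = 0
  · simp [y1, a1 y hy y1]
  rw [a2 _ _ (hx.smul _) (hy.smul (B e y)⁻¹) (by simp [x1]) (by simp [y1])]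
  simp; field_simp; ring

theorem end_ln {ω : X} (hL : ∀ e, ¬ TT B ω e → n = 4 ∧ ∃ y, B e y = 0 ∧ y ∉ F ∙ e ∧
    ∀ u, u ∈ SS B e ω ↔ u ∈ Submodule.span F {e, y}) {a b : V} (ha : TT B ω a) (hb : TT B ω b)
    (hab : B a b ≠ 0) (e : V) : TT B ω e := by
  by_contra hT
  have z0 : ∀ {e}, ¬ TT B ω e → e ≠ 0 := fun h => by rintro rfl; exact h (TT.zero ω)
  have k1 : ∀ e, B a e = 0 → B b e = 0 → TT B ω e := fun e e1 e2 => by
    by_contra hT
    obtain ⟨h4, y, y1, y2, h⟩ := hL e hT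
    have k : ∀ x, TT B ω x → B x e = 0 → x ∈ Submodule.span F {e, y} := fun x hx x1 => by
      by_cases x2 : B x y = 0
      · exact mem_line h4 (z0 hT) y2 y1 (c0 x1) (c0 x2)
      have my : y ∈ Submodule.span F {e, y} := Submodule.subset_span (by simp)
      have := (mem_SS_f (ω := ω) (t_fix (B x y)⁻¹ x1)).2 ((h y).2 my)
      rw [hx, t_apply] at this
      simpa [x2] using sub_mem ((h _).1 this) my
    obtain ⟨c, d, rfl⟩ := Submodule.mem_span_pair.1 (k a ha e1)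
    obtain ⟨c', d', rfl⟩ := Submodule.mem_span_pair.1 (k b hb e2)
    simp [y1, c0 y1] at hab
  obtain ⟨h4, y, y1, y2, h⟩ := hL e hT
  obtain ⟨x, x1, x2, x3, κ, g, κ0, κ1, g1, g2, g3⟩ := E_ln hX h3 hk h4 (z0 hT) hT y1 y2 h
  have hw := ha.comb hb hab (-B b e / B a b) (B a e / B a b)
  set w := (-B b e / B a b) • a + (B a e / B a b) • b with hw'
  have w1 : B e w = 0 := by simp [hw', Bc a e, Bc b e]; field_simp; ring
  have w2 := k1 (e - w) (by simp [hw', hab]) (by simp [hw', Bc a b]; field_simp; ring)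
  have w3 : w ∈ Submodule.span F {e, y} := (h w).1 (mem_SS.2 ⟨w1, _, by
    simpa using R_of_TT w1 hw (φ := -1) (by simpa [add_comm, sub_eq_add_neg] using w2.smul (-1)) (-1)⟩)
  obtain ⟨c, d, rfl⟩ := Submodule.mem_span_pair.1 x1
  have hd : d ≠ 0 := by rintro rfl; exact x2 (by simpa using smem c e)
  obtain ⟨c', d', e1⟩ := Submodule.mem_span_pair.1 w3
  have hd' : d' ≠ 0 := by
    rintro rfl
    rw [zero_smul, add_zero] at e1
    by_cases c0' : c' = 0
    · exact hT (by simpa [← e1, c0'] using w2)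
    · exact hT (by simpa [← e1, c0'] using hw.smul c'⁻¹)
  set x := c • e + d • y with hx
  have ex : B e x = 0 := by simp [hx, y1]
  obtain ⟨φ, φ0, hφ⟩ : ∃ φ : F, φ ≠ 0 ∧ TT B ω (φ • e + x) := by
    by_cases h1 : d / d' * c' - c = 0
    · refine ⟨d / d' * c' - c - d / d', by simp [h1, hd, hd'], ?_⟩
      convert w2.smul (-(d / d')) using 1
      rw [← e1, hx]; match_scalars <;> field_simp <;> ring
    · refine ⟨_, h1, ?_⟩
      convert hw.smul (d / d') using 1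
      rw [← e1, hx]; match_scalars <;> field_simp <;> ring
  have hφ' : TT B ω ((φ / κ) • e + x) := by
    convert (hφ.map' g1).smul κ⁻¹ using 1
    rw [smul_add g, g_smul, g2, g3]; generalize x = x; match_scalars <;> field_simp
  refine hT fun s => ?_
  have e2 := R_of_TT ex x3 hφ' (s / (φ * (1 - κ⁻¹)) * κ / φ)
  rw [show φ / κ * (s / (φ * (1 - κ⁻¹)) * κ / φ) = φ * (s / (φ * (1 - κ⁻¹)) / φ) by field_simp] at e2
  convert t_of_R (by simp [ex]) (R_of_TT ex x3 hφ _) e2 using 3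
  have : κ - 1 ≠ 0 := sub_ne_zero.2 κ1
  field_simp

theorem main {ω : X} (hω : ¬ ∀ g : UG B, g • ω = ω) : ∃ W : Submodule F V, W ≠ ⊥ ∧ finrank F W ≤ 2 ∧
    ∀ g : UG B, g • ω = ω → ∀ w ∈ W, g • w ∈ W := by
  have z0 : ∀ {e}, ¬ TT B ω e → e ≠ 0 := fun h => by rintro rfl; exact h (TT.zero ω)
  have hU : ∀ g : UG B, g • ω = ω → ∀ w ∈ Submodule.span F {x | TT B ω x},
      g • w ∈ Submodule.span F {x | TT B ω x} := fun g hg w hw =>
    Submodule.span_le (p := (Submodule.span F {x | TT B ω x}).comap g.1.toLinearMap).2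
      (fun x hx => Submodule.subset_span (TT.map' hx hg)) hw
  by_cases H : ∃ e, ¬ TT B ω e ∧ ∀ u, u ∈ SS B e ω ↔ u ∈ F ∙ e
  · obtain ⟨e, hT, hR⟩ := H
    obtain ⟨f, z, hf, h1, h2, h4⟩ := end_rg hX h3 hk (z0 hT) hT hR
    refine ⟨sperp B (Submodule.span F {x | TT B ω x}), (Submodule.ne_bot_iff _).2
      ⟨z, mem_sperp_span.2 fun x hx => c0 (h4 x hx), h2⟩, ?_, fun g hg w hw x hx => ?_⟩
    · have := hC.sd.finrank_sperp (Submodule.span F {x | TT B ω x})
      have := SP.finrank_spp ⟨Bss e, Bss f, hf⟩ hC.sd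
      have := Submodule.finrank_mono (show spp B e f ≤ Submodule.span F {x | TT B ω x} from fun x hx =>
        Submodule.subset_span (h1 x (mem_sperp_pair.1 hx).1 (mem_sperp_pair.1 hx).2))
      omega
    · rw [← smul_inv_smul g x, Bg]; exact hw _ (hU _ (inv_smul_eq_iff.2 hg.symm) x hx)
  have hL : ∀ e, ¬ TT B ω e → n = 4 ∧ ∃ y, B e y = 0 ∧ y ∉ F ∙ e ∧
      ∀ u, u ∈ SS B e ω ↔ u ∈ Submodule.span F {e, y} := fun e hT => by
    rcases (cls hX h3 ω (z0 hT)).resolve_left hT with h | h | h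
    · exact (H ⟨e, hT, h⟩).elim
    · exact h
    · exact (hT (no_full hX h3 hk h.1 (z0 hT) h.2)).elim
  obtain ⟨e, hT⟩ := not_forall.1 fun h => hω (all_of_TT h)
  obtain ⟨h4, y, y1, y2, h⟩ := hL e hT
  obtain ⟨x, -, x2, x3, -⟩ := E_ln hX h3 hk h4 (z0 hT) hT y1 y2 h
  refine ⟨_, (Submodule.ne_bot_iff _).2 ⟨x, Submodule.subset_span x3, by rintro rfl; simp at x2⟩, ?_, hU⟩
  have := hC.sd.finrank_sperp (Submodule.span F {x | TT B ω x})
  have := Submodule.finrank_mono (show Submodule.span F {x | TT B ω x} ≤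
    sperp B (Submodule.span F {x | TT B ω x}) from Submodule.span_le.2 fun a ha => mem_sperp_span.2 fun b hb =>
      by_contra fun h => hT (end_ln hX h3 hk hL hb ha h e))
  omega

end

theorem ncard_ne (W : Submodule F V) : ((W : Set V) \ {0}).ncard = q ^ finrank F W - 1 := by
  rw [Set.ncard_diff_singleton_of_mem W.zero_mem, ← card_sub]; rfl

theorem orbit_eq {a : V} (ha : a ≠ 0) : (MulAction.orbit (UG B) a).ncard = q ^ n - 1 := by
  rw [← finrank_top, ← ncard_ne]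
  congr 1; ext x
  exact ⟨by rintro ⟨g, rfl⟩; exact ⟨trivial, g_ne g ha⟩, fun h => trans1 ha h.2⟩

theorem index_ge {H : Subgroup (UG B)} {W : Submodule F V} (h0 : W ≠ ⊥) (h2 : finrank F W ≤ 2)
    (h : ∀ g ∈ H, ∀ w ∈ W, g • w ∈ W) : q ^ n - 1 ≤ H.index * (q - 1) := by
  obtain ⟨a, ha, a0⟩ := (Submodule.ne_bot_iff _).1 h0
  by_cases h1 : finrank F W ≤ 1
  · rw [← orbit_eq (B := B) a0, mul_comm]
    refine (orbit_le H a).trans (Nat.mul_le_mul_right _ ((Set.ncard_le_ncard (t := (W : Set V) \ {0}) ?_).trans ?_))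
    · rintro _ ⟨g, rfl⟩; exact ⟨h g g.2 a ha, g_ne g.1 a0⟩
    · rw [ncard_ne]
      exact Nat.sub_le_sub_right ((Nat.pow_le_pow_right Nat.card_pos h1).trans_eq (pow_one _)) _
  obtain ⟨b, hb, hb'⟩ := exists_notMem_of_finrank_lt (H := F ∙ a) (W := W) (by
    rw [finrank_span_singleton a0]; omega)
  have c1 := orbit_le H (a, b)
  have c2 := (ncard_pairs (((⊤ : Submodule F V) : Set V) \ {0}) (fun x => {y | B x y = B a b} \ (F ∙ x : Submodule F V))
    (q ^ (n - 1) - q)).1 fun x hx => by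
      obtain ⟨y, -, hy⟩ := hC.sd.exists_perp_one ⊥ (x := x) hx.2
      refine le_trans (le_of_eq ?_) (Set.le_ncard_diff _ _)
      rw [← finrank_P1 (B := B) hx.2, ← card_sub]
      congr 1
      · exact Nat.card_congr ((Equiv.addRight (B a b • y)).subtypeEquiv fun z => by simp [mem_P1, hy])
      · exact (card_line hx.2).symm
  have c3 := (ncard_pairs ((W : Set V) \ {0}) (fun x => W \ (F ∙ x : Submodule F V)) (q ^ 2 - q)).2 fun x hx => by
    rw [Set.ncard_diff ((Submodule.span_singleton_le_iff_mem x W).2 hx.1), ← show finrank F W = 2 by omega,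
      ← card_sub]
    exact Nat.sub_le_sub_left (card_line hx.2).ge _
  rw [ncard_ne, finrank_top] at c2
  rw [ncard_ne, show finrank F W = 2 by omega] at c3
  have c4 := (c2.trans (Set.ncard_le_ncard (t := MulAction.orbit (UG B) (a, b)) fun p hp => by
    obtain ⟨g, g1, g2⟩ := trans2 a0 hb' hp.1.2 hp.2.2 hp.2.1
    exact ⟨g, Prod.ext g1 g2⟩)).trans (c1.trans (Nat.mul_le_mul_right _ ((Set.ncard_le_ncard (by
      rintro _ ⟨g, rfl⟩
      exact ⟨⟨h g g.2 a ha, g_ne g.1 a0⟩, h g g.2 b hb, g_notMem g.1 hb'⟩)).trans c3)))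
  have hq := two_le_q (F := F)
  have c5 : q ^ 3 - q ≤ q ^ (n - 1) - q :=
    Nat.sub_le_sub_right (Nat.pow_le_pow_right Nat.card_pos (by have := hC.four; omega)) _
  have c6 : q < q ^ 3 := lt_self_pow₀ (by omega) (by omega)
  refine Nat.le_of_mul_le_mul_right (((Nat.mul_le_mul_left _ c5).trans c4).trans_eq ?_) (by omega)
  zify [c6.le, show 1 ≤ q by omega, show q ≤ q ^ 2 by nlinarith, show 1 ≤ q ^ 2 by nlinarith]; ring

theorem minIdx (h3 : 3 ≤ q) (hk : 4 ≤ q ∨ 5 ≤ n) :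
    MinIdx (UG B ⧸ Subgroup.center (UG B)) ((q ^ n - 1) / (q - 1)) := by
  have h4 := hC.four
  have := Module.nontrivial_of_finrank_pos (R := F) (M := V) (by omega)
  obtain ⟨a, a0⟩ := exists_ne (0 : V)
  have low : ∀ H : Subgroup (UG B), H ≠ ⊤ → q ^ n - 1 ≤ H.index * (q - 1) := fun H hH => by
    by_contra! hN
    obtain ⟨W, h0, h1, h2⟩ := main (B := B) (X := UG B ⧸ H) (lt_of_lt_of_le hN (Nat.sub_le _ _)) h3 hk
      (no_fix hH (1 : UG B))
    exact (index_ge h0 h1 fun g hg => h2 g (by rwa [← MulAction.stabilizer_quotient H] at hg)).not_gt hN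
  refine MinIdx.of_surj (QuotientGroup.mk' _) (QuotientGroup.mk'_surjective _)
    (fun H hH => Nat.div_le_of_le_mul (mul_comm H.index _ ▸ low H hH)) (H := stabW B (F ∙ a)) (fun g hg => ?_) ?_
  · rw [QuotientGroup.ker_mk'] at hg
    obtain ⟨c, hc⟩ := (hC.sd.mem_center_UG_iff ns_id (by omega)).1 hg
    exact mem_stabW_of_mapsTo fun w hw => hc w ▸ Submodule.smul_mem _ _ hw
  refine (Nat.div_eq_of_eq_mul_left (by omega) ?_).symm
  have : MulAction.stabilizer (UG B) a ≤ stabW B (F ∙ a) := fun g hg => mem_stabW_of_mapsTo fun w hw => by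
    obtain ⟨c, rfl⟩ := Submodule.mem_span_singleton.1 hw
    rw [← g_def, g_smul, hg]; exact hw
  rw [← orbit_eq (B := B) a0, ← MulAction.index_stabilizer, ← Subgroup.relIndex_mul_index this, mul_comm]
  congr 1
  refine (MulAction.index_stabilizer (stabW B (F ∙ a)) a).trans ?_
  have e1 := ncard_ne (F ∙ a)
  rw [finrank_span_singleton a0, pow_one] at e1
  rw [← e1]
  congr 1; ext x
  refine ⟨by rintro ⟨g, rfl⟩; exact ⟨(g.2 a).2 (Submodule.mem_span_singleton_self a), g_ne g.1 a0⟩, fun h => ?_⟩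
  obtain ⟨g, rfl⟩ := trans1 (B := B) a0 h.2
  refine ⟨⟨g, mem_stabW_of_mapsTo fun w hw => ?_⟩, rfl⟩
  obtain ⟨c, rfl⟩ := Submodule.mem_span_singleton.1 hw
  rw [map_smul]; exact Submodule.smul_mem _ _ h.1

end Cfsg.Agent.H26.MS
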