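import Mathlib
import Cfsg.Agent.H26.MU1

/-! Counting the orbits of the Heisenberg group by their stabilisers. -/

set_option autoImplicit false
set_option linter.unusedSectionVars false

namespace Cfsg.Agent.H26.MU

open Module H12 MD
open scoped Pointwise

variable {F V : Type*} [Field F] [Finite F] [AddCommGroup V] [Module F V] [FiniteDimensional F V]
  [Finite V] {σ : F →+* F} {B : V →ₛₗ[σ] V →ₗ[F] F} [hC : UC B]

local notation "Q" => Nat.card F
local notation "n" => finrank F V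

theorem li_pair {x y : V} (hx : x ≠ 0) (hy : y ∉ F ∙ x) : LinearIndependent F ![x, y] := by
  rw [LinearIndependent.pair_iff' hx]
  exact fun a h => hy (Submodule.mem_span_singleton.2 ⟨a, h⟩)

theorem trans1 {x y : V} (hx : x ≠ 0) (hy : y ≠ 0) (h : B y y = B x x) : ∃ g : SUG B, g • x = y := by
  obtain ⟨g, hg, h'⟩ := hC.sd.witt_SUG (e := fun _ : Fin 1 => x) (f := fun _ => y)
    ((linearIndependent_unique_iff (ι := Fin 1)).2 hx) ((linearIndependent_unique_iff (ι := Fin 1)).2 hy)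
    (fun _ _ => h) (hC.wt.imp_right (by simp; omega))
  exact ⟨⟨g, hg⟩, h' 0⟩

theorem trans2 {e y y' : V} (he : e ≠ 0) (hy : y ∉ F ∙ e) (hy' : y' ∉ F ∙ e) (h1 : B e y' = B e y)
    (h2 : B y' y' = B y y) : ∃ g : SUG B, g • e = e ∧ g • y = y' := by
  obtain ⟨g, hg, h⟩ := hC.sd.witt_SUG_two (li_pair he hy) (li_pair he hy') rfl h1 h2 hC.wt
  exact ⟨⟨g, hg⟩, h⟩

theorem notMem_of_B {e x y : V} (hp : B x e = 0) (h : B x y ≠ 0) : y ∉ F ∙ e := fun hy => by
  obtain ⟨c, rfl⟩ := Submodule.mem_span_singleton.1 hy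
  simp [hp] at h

variable (B) in
theorem exists_x {e : V} (he : B e e = 0) (h0 : e ≠ 0) : ∃ x, B x x = 0 ∧ B e x = 0 ∧ x ∉ F ∙ e := by
  obtain ⟨f, h⟩ := hC.sd.exists_SP he h0
  obtain ⟨x, hx0, hx⟩ := (h.sd hC.sd).exists_iso hC.sd.ns (by
    have := h.finrank_spp hC.sd; have := hC.four; omega)
  refine ⟨x, hx, spp_left x, fun h' => hx0 (Subtype.ext ?_)⟩
  obtain ⟨c, hc⟩ := Submodule.mem_span_singleton.1 h'
  have := spp_right x
  rw [← hc, map_smul, h.fe hC.sd] at this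
  rw [← hc, show c = 0 by simpa using this]; simp

theorem card_shift {x y : V} (hx : B x x = 0) (h : B x y ≠ 0) (z : V) :
    Nat.card {c : F // B (y + c • x) (y + c • x) = B z z} = q0 σ := by
  obtain ⟨d, hd⟩ := hC.sd.trace y
  obtain ⟨d', hd'⟩ := hC.sd.trace z
  rw [← card_sub_conj_eq (σ := σ) (t := B y y - B z z) ⟨d - d', by rw [map_sub]; linear_combination hd - hd'⟩]
  refine Nat.card_congr ((Equiv.mulRight₀ _ (hC.sd.σ_ne_zero h)).subtypeEquiv fun c => ?_)
  rw [hC.sd.self_add_smul y x hx, Equiv.mulRight₀_apply]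
  exact ⟨fun h => by linear_combination -h, fun h => by linear_combination -h⟩

theorem card_le_ker (A : AddSubgroup V) (x : V) :
    Nat.card A ≤ Q * {y | y ∈ A ∧ B x y = 0}.ncard := by
  let φ : A →+ F := (B x).toAddMonoidHom.comp A.subtype
  rw [← φ.ker.card_mul_index, AddSubgroup.index_ker, mul_comm]
  refine Nat.mul_le_mul (Nat.card_le_card_of_injective _ Subtype.val_injective) ?_
  exact Nat.card_le_card_of_injective (fun y => ⟨y.1.1, y.1.2, y.2⟩)
    fun _ _ h => Subtype.ext (Subtype.ext (by simpa using h))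

theorem ncard_split (A : AddSubgroup V) (x : V) :
    {y | y ∈ A ∧ B x y = 0}.ncard + {y | y ∈ A ∧ B x y ≠ 0}.ncard = Nat.card A := by
  rw [← Set.ncard_union_eq (Set.disjoint_left.2 fun y h h' => h'.2 h.2)]
  exact congrArg Set.ncard (by ext y; by_cases h : B x y = 0 <;> simp [h])

theorem finrank_spp {e x : V} (he : e ≠ 0) (hx : x ∉ F ∙ e) : finrank F (spp B e x) = n - 2 := by
  have := hC.sd.finrank_sperp (Submodule.span F {e, x})
  have h2 := finrank_span_eq_card (li_pair he hx)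
  rw [Matrix.range_cons_cons_empty] at h2
  rw [h2] at this
  exact Nat.eq_sub_of_add_eq this

variable {X : Type*} [MulAction (SUG B) X] [Finite X]

variable (B X) in
noncomputable def MM (e : V) (a : KF σ) (s : ℕ) (y : V) : Finset (Set X) :=
  (Set.toFinite {O | ∃ ω, ob B e ω = O ∧ a ∈ GG B e ω ∧ Nat.card (SS B e ω) = s ∧ y ∈ SS B e ω}).toFinset

theorem mem_MM {e y : V} {a : KF σ} {s : ℕ} {O : Set X} : O ∈ MM B X e a s y ↔
    ∃ ω, ob B e ω = O ∧ a ∈ GG B e ω ∧ Nat.card (SS B e ω) = s ∧ y ∈ SS B e ω := by simp [MM]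

theorem ob_mem_MM {e y : V} (he : B e e = 0) {a : KF σ} {s : ℕ} {ω : X} : ob B e ω ∈ MM B X e a s y ↔
    a ∈ GG B e ω ∧ Nat.card (SS B e ω) = s ∧ y ∈ SS B e ω := by
  refine mem_MM.trans ⟨fun ⟨ω', h, h'⟩ => ?_, fun h => ⟨ω, rfl, h⟩⟩
  obtain ⟨h1, -, h2⟩ := of_ob he h
  rwa [← h1, ← h2]

theorem g_mem_MM (g : SUG B) {e y : V} {a : KF σ} {s : ℕ} {O : Set X} (h : O ∈ MM B X e a s y) :
    g • O ∈ MM B X (g • e) a s (g • y) := by
  obtain ⟨ω, rfl, h1, h2, h3⟩ := mem_MM.1 h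
  exact mem_MM.2 ⟨g • ω, ob_g .., by rwa [GG_g], by rwa [card_SS_g], (g_mem_SS g).2 h3⟩

theorem card_MM_g (g : SUG B) (e y : V) (a : KF σ) (s : ℕ) :
    (MM B X (g • e) a s (g • y)).card = (MM B X e a s y).card := by
  have : ∀ (g : SUG B) (e y : V), (MM B X e a s y).card ≤ (MM B X (g • e) a s (g • y)).card :=
    fun g e y => Finset.card_le_card_of_injOn (g • ·) (fun O h => g_mem_MM g h)
      (MulAction.injective g).injOn
  exact le_antisymm (by simpa using this g⁻¹ (g • e) (g • y)) (this g e y)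

theorem MM_smul {e : V} (he : B e e = 0) {t : F} (ht : t ≠ 0) (a : KF σ) (s : ℕ) (y : V) :
    MM B X (t • e) (nm σ hC.sd.invol t * a) s y = MM B X e a s (σ t • y) := by
  have : ∀ ω : X, Nat.card (SS B (t • e) ω) = Nat.card (SS B e ω) := fun ω =>
    Nat.card_congr ((MulAction.toPerm (Units.mk0 _ (hC.sd.σ_ne_zero ht))).subtypeEquiv fun _ =>
      smul_mem_SS he ht)
  ext O
  simp only [mem_MM, ob_smul he ht, smul_mem_GG he ht, this]
  simp only [smul_mem_SS he ht]

theorem kk_smul {e : V} (he : B e e = 0) (h0 : e ≠ 0) {t : F} (ht : t ≠ 0) (a : KF σ) (s : ℕ) :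
    (MM B X e (nm σ hC.sd.invol t * a) s 0).card = (MM B X e a s 0).card := by
  obtain ⟨g, hg⟩ := trans1 (B := B) h0 (smul_ne_zero ht h0) (by simp [he])
  rw [← card_MM_g g, hg, smul_zero, MM_smul he ht, smul_zero]

theorem MM_sub {e : V} (a : KF σ) (s : ℕ) (y : V) : MM B X e a s y ⊆ MM B X e a s 0 := fun _ h => by
  obtain ⟨ω, h, h1, h2, -⟩ := mem_MM.1 h
  exact mem_MM.2 ⟨ω, h, h1, h2, zero_mem _⟩

theorem MM_sub0 {e : V} (a : KF σ) (s : ℕ) (y : V) : MM B X e a s y ⊆ MM B X e 0 s y := fun _ h => by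
  obtain ⟨ω, h, -, h2⟩ := mem_MM.1 h
  exact mem_MM.2 ⟨ω, h, zero_mem _, h2⟩

theorem card_MM_norm {e y y' : V} (h0 : e ≠ 0) (hy : y ∉ F ∙ e) (hy' : y' ∉ F ∙ e) (h1 : B e y' = B e y)
    (h2 : B y' y' = B y y) (a : KF σ) (s : ℕ) : (MM B X e a s y').card = (MM B X e a s y).card := by
  obtain ⟨g, hg, rfl⟩ := trans2 h0 hy hy' h1 h2
  rw [← card_MM_g g e y, hg]

theorem countA [Fintype (KF σ)] {e : V} (he : B e e = 0) (h0 : e ≠ 0) (s : ℕ) :
    (∑ a, (MM B X e a s 0).card) * Q ^ (n - 1) ≤ Nat.card X * s := by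
  classical
  have c3 : ∑ a, (MM B X e a s 0).card =
      ∑ O ∈ MM B X e 0 s 0, (Finset.univ.filter fun a => O ∈ MM B X e a s 0).card := by
    simp only [Finset.card_filter]
    rw [Finset.sum_comm]
    refine Finset.sum_congr rfl fun a _ => ?_
    rw [← Finset.card_filter, Finset.filter_mem_eq_inter, Finset.inter_eq_right.2 (MM_sub0 a s 0)]
  refine le_trans (le_of_eq ?_) (Nat.mul_le_mul_right s ((rm1 B e).sum_le (MM B X e 0 s 0)
    fun O h => (mem_MM.1 h).imp fun _ h => h.1))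
  rw [c3, Finset.sum_mul, Finset.sum_mul]
  refine Finset.sum_congr rfl fun O hO => ?_
  obtain ⟨ω, rfl, -, rfl, -⟩ := mem_MM.1 hO
  rw [card_ob h0, mul_comm, Nat.card_eq_fintype_card (α := GG B e ω), Fintype.card_subtype]
  simp [ob_mem_MM he]

theorem countB {e : V} (he : B e e = 0) (h0 : e ≠ 0) (a : KF σ) (s : ℕ) (τ : Finset V)
    (h1 : ∀ y ∈ τ, B e y = 0 ∧ y ∉ F ∙ e) (h2 : Set.InjOn (fun y => B y y) τ) :
    q0 σ * (∑ y ∈ τ, (MM B X e a s y).card) * Q ^ (n - 2) ≤ (MM B X e a s 0).card * s := by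
  classical
  have := Fintype.ofFinite V
  have := Fintype.ofFinite F
  obtain ⟨x, hx, hex, hxe⟩ := exists_x B he h0
  set T := Finset.univ.filter fun y => B e y = 0 ∧ B x y ≠ 0 with hT
  have hT' : ∀ y ∈ T, ∀ c : F, y + c • x ∈ T := fun y hy c => by simpa [hT, hex, hx] using hy
  have c0 : ∀ y ∈ T, q0 σ * ∑ z ∈ τ, (MM B X e a s z).card ≤ ∑ c : F, (MM B X e a s (y + c • x)).card := by
    intro y hy
    refine le_trans (le_of_eq ?_) (Finset.sum_le_sum_of_subset (Finset.subset_univ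
      (τ.biUnion fun z => Finset.univ.filter fun c => B (y + c • x) (y + c • x) = B z z)))
    rw [Finset.sum_biUnion fun z hz z' hz' hne => Finset.disjoint_filter.2 fun c _ h h' =>
      hne (h2 hz hz' (h.symm.trans h')), Finset.mul_sum]
    refine Finset.sum_congr rfl fun z hz => ?_
    have hy' := fun c => (Finset.mem_filter.1 (hT' y hy c)).2
    rw [Finset.sum_congr rfl fun c hc => card_MM_norm h0 (h1 z hz).2 (notMem_of_B (c0 hex) (hy' c).2)
      ((hy' c).1.trans (h1 z hz).1.symm) (Finset.mem_filter.1 hc).2 a s, Finset.sum_const, smul_eq_mul,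
      ← card_shift hx (Finset.mem_filter.1 hy).2.2 z, Nat.card_eq_fintype_card, Fintype.card_subtype]
  have c1 : ∀ c : F, ∑ y ∈ T, (MM B X e a s (y + c • x)).card = ∑ y ∈ T, (MM B X e a s y).card := fun t =>
    Finset.sum_bij' (fun y _ => y + t • x) (fun y _ => y + (-t) • x) (fun y hy => hT' y hy t)
      (fun y hy => hT' y hy _) (fun y _ => by simp) (fun y _ => by simp) fun _ _ => rfl
  have c1' := Finset.sum_le_sum c0
  rw [Finset.sum_comm, Finset.sum_const] at c1'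
  simp only [c1, Finset.sum_const, smul_eq_mul, Finset.card_univ, ← Nat.card_eq_fintype_card] at c1'
  have c2 : Q ^ (n - 2) + T.card = Q ^ (n - 1) := by
    rw [← finrank_P1 (B := B) h0, ← finrank_spp (B := B) h0 hxe, ← card_sub, ← card_sub,
      ← Set.ncard_coe_finset]
    refine Eq.trans ?_ (ncard_split (B := B) (P1 B e).toAddSubgroup x)
    congr 1
    · exact congrArg Set.ncard (by ext y; simp [mem_sperp_pair, mem_sperp_singleton])
    · exact congrArg Set.ncard (by ext y; simp [mem_sperp_singleton, hT])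
  have c3 : ∑ y ∈ T, (MM B X e a s y).card =
      ∑ O ∈ MM B X e a s 0, (T.filter fun y => O ∈ MM B X e a s y).card := by
    simp only [Finset.card_filter]
    rw [Finset.sum_comm]
    refine Finset.sum_congr rfl fun y _ => ?_
    rw [← Finset.card_filter, Finset.filter_mem_eq_inter, Finset.inter_eq_right.2 (MM_sub a s y)]
  have c4 : ∀ O ∈ MM B X e a s 0, Q * (T.filter fun y => O ∈ MM B X e a s y).card ≤ (Q - 1) * s := by
    intro O hO
    obtain ⟨ω, rfl, h3, rfl, -⟩ := mem_MM.1 hO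
    have e0 : (T.filter fun y => ob B e ω ∈ MM B X e a (Nat.card (SS B e ω)) y).card =
        {y | y ∈ SS B e ω ∧ B x y ≠ 0}.ncard := by
      rw [← Set.ncard_coe_finset]; congr 1; ext y
      simp only [hT, ob_mem_MM he, Finset.coe_filter, Finset.mem_filter, Finset.mem_univ, true_and,
        Set.mem_setOf_eq, h3]
      exact ⟨fun h => ⟨h.2, h.1.2⟩, fun h => ⟨⟨(mem_SS.1 h.1).1, h.2⟩, h.1⟩⟩
    have e1 := card_le_ker (B := B) (SS B e ω) x
    have e2 := congrArg (Q * ·) (ncard_split (B := B) (SS B e ω) x)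
    simp only [mul_add] at e2
    rw [e0, Nat.sub_mul, one_mul]; omega
  have c5 := Finset.sum_le_sum c4
  rw [← Finset.mul_sum, ← c3, Finset.sum_const, smul_eq_mul] at c5
  have hq : 2 ≤ Q := Finite.one_lt_card
  obtain ⟨k, hk⟩ : ∃ k, n = k + 2 := ⟨n - 2, by have := hC.four; omega⟩
  obtain ⟨r, hr⟩ : ∃ r, Q = r + 1 := ⟨Q - 1, by omega⟩
  simp only [hk, hr, Nat.add_sub_cancel, show k + 2 - 1 = k + 1 by omega] at c1' c2 c5 ⊢
  have c6 : T.card = r * (r + 1) ^ k := by
    have : (r + 1) ^ (k + 1) = (r + 1) ^ k + r * (r + 1) ^ k := by ring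
    omega
  rw [c6] at c1'
  refine Nat.le_of_mul_le_mul_left (?_ : r * _ ≤ r * _) (by omega)
  linarith [c1'.trans c5]

end Cfsg.Agent.H26.MU
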