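import Mathlib
import Cfsg.Agent.H26.MU2

/-! Small permutation representations of unitary groups: the regular orbit. -/

set_option autoImplicit false
set_option linter.unusedSectionVars false

namespace Cfsg.Agent.H26.MU

open Module H12 MD
open scoped Pointwise

class UU {F V : Type*} [Field F] [AddCommGroup V] [Module F V] {σ : F →+* F}
    (B : V →ₛₗ[σ] V →ₗ[F] F) : Prop extends UC B where
  ne : σ ≠ RingHom.id F

variable {F V : Type*} [Field F] [Finite F] [AddCommGroup V] [Module F V] [FiniteDimensional F V]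
  [Finite V] {σ : F →+* F} {B : V →ₛₗ[σ] V →ₗ[F] F}

local notation "Q" => Nat.card F
local notation "n" => finrank F V
local notation "q" => q0 σ

theorem exists_avoid (S : AddSubgroup V) (W : Submodule F V) (L : Finset V)
    (h : L.card * Nat.card W < Nat.card S) : ∃ u ∈ S, ∀ l ∈ L, u + l ∉ W := by
  by_contra! H
  choose f h1 h2 using H
  refine h.not_ge ((Nat.card_le_card_of_injective (fun u : S => ((⟨f u u.2, h1 u u.2⟩, ⟨_, h2 u u.2⟩) :
    L × W)) fun a b e => ?_).trans_eq (by simp))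
  simp only [Prod.mk.injEq, Subtype.mk.injEq] at e
  exact Subtype.ext (by simpa [e.1] using e.2)

theorem card_line {e : V} (h : e ≠ 0) : Nat.card (F ∙ e) = Q := by
  rw [card_sub, finrank_span_singleton h, pow_one]

theorem three {S : AddSubgroup V} {e : V} (h0 : e ≠ 0) {t : F} (h : 4 * Q < Nat.card S)
    (H : ∀ v ∈ S, v ∉ F ∙ e → B v v = t) : t = 0 := by
  classical
  have k : ∀ L : Finset V, L.card ≤ 4 → ∃ u ∈ S, ∀ l ∈ L, u + l ∉ F ∙ e := fun L hL =>
    exists_avoid S _ L (by rw [card_line h0]; exact (Nat.mul_le_mul_right _ hL).trans_lt h)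
  obtain ⟨v, hv, h1⟩ := k {0} (by simp)
  obtain ⟨w, hw, h2⟩ := k {0, v} (Finset.card_le_two.trans (by omega))
  obtain ⟨u, hu, h3⟩ := k {0, v, w, w + v} Finset.card_le_four
  simp only [Finset.mem_insert, Finset.mem_singleton, forall_eq_or_imp, forall_eq, add_zero] at h1 h2 h3
  have e1 := H _ hv h1
  have e2 := H _ hw h2.1
  have e3 := H _ (add_mem hw hv) h2.2
  have e4 := H _ hu h3.1
  have e5 := H _ (add_mem hu hv) h3.2.1
  have e6 := H _ (add_mem hu hw) h3.2.2.1
  have e7 := H _ (add_mem hu (add_mem hw hv)) h3.2.2.2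
  simp only [map_add, LinearMap.add_apply] at e3 e5 e6 e7
  linear_combination e3 + e5 + e6 - e7 - e1 - e2 - e4

section
variable [hC : UC B]

theorem iso_line {T : AddSubgroup V} {r : V} (hr : B r r ≠ 0) (hT : ∀ w ∈ T, w ∈ F ∙ r) {c : KF σ}
    (hc : c ≠ 0) (h : ∀ a ∈ T, ∀ b ∈ T, psi _ (c * tr B a b) = 1) : Nat.card T * Nat.card T ≤ Q := by
  let l : F →ₗ[KF σ] V := (LinearMap.toSpanSingleton F V r).restrictScalars _
  have h1 : Nat.card T ≤ Nat.card (T.comap l.toAddMonoidHom) := by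
    choose f hf using fun w : T => Submodule.mem_span_singleton.1 (hT w w.2)
    exact Nat.card_le_card_of_injective (fun w => ⟨f w, show f w • r ∈ T by rw [hf]; exact w.2⟩)
      fun a b e => Subtype.ext (by rw [← hf, ← hf, show f a = f b from congrArg Subtype.val e])
  rw [← card_Ann (β := (tr B).compl₁₂ l l) (fun w hw => ?_) (T.comap l.toAddMonoidHom)]
  · refine Nat.mul_le_mul (h1.trans (Nat.card_le_card_of_injective
      (fun a => ⟨c • a.1, fun b hb => by simpa using h _ a.2 _ hb⟩) fun a b e => ?_)) h1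
    exact Subtype.ext (smul_right_injective F hc (congrArg Subtype.val e))
  · refine (mul_eq_zero.1 (eq_zero_of_tr B (b := w * B r r) fun t => ?_)).resolve_right hr
    simpa [tr_coe, hC.sd.invol, map_mul, l, mul_left_comm] using congrArg Subtype.val (hw (σ t))

theorem exists_iso_perp (hn : 5 ≤ n) {e y v : V} (h0 : e ≠ 0) (hey : B y e = 0) (hy : B y y ≠ 0)
    (hv : v ∉ Submodule.span F {e, y}) : ∃ x, B x x = 0 ∧ B e x = 0 ∧ B y x = 0 ∧ B x v ≠ 0 := by
  by_contra! H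
  refine hv (hC.sd.sperp_sperp (Submodule.span F {e, y}) ▸ fun x hx => ?_)
  have D := hC.sd.restrict (hC.sd.disjoint_sperp (hC.sd.disjoint_span_singleton hy))
  exact D.perp_iso_induction hC.sd.ns (Or.inr (by
      rw [finrank_P1 (B := B) (by rintro rfl; simp at hy)]; omega))
    (u := ⟨e, mem_sperp_singleton.2 hey⟩) (by simpa using h0) (p := fun x => B x v = 0)
    (fun x h1 h2 => H x h2 h1 (mem_sperp_singleton.1 x.2)) (fun x y h1 h2 => by simp [h1, h2])
    (x := ⟨x, mem_sperp_singleton.2 (mem_sperp_pair.1 hx).2⟩) (mem_sperp_pair.1 hx).1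

theorem card_pair_le (a b : V) : Nat.card (Submodule.span F {a, b}) ≤ Q ^ 2 := by
  classical
  rw [card_sub]
  refine Nat.pow_le_pow_right Nat.card_pos ?_
  have := (finrank_span_finset_le_card (R := F) ({a, b} : Finset V)).trans Finset.card_le_two
  rwa [Set.finrank, Finset.coe_pair] at this

variable {X : Type*} [MulAction (SUG B) X] [Finite X] {e : V} {ω : X} {a : KF σ}

theorem mem_of_eq (he : B e e = 0) {g g' : SUG B} (hg : g • e = e) (hg' : g' • e = e)
    (h : g' • ob B e ω = g • ob B e ω) {v : V} (hv : v ∈ SS B e ω) : g' • v ∈ SS B e (g • ω) := by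
  rw [← ob_g, ← ob_g, hg, hg'] at h
  rw [← (of_ob he h).1]
  simpa [hg'] using (g_mem_SS g').2 hv

theorem GG_fix {g : SUG B} (hg : g • e = e) (ha : a ∈ GG B e ω) : a ∈ GG B e (g • ω) := by
  rwa [← GG_g g, hg] at ha

theorem J_le {y : V} (ha : a ∈ GG B e ω) (hy : y ∈ SS B e ω) {J : Set (Set X)}
    (hJ : ∀ O ∈ J, ∃ g : SUG B, g • e = e ∧ g • y = y ∧ g • ob B e ω = O) :
    J.ncard ≤ (MM B X e a (Nat.card (SS B e ω)) y).card := by
  rw [← Set.ncard_coe_finset]
  refine Set.ncard_le_ncard (fun O hO => ?_) (Finset.finite_toSet _)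
  obtain ⟨g, h1, h2, rfl⟩ := hJ O hO
  simpa [h1, h2] using g_mem_MM g (mem_MM.2 ⟨ω, rfl, ha, rfl, hy⟩)

end

variable [hU : UU B]

variable (B) in
include hU in
theorem five : 5 ≤ n := hU.wt.resolve_left hU.ne
variable (B) in
include hU in
theorem QQ : Q = q ^ 2 := card_eq_q0_sq hU.ne hU.sd.invol

variable {X : Type*} [MulAction (SUG B) X] [Finite X] {e : V} {ω : X} {a : KF σ}

theorem kk_eq (he : B e e = 0) (h0 : e ≠ 0) {a' : KF σ} (h : a ≠ 0) (h' : a' ≠ 0) (s : ℕ) :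
    (MM B X e a' s 0).card = (MM B X e a s 0).card := by
  obtain ⟨t, ht⟩ := hU.sd.ns.resolve_left hU.ne _ (kf (a' / a))
  have e1 : nm σ hU.sd.invol t * a = a' := by
    rw [show nm σ hU.sd.invol t = a' / a from Subtype.ext ((mul_comm _ _).trans ht), div_mul_cancel₀ _ h]
  rw [← e1, kk_smul he h0]
  rintro rfl
  exact h' (by rw [← e1, show nm σ hU.sd.invol 0 = 0 from Subtype.ext (zero_mul _), zero_mul])

abbrev HX (_ : V →ₛₗ[σ] V →ₗ[F] F) (X : Type*) : Prop :=
  Nat.card X < (q0 σ + 1) * Nat.card F ^ (finrank F V - 2)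

variable (hX : HX B X) (he : B e e = 0) (h0 : e ≠ 0) (ha : a ∈ GG B e ω) (a0 : a ≠ 0)
include hX he h0 a0

theorem star {s : ℕ} (hs : 0 < s) (τ : Finset V) (h1 : ∀ y ∈ τ, B e y = 0 ∧ y ∉ F ∙ e)
    (h2 : Set.InjOn (fun y => B y y) τ) :
    (∑ y ∈ τ, (MM B X e a s y).card) * Q ^ n < (q + 1) * (s * s) := by
  have := Fintype.ofFinite (KF σ)
  have c1 := countA (X := X) he h0 s
  have c2 := countB (X := X) he h0 a s τ h1 h2
  have c3 : q * (MM B X e a s 0).card ≤ ∑ a, (MM B X e a s 0).card := by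
    rw [← card_KF, Nat.card_eq_fintype_card, ← smul_eq_mul, ← Finset.card_univ, ← Finset.sum_const]
    refine Finset.sum_le_sum fun a' _ => ?_
    by_cases h : a' = 0
    · exact h ▸ Finset.card_le_card (MM_sub0 a s 0)
    · exact (kk_eq he h0 a0 h s).ge
  obtain ⟨k, hk⟩ : ∃ k, n = k + 2 := ⟨n - 2, by have := five B; omega⟩
  have c4 := Nat.mul_lt_mul_of_lt_of_le hX (le_refl (s * s)) (by positivity)
  have c5 := Nat.mul_le_mul_right s ((Nat.mul_le_mul_right _ c3).trans c1)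
  have c6 := Nat.mul_le_mul_right (q * Q ^ (k + 1)) c2
  simp only [hk, Nat.add_sub_cancel, show k + 2 - 1 = k + 1 by omega] at c4 c5 c6 ⊢
  refine Nat.lt_of_mul_lt_mul_left (a := Q ^ k) ?_
  rw [show Q ^ (k + 2) = q ^ 2 * Q ^ (k + 1) by rw [← QQ B]; ring]
  linarith

include ha

theorem mu_sum (τ : Finset V) (h1 : ∀ y ∈ τ, B e y = 0 ∧ y ∉ F ∙ e) (h2 : Set.InjOn (fun y => B y y) τ) :
    ∑ y ∈ τ, (MM B X e a (Nat.card (SS B e ω)) y).card ≤ q :=
  Nat.le_of_lt_succ (Nat.lt_of_mul_lt_mul_right ((star hX he h0 a0 Nat.card_pos τ h1 h2).trans_le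
    (Nat.mul_le_mul_left _ (card_SS ha a0))))

theorem mu_le {y : V} (hy : y ∈ SS B e ω) (hy' : y ∉ F ∙ e) :
    (MM B X e a (Nat.card (SS B e ω)) y).card ≤ q := by
  simpa using mu_sum hX he h0 ha a0 {y} (by simp [(mem_SS.1 hy).1, hy']) (by simp)

theorem mu_lt {y v : V} (hy : y ∈ SS B e ω) (hy' : y ∉ F ∙ e) (hv : v ∈ SS B e ω) (hv' : v ∉ F ∙ e)
    (h : B v v ≠ B y y) : (MM B X e a (Nat.card (SS B e ω)) y).card < q := by
  classical
  have := mu_sum hX he h0 ha a0 {v, y} (by simp [(mem_SS.1 hy).1, hy', (mem_SS.1 hv).1, hv'])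
    (by simp [Set.InjOn, h, h.symm])
  rw [Finset.sum_pair (by rintro rfl; exact h rfl)] at this
  have := Finset.card_pos.2 ⟨_, mem_MM.2 ⟨ω, rfl, ha, rfl, hv⟩⟩
  omega

theorem lemB {u v : V} (hu : u ∈ SS B e ω) (hu' : u ∉ F ∙ e) (huu : B u u = 0) (hv : v ∈ SS B e ω) :
    B u v = 0 := by
  by_contra hb
  obtain ⟨r, hr, h1⟩ := hU.sd.exists_aniso_perp hU.ne (Submodule.span F {e, u}) (by
    have := hU.sd.finrank_sperp (Submodule.span F {e, u})
    have := finrank_spp (B := B) h0 hu'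
    have := five B
    unfold spp at *; omega)
  have h2 : ∀ w ∈ F ∙ r, B u w = 0 ∧ B e w = 0 := fun w hw => by
    obtain ⟨c, rfl⟩ := Submodule.mem_span_singleton.1 hw
    simp [c0 (h1 u (Submodule.subset_span (by simp))), c0 (h1 e (Submodule.subset_span (by simp)))]
  have h := rm (B := B) u fun w hw => (h2 w hw).1
  have hfe : ∀ w ∈ HD B (F ∙ r), rh B u w • e = e := fun w hw =>
    rh_fix (c0 (mem_SS.1 hu).1) (c0 (h2 _ hw).2)
  have c1 := h.ncard_orb (ob B e ω)
  have c2 := J_le ha hu (J := orm (HD B (F ∙ r)) (rh B u) (ob B e ω)) fun O ⟨w, hw, e1⟩ =>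
    ⟨_, hfe w hw, rh_self _ _, e1⟩
  have hδ : ∀ w ∈ pr (h.St (ob B e ω)), w ∈ F ∙ r ∧ ∃ c : F, B u v • w + c • u ∈ SS B e ω := by
    rintro _ ⟨w, hw, rfl⟩
    have := mem_of_eq he (one_smul _ _) (hfe w hw.1) (hw.2.trans (one_smul _ _).symm) hv
    rw [one_smul, rh_apply huu (h2 _ hw.1).1] at this
    exact ⟨hw.1, _, by simpa [add_assoc] using sub_mem this hv⟩
  have c3 := iso_line hr (fun w hw => (hδ w hw).1) (mul_ne_zero a0 (nm_ne (B := B) hb)) fun w hw w' hw' => by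
    obtain ⟨e1, c, hc⟩ := hδ w hw
    obtain ⟨e2, c', hc'⟩ := hδ w' hw'
    rw [← iso_SS ha hc hc']
    congr 1
    refine Subtype.ext ?_
    simp [tr_coe, nm, (h2 _ e2).1, c0 (h2 _ e1).1, huu, hU.sd.invol]; ring
  have c4 : Nat.card (zc (h.St (ob B e ω))) ≤ q :=
    Nat.card_le_card_of_injective _ Subtype.val_injective
  have hq := two_le_q0 (σ := σ)
  have hr0 : r ≠ 0 := by rintro rfl; simp at hr
  rw [card_T, card_HD, finrank_span_singleton hr0, pow_one, QQ B] at c1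
  rw [QQ B, sq, Nat.mul_self_le_mul_self_iff] at c3
  have c5 := Nat.le_of_mul_le_mul_right (c1.ge.trans ((mul_assoc _ _ _).ge.trans
    (Nat.mul_le_mul_left _ c4))) (by omega)
  by_cases h3 : pr (h.St (ob B e ω)) = ⊥
  · rw [h3, AddSubgroup.card_bot] at c5
    have := mu_le hX he h0 ha a0 hu hu'
    nlinarith
  · obtain ⟨⟨w, hw⟩, hw0⟩ := AddSubgroup.ne_bot_iff_exists_ne_zero.1 h3
    obtain ⟨e1, c, hc⟩ := hδ w hw
    have e2 : B (B u v • w + c • u) (B u v • w + c • u) ≠ 0 := by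
      obtain ⟨t, rfl⟩ := Submodule.mem_span_singleton.1 e1
      have : t ≠ 0 := by rintro rfl; simp at hw0
      have e3 := (h2 r (Submodule.mem_span_singleton_self r)).1
      simp [huu, e3, c0 e3, hb, hr, this]
    have := mu_lt hX he h0 ha a0 hu hu' hc (fun h => by
      obtain ⟨t, ht⟩ := Submodule.mem_span_singleton.1 h
      simp [← ht, he] at e2) (by rwa [huu])
    nlinarith

theorem lemC {x y v : V} (hy : y ∈ SS B e ω) (hy' : y ∉ F ∙ e) (hv : v ∈ SS B e ω) (hx : B x x = 0)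
    (hex : B e x = 0) (hyx : B y x = 0) (h : B y y = 0 → B v v = 0) : B x v = 0 := by
  by_contra hb
  have hev := (mem_SS.1 hv).1
  have hfe : ∀ c, tt B x c • e = e := fun c => tt_fix c (c0 hex)
  have key : ∀ (c : KF σ) (t : F), t • x ∈ SS B e (tt B x c • ω) → t = 0 := fun c t h => by
    by_contra ht
    have := lemB hX he h0 (GG_fix (hfe c) ha) a0 h (fun h => ?_) (by simp [hx])
      (mem_of_eq he (hfe c) (hfe c) rfl hv)
    · simp [tt_apply hx, hx, ht, hb] at this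
    · obtain ⟨s, hs⟩ := Submodule.mem_span_singleton.1 h
      simpa [hev, ht, hb] using congrArg (B · v) hs
  have inj : Function.Injective fun c => tt B x c • ob B e ω := fun c c' h => by
    have := sub_mem (mem_of_eq he (hfe c') (hfe c) h hv) (mem_of_eq he (hfe c') (hfe c') rfl hv)
    rw [tt_apply hx, tt_apply hx, add_sub_add_left_eq_sub, ← sub_smul, ← sub_mul] at this
    exact Subtype.ext (sub_eq_zero.1 ((mul_eq_zero.1 (key _ _ this)).resolve_right hb))
  have hJ : ∀ O ∈ Set.range fun c => tt B x c • ob B e ω,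
      ∃ g : SUG B, g • e = e ∧ g • y = y ∧ g • ob B e ω = O := fun O ⟨c, hc⟩ =>
    ⟨_, hfe c, tt_fix c (c0 hyx), hc⟩
  have cJ : (Set.range fun c => tt B x c • ob B e ω).ncard = q := Set.ncard_range_of_injective inj
  by_cases hyy : B y y = 0
  · have hvv := h hyy
    have hyv := lemB hX he h0 ha a0 hy hy' hyy hv
    have hz : B (x + (B x v)⁻¹ • v) (x + (B x v)⁻¹ • v) = 0 := by
      simp [hx, hvv, hU.sd.skew x v, hb]
    have hge : tt B (x + (B x v)⁻¹ • v) (-1) • e = e := tt_fix _ (by simp [c0 hex, c0 hev])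
    have c1 := J_le ha hy (J := insert (tt B (x + (B x v)⁻¹ • v) (-1) • ob B e ω) _) fun O hO =>
      hO.elim (fun h => ⟨_, hge, tt_fix _ (by simp [c0 hyx, c0 hyv]), h.symm⟩) (hJ O)
    rw [Set.ncard_insert_of_notMem, cJ] at c1
    · have := mu_le hX he h0 ha a0 hy hy'
      omega
    · rintro ⟨c, hc⟩
      have := mem_of_eq he (hfe c) hge hc.symm hv
      rw [tt_apply hz, show v + _ = (-B x v) • x by simp [hvv, hb]] at this
      exact hb (neg_eq_zero.1 (key _ _ this))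
  · have c1 := cJ ▸ J_le ha hy hJ
    refine hyy (three h0 ?_ fun w hw hw' => by_contra fun h => (mu_lt hX he h0 ha a0 hy hy' hw hw' h).not_ge c1)
    have c2 := star hX he h0 a0 (Nat.card_pos (α := SS B e ω)) {y} (by simp [(mem_SS.1 hy).1, hy']) (by simp)
    rw [Finset.sum_singleton] at c2
    by_contra! H
    have c3 := (Nat.mul_le_mul c1 (Nat.pow_le_pow_right (Nat.card_pos (α := F)) (five B))).trans_lt
      (c2.trans_le (Nat.mul_le_mul_left _ (Nat.mul_le_mul H H)))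
    have hq := two_le_q0 (σ := σ)
    have c4 : 4 ≤ Q := by rw [QQ B]; nlinarith
    have c5 := Nat.mul_le_mul_left (q * Q ^ 2) (Nat.pow_le_pow_left c4 3)
    have : 0 < Q ^ 2 := by positivity
    nlinarith

theorem step1 {v : V} (hv : v ∈ SS B e ω) : v ∈ F ∙ e := by
  by_contra hv'
  obtain ⟨y, hy, hy', h⟩ : ∃ y ∈ SS B e ω, y ∉ F ∙ e ∧ ∀ v ∈ SS B e ω, B y y = 0 → B v v = 0 := by
    by_cases H : ∀ v ∈ SS B e ω, B v v = 0
    · exact ⟨v, hv, hv', fun v hv _ => H v hv⟩
    · push Not at H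
      obtain ⟨y, hy, h⟩ := H
      refine ⟨y, hy, fun h' => ?_, fun _ _ h' => (h h').elim⟩
      obtain ⟨t, rfl⟩ := Submodule.mem_span_singleton.1 h'
      simp [he] at h
  have hey := (mem_SS.1 hy).1
  have c1 : ∀ v ∈ SS B e ω, v ∈ Submodule.span F {e, y} := fun v hv => by
    by_contra H
    by_cases hyy : B y y = 0
    · obtain ⟨x, h1, h2, h3⟩ := hU.sd.exists_partner _ (h v hv hyy) H (mem_sperp_pair.2
        ⟨(mem_SS.1 hv).1, lemB hX he h0 ha a0 hy hy' hyy hv⟩)
      simpa [h2] using c0 (lemC hX he h0 ha a0 hy hy' hv h1 (mem_sperp_pair.1 h3).1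
        (mem_sperp_pair.1 h3).2 (h v hv))
    · obtain ⟨x, h1, h2, h3, h4⟩ := exists_iso_perp (five B) h0 (c0 hey) hyy H
      exact h4 (lemC hX he h0 ha a0 hy hy' hv h1 h2 h3 (h v hv))
  have c2 : Nat.card (SS B e ω) ≤ Q ^ 2 := (Nat.card_le_card_of_injective
    (fun v : SS B e ω => (⟨v.1, c1 v v.2⟩ : Submodule.span F {e, y})) fun a b e => by simpa using e).trans
    (card_pair_le e y)
  have c3 := star hX he h0 a0 (Nat.card_pos (α := SS B e ω)) {y} (by simp [hey, hy']) (by simp)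
  rw [Finset.sum_singleton] at c3
  have c4 := (Nat.mul_le_mul (Finset.card_pos.2 ⟨_, mem_MM.2 ⟨ω, rfl, ha, rfl, hy⟩⟩)
    (Nat.pow_le_pow_right (Nat.card_pos (α := F)) (five B))).trans_lt
      (c3.trans_le (Nat.mul_le_mul_left _ (Nat.mul_le_mul c2 c2)))
  have hq := two_le_q0 (σ := σ)
  have c5 := Nat.mul_le_mul_left (Q ^ 4) (show q + 1 ≤ Q by rw [QQ B]; nlinarith)
  nlinarith

end Cfsg.Agent.H26.MU
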