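import Mathlib
import Cfsg.Agent.H26.MU3

/-! Small permutation representations of unitary groups: the centres of the transvection groups
in a point stabiliser form a geometric hyperplane. -/

set_option autoImplicit false
set_option linter.unusedSectionVars false

namespace Cfsg.Agent.H26.MU

open Module H12 MD
open scoped Pointwise

variable {F V : Type*} [Field F] [Finite F] [AddCommGroup V] [Module F V] [FiniteDimensional F V]
  [Finite V] {σ : F →+* F} {B : V →ₛₗ[σ] V →ₗ[F] F}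

local notation "Q" => Nat.card F
local notation "n" => finrank F V
local notation "q" => q0 σ

section
variable [hC : UC B]

theorem g_add (g : SUG B) (x y : V) : g • (x + y) = g • x + g • y := map_add g.1.1 x y
theorem g_ext {g h : SUG B} (H : ∀ x : V, g • x = h • x) : g = h := Subtype.ext (UG_ext H)
theorem smem (c : F) (x : V) : c • x ∈ F ∙ x := Submodule.smul_mem _ _ (Submodule.mem_span_singleton_self x)

theorem exists_rh {e : V} (he : B e e = 0) (h0 : e ≠ 0) {k : SUG B} (h1 : k • e = e)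
    (h2 : ∀ v, B e v = 0 → k • v - v ∈ F ∙ e) : ∃ w : Hb B, B e w.u = 0 ∧ rh B e w = k := by
  obtain ⟨f, h⟩ := hC.sd.exists_SP he h0
  have e1 : B e (k • f) = B e f := by rw [← Bg k e f, h1]
  obtain ⟨u, c, h3, h4⟩ := exists_rho_map hC.sd he (Bg k f f).symm e1.symm (by simp [h.ef])
  refine ⟨⟨u, c, h3.cc⟩, h3.eu, Subtype.ext (h.UG_ext hC.sd ((rh_self _ _).trans h1.symm) h4 fun w => ?_)⟩
  obtain ⟨s, hs⟩ := Submodule.mem_span_singleton.1 (h2 w (spp_left w))
  have e2 := rh_perp (a := ⟨u, c, h3.cc⟩) he h3.eu (spp_left w)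
  have e3 : B (k • f) (k • (w : V)) = B (k • f) (rh B e ⟨u, c, h3.cc⟩ • (w : V)) := by
    rw [Bg, ← show rh B e ⟨u, c, h3.cc⟩ • f = k • f from h4, Bg]
  rw [eq_sub_iff_add_eq'] at hs
  rw [e2, ← hs] at e3
  have e4 : B (k • f) e ≠ 0 := n0 (by simp [e1, h.ef])
  change rh B e ⟨u, c, h3.cc⟩ • (w : V) = k • (w : V)
  rw [e2, ← hs, show s = B u w by simpa [e4] using e3]

theorem ns_ind {W : Submodule F V} {r : V} (hr : r ∈ W) (hrr : B r r ≠ 0) (y : V)
    (h : ∀ w ∈ W, B w w ≠ 0 → B y w = 0) {w : V} (hw : w ∈ W) : B y w = 0 := by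
  by_contra H
  have k : ∀ t : F, B (w + t • r) (w + t • r) = 0 := fun t => by
    by_contra h'
    simpa [h r hr hrr, H] using h _ (add_mem hw (W.smul_mem t hr)) h'
  obtain ⟨d, hd⟩ := hC.tr
  have e0 := k 0
  have e1 := k 1
  have e2 := k d
  have e3 := k (d + 1)
  simp only [map_add, LinearMap.add_apply, LinearMap.map_smulₛₗ, LinearMap.smul_apply, smul_eq_mul,
    RingHom.id_apply, map_one, map_zero] at e0 e1 e2 e3
  exact mul_ne_zero hd hrr (by linear_combination e3 - e2 - e1 + e0)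

theorem notMem_pair {x y r : V} (hx : B x x = 0) (hxy : x ∉ F ∙ y) (hy : B y y = 0) (hr : B r r ≠ 0)
    (hyr : B y r = 0) : x ∉ Submodule.span F {y, r} := fun h => by
  obtain ⟨a, b, rfl⟩ := Submodule.mem_span_pair.1 h
  rw [show b = 0 by simpa [hy, hyr, c0 hyr, hr] using hx] at hxy
  exact hxy (by simpa using smem a y)

theorem exists_r (hσ : σ ≠ RingHom.id F) (hn : 5 ≤ n) (x y : V) : ∃ r, B r r ≠ 0 ∧ B x r = 0 ∧ B y r = 0 := by
  classical
  obtain ⟨r, hr, h1⟩ := hC.sd.exists_aniso_perp hσ (Submodule.span F {x, y}) (by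
    have := (finrank_span_finset_le_card (R := F) ({x, y} : Finset V)).trans Finset.card_le_two
    rw [Set.finrank, Finset.coe_pair] at this; omega)
  exact ⟨r, hr, c0 (h1 x (Submodule.subset_span (by simp))), c0 (h1 y (Submodule.subset_span (by simp)))⟩

variable {X : Type*} [MulAction (SUG B) X] [Finite X] {e x : V} {ω : X}

variable (B) in
def TT (ω : X) (x : V) : Prop := B x x = 0 ∧ ∀ c, tt B x c • ω = ω

theorem TT.g (h : TT B ω x) (g : SUG B) : TT B (g • ω) (g • x) :=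
  ⟨by simpa using h.1, fun c => by simp [← conj_tt, mul_smul, h.2]⟩
theorem TT.map (h : TT B ω x) {g : SUG B} (hg : g • ω = ω) : TT B ω (g • x) := hg ▸ h.g g
theorem TT.smul (h : TT B ω x) (t : F) : TT B ω (t • x) :=
  ⟨by simp [h.1], fun c => by rw [tt_smul h.1, h.2]⟩
theorem TT.of_smul {t : F} (h : TT B ω (t • x)) (ht : t ≠ 0) : TT B ω x := by
  simpa [ht] using h.smul t⁻¹
theorem TT.zero : TT B ω (0 : V) :=
  ⟨by simp, fun c => by rw [show tt B 0 c = 1 from Subtype.ext (tv_zero_left hC.sd _), one_smul]⟩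
theorem TT.of_mem (h : TT B ω x) {y : V} (hy : y ∈ F ∙ x) : TT B ω y := by
  obtain ⟨t, rfl⟩ := Submodule.mem_span_singleton.1 hy; exact h.smul t
theorem TT.notMem (h : TT B ω x) (he : ¬ TT B ω e) (h0 : x ≠ 0) : x ∉ F ∙ e := fun hx => by
  obtain ⟨t, rfl⟩ := Submodule.mem_span_singleton.1 hx
  exact he (h.of_smul (by rintro rfl; simp at h0))

end

variable [hU : UU B]

variable (B) in
include hU in
theorem exists_N1 : ∃ ν : N1 σ, ((ν : Fˣ) : F) ^ 2 ≠ 1 := by
  classical
  by_contra! H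
  have h1 := card_N1 hU.ne hU.sd.invol
  have h2 := Nat.card_le_card_of_injective (fun ν : N1 σ => (⟨(ν : Fˣ), by
    simpa using sq_eq_one_iff.1 (H ν)⟩ : ({1, -1} : Finset F))) fun a b e =>
      Subtype.ext (Units.ext (by simpa using e))
  have := two_le_q0 (σ := σ)
  have := Finset.card_le_two (a := (1 : F)) (b := -1)
  simp only [Nat.card_eq_finsetCard] at h2
  omega

theorem exists_tq (ν : N1 σ) {x y r : V} (hx : B x x = 0) (hxy : x ∉ F ∙ y) (hy : B y y = 0)
    (hyx : B y x = 0) (hr : B r r ≠ 0) (hxr : B x r = 0) (hyr : B y r = 0) : ∃ g : SUG B,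
    g • x = ((ν : Fˣ) : F) • x ∧ g • y = y ∧ g • r = (((ν : Fˣ) : F) ^ 2)⁻¹ • r := by
  obtain ⟨f, h1, h2, h3⟩ := hU.sd.exists_partner _ hx (notMem_pair hx hxy hy hr hyr)
    (mem_sperp_pair.2 ⟨hyx, c0 hxr⟩)
  have h : SP B x f := ⟨hx, h1, h2⟩
  obtain ⟨k, k1, k2, k3⟩ := hU.sd.exists_quasiRefl hr (ν ^ 2)⁻¹
  have h4 := mem_sperp_pair.1 h3
  have e1 : σ (ν : Fˣ) * (ν : Fˣ) = 1 := ν.2
  refine ⟨⟨k * h.torus hU.sd ν, ?_⟩, ?_, ?_, ?_⟩
  · rw [SUG, MonoidHom.mem_ker, map_mul, k1, Units.ext_iff, Units.val_mul, h.det_torus,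
      ← eq_inv_of_mul_eq_one_right e1]
    simp [sq, mul_mul_mul_comm]
  · rw [g_def, UG_mul_apply, h.torus_e, k3 _ (by simp [c0 hxr])]
  · rw [g_def, UG_mul_apply, show (h.torus hU.sd ν).1 y = y from
      h.torus_w hU.sd ν ⟨y, mem_sperp_pair.2 ⟨c0 hyx, c0 h4.1⟩⟩, k3 _ (c0 hyr)]
  · rw [g_def, UG_mul_apply, show (h.torus hU.sd ν).1 r = r from
      h.torus_w hU.sd ν ⟨r, mem_sperp_pair.2 ⟨hxr, c0 h4.2⟩⟩, k2]
    simp

variable {X : Type*} [MulAction (SUG B) X] [Finite X] {e x : V} {ω : X} (hX : HX B X)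
include hX

theorem reg (he : B e e = 0) (h : ¬ TT B ω e) :
    ZZ B e ω = ⊥ ∧ (∀ v ∈ SS B e ω, v ∈ F ∙ e) ∧ MM B X e 0 Q 0 = {ob B e ω} := by
  have h0 : e ≠ 0 := by rintro rfl; exact h TT.zero
  have := Fintype.ofFinite (KF σ)
  have hq := two_le_q0 (σ := σ)
  have c1 := card_GG (B := B) e ω
  obtain ⟨⟨a, ha⟩, a0⟩ := AddSubgroup.ne_bot_iff_exists_ne_zero.1 fun h' : GG B e ω = ⊥ => by
    rw [h', AddSubgroup.card_bot, one_mul] at c1
    exact h ⟨he, fun c => mem_ZZ.1 ((AddSubgroup.eq_top_of_card_eq _ c1).ge trivial)⟩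
  have a0 : a ≠ 0 := fun h => a0 (Subtype.ext h)
  have h1 := fun v => step1 hX he h0 ha a0 (v := v)
  have h2 : Nat.card (SS B e ω) = Q := by
    rw [← card_line (F := F) h0]
    refine Nat.card_congr (Equiv.subtypeEquivRight fun v => ⟨h1 v, fun hv => ?_⟩)
    obtain ⟨t, rfl⟩ := Submodule.mem_span_singleton.1 hv
    exact self_mem_SS he ω t
  have h3 := mem_MM.2 ⟨ω, rfl, ha, h2, zero_mem _⟩
  have h4 : ∀ a' ≠ 0, 0 < (MM B X e a' Q 0).card := fun a' h' =>
    (Finset.card_pos.2 ⟨_, h3⟩).trans_eq (kk_eq he h0 a0 h' _).symm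
  have c2 := (countA (X := X) he h0 Q).trans_lt (Nat.mul_lt_mul_of_pos_right hX Nat.card_pos)
  rw [mul_assoc, ← pow_succ, show n - 2 + 1 = n - 1 by have := five B; omega] at c2
  have c3 := Nat.lt_of_mul_lt_mul_right c2
  classical
  rw [← Finset.add_sum_erase _ _ (Finset.mem_univ 0)] at c3
  have c4 := Finset.card_nsmul_le_sum (Finset.univ.erase 0) _ 1 fun a' h' => h4 a' (Finset.ne_of_mem_erase h')
  rw [Finset.card_erase_of_mem (Finset.mem_univ _), Finset.card_univ, ← Nat.card_eq_fintype_card,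
    card_KF, smul_eq_mul] at c4
  have c5 := Finset.eq_singleton_iff_unique_mem.2 ⟨MM_sub0 _ _ _ h3, fun O hO =>
    Finset.card_le_one.1 (by omega) _ hO _ (MM_sub0 _ _ _ h3)⟩
  refine ⟨?_, h1, c5⟩
  rw [show GG B e ω = ⊤ from eq_top_iff.2 fun a' _ => ?_, AddSubgroup.card_top, card_KF] at c1
  · exact AddSubgroup.card_eq_one.1 (by simpa [show q ≠ 0 by omega] using c1)
  · by_cases h' : a' = 0
    · exact h' ▸ zero_mem _
    · obtain ⟨O, hO⟩ := Finset.card_pos.1 (h4 a' h')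
      rw [Finset.mem_singleton.1 (c5.le (MM_sub0 _ _ _ hO))] at hO
      exact ((ob_mem_MM he).1 hO).1

theorem triv (he : B e e = 0) (h : ¬ TT B ω e) {k k' : SUG B} (hk : k • ω = ω) (hk' : k' • ω = ω)
    {t : F} (h1 : k • e = t • e) (h1' : k' • e = t • e) (h2 : ∀ v, B e v = 0 → k • v - k' • v ∈ F ∙ e) :
    k = k' := by
  have h0 : e ≠ 0 := by rintro rfl; exact h TT.zero
  have ht : t ≠ 0 := by rintro rfl; exact g_ne k h0 (by simpa using h1)
  obtain ⟨w, h3, h4⟩ := exists_rh he h0 (k := k'⁻¹ * k) (by rw [mul_smul, h1, ← h1', inv_smul_smul])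
    fun v hv => by
      obtain ⟨s, hs⟩ := Submodule.mem_span_singleton.1 (h2 v hv)
      rw [eq_sub_iff_add_eq'] at hs
      rw [mul_smul, ← hs, g_add, inv_smul_smul, add_sub_cancel_left, ← div_mul_cancel₀ s ht, mul_smul,
        g_smul, ← h1', inv_smul_smul]
      exact smem _ _
  obtain ⟨r1, r2, -⟩ := reg hX he h
  have h5 : rh B e w • ω = ω := by rw [h4, mul_smul, hk, inv_smul_eq_iff, hk']
  obtain ⟨s, hs⟩ := Submodule.mem_span_singleton.1 (r2 _ (mem_SS.2 ⟨h3, w, rfl, h5⟩))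
  have h6 : σ w.c = w.c := by have := w.h; rw [← hs] at this; simp [he] at this; linear_combination -this
  have h7 : rh B e w = tt B e ⟨w.c + (s + σ s), by simp [h6, hU.sd.invol, add_comm]⟩ := Subtype.ext (by
    have := rho_add_smul hU.sd (adm_zero he h6) s
    rwa [zero_add, hs] at this)
  have h8 := r1.le (mem_ZZ.2 (h7 ▸ h5))
  rw [h7, AddSubgroup.mem_bot.1 h8, show tt B e 0 = 1 from Subtype.ext (tv_zero hU.sd _)] at h4
  exact (eq_of_inv_mul_eq_one h4.symm).symm

theorem cover (he : B e e = 0) (h : ¬ TT B ω e) {g : SUG B} {t : F} (h1 : g • e = t • e) :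
    ∃ w : Hb B, B e w.u = 0 ∧ (rh B e w * g) • ω = ω := by
  have h' : ¬ TT B (g • ω) e := fun h' => h (by
    have := (h'.smul t).g g⁻¹
    rwa [← h1, inv_smul_smul, inv_smul_smul] at this)
  obtain ⟨w, hw, e1⟩ := (Finset.singleton_injective ((reg hX he h).2.2.symm.trans (reg hX he h').2.2)).le
    ((rm1 B e).self_mem ω)
  exact ⟨w, mem_sperp_singleton.1 hw, by rwa [mul_smul]⟩

theorem line_uniq (he : B e e = 0) (h : ¬ TT B ω e) (hx : TT B ω x) (hex : B e x = 0) (hxe : x ∉ F ∙ e)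
    {φ : F} (h' : TT B ω (x + φ • e)) : φ = 0 := by
  have h0 : e ≠ 0 := by rintro rfl; exact h TT.zero
  have := triv hX he h (h'.2 1) (hx.2 1) (t := 1) (by rw [tt_fix _ (by simp [c0 hex, he]), one_smul])
    (by rw [tt_fix _ (c0 hex), one_smul]) fun v hv => by
      simpa [tt_apply h'.1, tt_apply hx.1, hv, smul_smul] using smem _ e
  obtain ⟨v, h1, h2⟩ := hU.sd.exists_perp_one _ hxe
  simpa [tt_apply h'.1, tt_apply hx.1, h2, h1 e (Submodule.mem_span_singleton_self e), h0] using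
    congrArg (· • v) this

theorem fix_x (he : B e e = 0) (h : ¬ TT B ω e) (hx : TT B ω x) (hex : B e x = 0) (hxe : x ∉ F ∙ e)
    {k : SUG B} (hk : k • ω = ω) {ν φ : F} (h' : k • x = ν • x + φ • e) : φ = 0 := by
  have hν : ν ≠ 0 := by
    rintro rfl
    have := (hx.map hk).notMem h (g_ne k (by rintro rfl; simp at hxe))
    simpa [h'] using this (by simpa [h'] using smem φ e)
  have := (hx.map hk).smul ν⁻¹
  rw [h', smul_add, inv_smul_smul₀ hν, smul_smul] at this
  simpa [hν] using line_uniq hX he h hx hex hxe this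

theorem line_meet (he : B e e = 0) (h : ¬ TT B ω e) (hx : B x x = 0) (hex : B e x = 0) :
    ∃ φ : F, TT B ω (x + φ • e) := by
  by_cases hxe : x ∈ F ∙ e
  · obtain ⟨t, rfl⟩ := Submodule.mem_span_singleton.1 hxe
    exact ⟨-t, by simpa using TT.zero⟩
  obtain ⟨w, h1, h2⟩ := cover hX he h (g := tt B x 1) (t := 1) (by rw [tt_fix _ (c0 hex), one_smul])
  obtain ⟨ν, hν⟩ := exists_N1 B
  have e1 : (ν : Fˣ) * σ (ν : Fˣ) = 1 := (mul_comm _ _).trans ν.2
  have hk : ∀ v, B e v = 0 → (rh B e w * tt B x 1) • v = v + B x v • x + (B w.u v + B x v * B w.u x) • e :=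
    fun v hv => by simp [mul_smul, tt_apply hx, rh_perp he h1, hv, hex]
  have h3 : w.u ∈ Submodule.span F {e, x} := by
    obtain ⟨r, hr, r1, r2⟩ := exists_r (B := B) hU.ne (five B) e x
    rw [← hU.sd.sperp_sperp (Submodule.span F {e, x})]
    refine fun v hv => c0 (ns_ind (mem_sperp_pair.2 ⟨r1, r2⟩) hr _ (fun r hr hrr => ?_) hv)
    obtain ⟨r1, r2⟩ := mem_sperp_pair.1 hr
    obtain ⟨g, g1, g2, g3⟩ := exists_tq ν hx hxe he hex hrr r2 r1
    obtain ⟨w', h4, h5⟩ := cover hX he h (t := 1) (g2.trans (one_smul _ _).symm)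
    have h6 : ∀ v, B e v = 0 → B e (g • v) = 0 := fun v hv => by rwa [← g2, Bg]
    have h7 : ∀ v, B e v = 0 → (rh B e w' * g) • v = g • v + B w'.u (g • v) • e := fun v hv => by
      rw [mul_smul, rh_perp he h4 (h6 v hv)]
    have h8 : ∀ v, B x (g • v) = σ (ν : Fˣ)⁻¹ * B x v := fun v => by
      rw [← Bg g x v, g1]; simp
    have h9 : (rh B e w * tt B x 1) • e = e := by simp [hk e he, c0 hex, c0 h1]
    have h10 : (rh B e w' * g) • e = e := by rw [mul_smul, g2, rh_self]
    have := triv hX he h (k := rh B e w' * g * (rh B e w * tt B x 1)) (k' := rh B e w * tt B x 1 * (rh B e w' * g))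
      (by rw [mul_smul, h2, h5]) (by rw [mul_smul, h5, h2]) (t := 1) (by rw [mul_smul, h9, h10, one_smul])
      (by rw [mul_smul, h10, h9, one_smul]) fun v hv => by
        rw [mul_smul, mul_smul _ (rh B e w' * g), hk v hv, h7 v hv, g_add, g_add, g_add, g_smul, g_smul,
          g_smul, h10, h9, h7 v hv, h7 x hex, hk _ (h6 v hv), g1, h8]
        refine Submodule.mem_span_singleton.2 ⟨B x v * B w'.u ((ν : Fˣ) • x) + B w.u v + B x v * B w.u x -
          (B w.u (g • v) + σ (ν : Fˣ)⁻¹ * B x v * B w.u x), ?_⟩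
        rw [show σ ((ν : Fˣ) : F)⁻¹ = (ν : Fˣ) by rw [map_inv₀, ← eq_inv_of_mul_eq_one_left e1]]
        generalize g • v = z
        module
    have := congrArg (· • r) this
    simp only [mul_smul _ (rh B e w' * g), mul_smul (rh B e w' * g), hk r r1, h7 r r1, g_add, g_smul, h9,
      h10, g3, r2, zero_smul, add_zero, zero_mul, smul_add, smul_smul] at this
    have h0 : e ≠ 0 := by rintro rfl; exact h TT.zero
    have e2 : (B w.u r * (1 - (((ν : Fˣ) : F) ^ 2)⁻¹)) • e = 0 := by linear_combination (norm := module) this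
    simpa [h0, sub_eq_zero, hν, eq_comm (a := (1 : F))] using e2
  obtain ⟨α, β, h4⟩ := Submodule.mem_span_pair.1 h3
  have h6 : σ w.c = w.c := by
    have := w.h; rw [← h4] at this; simp [he, hx, hex, c0 hex] at this; linear_combination -this
  obtain ⟨ψ, hψ⟩ := hU.sd.ns.resolve_left hU.ne (β * σ β - (α + σ α + w.c)) (by
    simp [hU.sd.invol, h6]; ring)
  refine ⟨σ β + ψ, by_contra fun h' => ?_⟩
  have hk' : ∀ v, (rh B e w * tt B x 1) • v = v + (B x v + β * B e v) • x +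
      (σ β * B x v + (α + σ α + w.c) * B e v) • e := fun v => by
    simp only [mul_smul, tt_apply hx, rh_apply he h1, ← h4]
    simp [hex, hx]; module
  have := triv hX (by simp [he, hx, hex, c0 hex]) h' h2 (one_smul _ _) (t := 1)
    (by simp [hk', he, hx, hex, c0 hex]) (by simp) fun v hv => by
      have e2 : B x v = -(β + σ ψ) * B e v := by
        simp [hU.sd.invol] at hv; linear_combination hv
      refine Submodule.mem_span_singleton.2 ⟨-σ ψ * B e v, ?_⟩
      rw [hk', e2, one_smul]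
      linear_combination (norm := module) (-(B e v)) • congrArg (· • e) hψ
  obtain ⟨v, h7, h8⟩ := hU.sd.exists_perp_one _ hxe
  have := congrArg (· • v) this
  simp only [hk', h8, h7 e (Submodule.mem_span_singleton_self e), one_smul] at this
  exact hxe (Submodule.mem_span_singleton.2 ⟨-σ β, by linear_combination (norm := module) -this⟩)

theorem TT.add {y : V} (hx : TT B ω x) (hy : TT B ω y) (h : B x y = 0) : TT B ω (x + y) := by
  by_contra h'
  by_cases h0 : x = 0
  · exact h' (by simpa [h0])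
  simpa using line_uniq hX (by simp [hx.1, hy.1, h, c0 h]) h' hx (by simp [hx.1, c0 h]) (hx.notMem h' h0)
    (φ := -1) (by simpa using hy.smul (-1))

end Cfsg.Agent.H26.MU
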