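import Mathlib
import Cfsg.Agent.H26.MU4

/-! Small permutation representations of unitary groups: a point stabiliser fixes a point of the
projective space. -/

set_option autoImplicit false
set_option linter.unusedSectionVars false

namespace Cfsg.Agent.H26.MU

open Module H12 MD
open scoped Pointwise

variable {F V : Type*} [Field F] [Finite F] [AddCommGroup V] [Module F V] [FiniteDimensional F V]
  [Finite V] {σ : F →+* F} {B : V →ₛₗ[σ] V →ₗ[F] F}

local notation "Q" => Nat.card F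
local notation "n" => finrank F V
local notation "q" => q0 σ

section
variable [hC : UC B] {X : Type*} [MulAction (SUG B) X] [Finite X] {e x : V} {ω : X}

variable (B) in
def KK (x : V) (ω : X) : Submodule F V where
  carrier := {u | ∀ t : F, t • u ∈ SS B x ω}
  zero_mem' := fun t => by simp
  add_mem' := fun ha hb t => by rw [smul_add]; exact add_mem (ha t) (hb t)
  smul_mem' := fun c u h t => by rw [smul_smul]; exact h _

theorem KK_SS {u : V} (h : u ∈ KK B x ω) : u ∈ SS B x ω := by simpa using h 1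

theorem TT.rhf (hx : TT B ω x) {a : Hb B} (h : a.u ∈ SS B x ω) : rh B x a • ω = ω := by
  obtain ⟨h1, b, h2, h3⟩ := mem_SS.1 h
  have : rh B x a = tt B x ⟨a.c - b.c, by
      have := a.h; have := b.h; simp_all; linear_combination‹b.c - σ b.c = _› - ‹a.c - σ a.c = _›⟩ * rh B x b :=
    Subtype.ext (by
      have := rho_eq_tv_mul_rho hC.sd ⟨hx.1, h1, h2 ▸ b.h⟩ ⟨hx.1, h1, a.h⟩
      rwa [show rho B x a.u b.c = rho B x b.u b.c by rw [h2]] at this)
  rw [this, mul_smul, h3, hx.2]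

end

variable [hU : UU B]

theorem exists_Z (h : 3 ≤ q ∨ n = 5) {e : V} (he : B e e = 0) (h0 : e ≠ 0) : ∃ (z : SUG B) (l ν : F),
    l ≠ ν ∧ ν * σ ν = 1 ∧ z • e = l • e ∧ ∀ v, B e v = 0 → z • v - ν • v ∈ F ∙ e := by
  obtain ⟨f, hf⟩ := hU.sd.exists_SP he h0
  by_cases hq : 3 ≤ q
  · obtain ⟨a, h1, h2, h3⟩ := exists_fix_ne_of_three_le hq
    refine ⟨⟨hf.torus hU.sd (Units.mk0 a h2), ?_⟩, a, 1, h3, by simp, hf.torus_e _ _, fun v hv => ?_⟩
    · rw [SUG, MonoidHom.mem_ker, Units.ext_iff, hf.det_torus]; simp [h1, h2]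
    · obtain ⟨s, w, rfl⟩ := hf.exists_eq_of_perp hU.sd hv
      rw [g_add, g_smul, g_def, g_def, hf.torus_e, hf.torus_w, one_smul, add_sub_add_left_eq_sub, smul_smul,
        ← sub_smul]
      exact smem _ _
  · obtain ⟨ν, hν⟩ := exists_N1 B
    have h1 : (extUG hU.sd (hf.isCompl hU.sd) (scalUG _ ν)).1 e = e :=
      extUG_apply_perp _ _ _ fun w hw => c0 (spp_left ⟨w, hw⟩)
    refine ⟨⟨extUG hU.sd (hf.isCompl hU.sd) (scalUG _ ν), ?_⟩, 1, (ν : Fˣ), fun h => hν (by simp [← h]),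
      (mul_comm _ _).trans ν.2, by rw [g_def, h1, one_smul], fun v hv => ?_⟩
    · have := hf.finrank_spp hU.sd
      have := two_le_q0 (σ := σ)
      rw [SUG, MonoidHom.mem_ker, udet_extUG, udet_scalUG, show finrank F (spp B e f) = Nat.card (N1 σ) by
        rw [card_N1 hU.ne hU.sd.invol]; omega, ← Subgroup.coe_pow, pow_card_eq_one', Subgroup.coe_one]
    · obtain ⟨s, w, rfl⟩ := hf.exists_eq_of_perp hU.sd hv
      rw [g_add, g_smul, g_def, g_def, h1, extUG_apply_mem, scalUG_apply, smul_add, Submodule.coe_smul,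
        add_sub_add_left_eq_sub, smul_smul, ← sub_smul]
      exact smem _ _

variable {X : Type*} [MulAction (SUG B) X] [Finite X] {e x : V} {ω : X} (hX : HX B X)
include hX

theorem TT.mem_KK {a : V} (hx : TT B ω x) (ha : TT B ω a) (h : B x a = 0) : a ∈ KK B x ω := fun t => by
  have h1 := ha.smul t
  have h2 : B x (t • a) = 0 := by simp [h]
  refine mem_SS.2 ⟨h2, ⟨t • a, 1, by simp [ha.1]⟩, rfl, ?_⟩
  rw [show rh B x _ = tt B (x + t • a) 1 * tt B (t • a) (-1) from Subtype.ext (by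
    have := rho_eq_tv_mul hU.sd hx.1 h1.1 h2 (map_one σ)
    rwa [one_smul] at this), mul_smul, h1.2, (TT.add hX hx h1 h2).2]

theorem TT.of_SS {u : V} (hx : TT B ω x) (h0 : x ≠ 0) (h : u ∈ SS B x ω) (hu : B u u = 0) : TT B ω u := by
  by_contra h'
  have h1 := (mem_SS.1 h).1
  have h2 := triv hX hu h' (hx.rhf (a := ⟨u, 0, by simp [hu]⟩) h) (one_smul _ _) (t := 1)
    (by rw [rh_fix h1 hu, one_smul]) (by simp) fun v hv => by
      simpa [rh_apply (a := ⟨u, 0, _⟩) hx.1 h1, hv] using smem _ u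
  obtain ⟨v, h3, h4⟩ := hU.sd.exists_perp_one _ (hx.notMem h' h0)
  have : u = 0 := by
    simpa [rh_apply (a := ⟨u, 0, _⟩) hx.1 h1, h4, h3 u (Submodule.mem_span_singleton_self u)] using
      congrArg (· • v) h2
  exact h' (this ▸ TT.zero)

theorem kxZ (hq : 3 ≤ q ∨ n = 5) (he : B e e = 0) (h : ¬ TT B ω e) (hx : TT B ω x) (hx0 : x ≠ 0)
    (hex : B e x = 0) {a : V} (hea : B e a = 0) (hxa : B x a = 0) : ∃ γ : F, a + γ • e ∈ KK B x ω := by
  have h0 : e ≠ 0 := by rintro rfl; exact h TT.zero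
  have hxe := hx.notMem h hx0
  obtain ⟨z', l, ν, hl, hν, z1', z2'⟩ := exists_Z hq he h0
  obtain ⟨w0, w1, zω⟩ := cover hX he h z1'
  have hl' := sub_ne_zero.2 hl
  have ν0 : ν ≠ 0 := left_ne_zero_of_mul_eq_one hν
  have z1 : (rh B e w0 * z') • e = l • e := by rw [mul_smul, z1', g_smul, rh_self]
  have z2 : ∀ v, B e v = 0 → ∃ s : F, (rh B e w0 * z') • v = ν • v + s • e := fun v hv => by
    obtain ⟨s, hs⟩ := Submodule.mem_span_singleton.1 (z2' v hv)
    rw [eq_sub_iff_add_eq'] at hs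
    exact ⟨ν * B w0.u v + s, by
      rw [mul_smul, ← hs, g_add, g_smul, g_smul, rh_self, rh_perp he w1 hv]; module⟩
  generalize rh B e w0 * z' = z at zω z1 z2
  have Z1 : ∀ (k : SUG B) (t : F), k • ω = ω → k • e = t • e → z * k = k * z := fun k t hk h1 =>
    triv hX he h (by rw [mul_smul, hk, zω]) (by rw [mul_smul, zω, hk]) (t := t * l)
      (by rw [mul_smul, h1, g_smul, z1, smul_smul]) (by rw [mul_smul, z1, g_smul, h1, smul_comm, smul_smul])
      fun v hv => by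
        have ht : t ≠ 0 := by rintro rfl; exact g_ne k h0 (by simpa using h1)
        obtain ⟨s, hs⟩ := z2 v hv
        obtain ⟨s', hs'⟩ := z2 (k • v) (by have := Bg k e v; rw [h1] at this; simpa [ht, hv] using this)
        rw [mul_smul, mul_smul, hs, hs', g_add, g_smul, g_smul, h1, add_sub_add_left_eq_sub, smul_smul,
          ← sub_smul]
        exact smem _ _
  have Z3 : ∀ y, TT B ω y → B e y = 0 → z • y = ν • y := fun y hy h1 => by
    by_cases y0 : y = 0
    · simp [y0]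
    · obtain ⟨s, hs⟩ := z2 y h1
      rw [hs, fix_x hX he h hy h1 (hy.notMem h y0) zω hs, zero_smul, add_zero]
  have Z4 : ∀ A : Hb B, z • A.u = ν • A.u → B x A.u = 0 → B e A.u = 0 →
      ∃ w : Hb B, B e w.u = 0 ∧ (∀ v, B e v = 0 → B w.u v = 0) ∧ (rh B e w * rh B x A) • ω = ω := by
    intro A h1 h2 h3
    have h4 : rh B x A • e = e := rh_fix (c0 hex) (c0 h3)
    obtain ⟨w, h5, h6⟩ := cover hX he h (h4.trans (one_smul F _).symm)
    have h7 : z * rh B x A = rh B x A * z := by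
      rw [← mul_inv_eq_iff_eq_mul, conj_rh, Z3 x hx hex, rh_smul hx.1 (by simp [gH, h1, h2])]
      congr 1
      refine Hb.ext ?_ ?_
      · simp [sH, gH, h1, smul_smul, mul_comm _ ν, hν]
      · simp [sH, gH, hU.sd.invol, mul_comm _ ν, hν]
    have h8 := Z1 _ 1 h6 (by rw [mul_smul, h4, rh_self, one_smul])
    rw [mul_assoc, ← h7, ← mul_assoc, ← mul_assoc, mul_left_inj] at h8
    refine ⟨w, h5, fun v hv => ?_, h6⟩
    obtain ⟨s, hs⟩ := z2 v hv
    have := congrArg (· • v) h8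
    simp only [mul_smul, rh_perp he h5 hv, g_add, g_smul, z1, hs, rh_self] at this
    have e2 : (B w.u v * (l - ν)) • e = 0 := by linear_combination (norm := module) this
    simpa [h0, hl'] using e2
  obtain ⟨s, hs⟩ := z2 a hea
  refine ⟨-s / (l - ν), ?_⟩
  have b1 : z • (a + (-s / (l - ν)) • e) = ν • (a + (-s / (l - ν)) • e) := by
    rw [g_add, g_smul, hs, z1]; match_scalars <;> field_simp <;> ring
  have b2 : B e (a + (-s / (l - ν)) • e) = 0 := by simp [hea, he]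
  have b3 : B x (a + (-s / (l - ν)) • e) = 0 := by simp [hxa, c0 hex]
  generalize a + (-s / (l - ν)) • e = b at b1 b2 b3
  by_cases hb : B b b = 0
  · obtain ⟨φ, hφ⟩ := line_meet hX he h hb b2
    have := Z3 _ hφ (by simp [b2, he])
    rw [g_add, g_smul, b1, z1] at this
    have e2 : (φ * (l - ν)) • e = 0 := by linear_combination (norm := module) this
    rw [show φ = 0 by simpa [h0, hl'] using e2, zero_smul, add_zero] at hφ
    exact hx.mem_KK hX hφ b3
  obtain ⟨μ, hμ⟩ := exists_N1 B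
  have hμ' : (((μ : Fˣ) : F) ^ 2)⁻¹ - 1 ≠ 0 := by simpa [sub_eq_zero] using hμ
  suffices H : ∀ r, z • r = ν • r → B e r = 0 → B x r = 0 → B r r ≠ 0 →
      ((((μ : Fˣ) : F) ^ 2)⁻¹ - 1) • r ∈ SS B x ω by
    intro t
    by_cases ht : t = 0
    · simp [ht]
    · have := H ((t / ((((μ : Fˣ) : F) ^ 2)⁻¹ - 1)) • b)
        (by rw [g_smul, b1, smul_comm]) (by simp [b2]) (by simp [b3]) (by
          have := div_ne_zero ht hμ'
          generalize t / _ = t' at this; simp [hb, this])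
      rwa [smul_smul, mul_div_cancel₀ _ hμ'] at this
  intro r r0 r1 r2 r3
  obtain ⟨g, g1, g2, g3⟩ := exists_tq μ he (fun h' => h (hx.of_mem h')) hx.1 (c0 hex) r3 r1 r2
  obtain ⟨w', h4, h5⟩ := cover hX he h g1
  have k1 : (rh B e w' * g) • e = ((μ : Fˣ) : F) • e := by rw [mul_smul, g1, g_smul, rh_self]
  have k2 : (rh B e w' * g) • x = x := by
    have := (mul_smul _ g x).trans (by rw [g2, rh_perp he h4 hex, one_smul] :
      rh B e w' • g • x = (1 : F) • x + B w'.u x • e)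
    rw [this, fix_x hX he h hx hex hxe h5 this]; simp
  have k3 : (rh B e w' * g) • r = (((μ : Fˣ) : F) ^ 2)⁻¹ • r := by
    have e1 := (mul_smul _ g r).trans (by rw [g3, g_smul, rh_perp he h4 r1] : rh B e w' • g • r = _)
    have := congrArg (· • r) (Z1 _ _ h5 k1)
    simp only [mul_smul z, mul_smul _ z, r0, g_smul, e1, g_add, z1] at this
    have e2 : ((((μ : Fˣ) : F) ^ 2)⁻¹ * B w'.u r * (l - ν)) • e = 0 := by
      linear_combination (norm := module) this
    rw [e1, show B w'.u r = 0 by simpa [h0, hl'] using e2]; simp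
  generalize rh B e w' * g = k at h5 k1 k2 k3
  obtain ⟨c, hc⟩ := hU.sd.trace r
  obtain ⟨w, h6, h7, h8⟩ := Z4 ⟨r, c, hc⟩ r0 r2 r1
  have h9 : k * rh B e w * k⁻¹ = rh B e w := by
    obtain ⟨s, hs⟩ := Submodule.mem_span_singleton.1 (hU.sd.mem_span_of_perp h7)
    have e1 : σ (μ : Fˣ) * (μ : Fˣ) = 1 := μ.2
    rw [conj_rh, k1, rh_smul he (by simp [gH, ← hs, g_smul, k1, he])]
    congr 1
    refine Hb.ext ?_ ?_
    · simp [sH, gH, ← hs, g_smul, k1, smul_smul, mul_left_comm _ s, e1]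
    · simp [sH, gH, hU.sd.invol, e1]
  have h10 : (rh B e w * rh B x (gH k ⟨r, c, hc⟩)) • ω = ω := by
    rw [← h9, ← k2, ← conj_rh, conj_mul, mul_smul, mul_smul, inv_smul_eq_iff.2 h5.symm, h8, h5]
  have h11 : B x (k • r) = 0 := by simp [k3, r2]
  refine mem_SS.2 ⟨by simp [r2], ⟨r, c, hc⟩⁻¹ * gH k ⟨r, c, hc⟩, ?_, ?_⟩
  · change -r + k • r = _
    rw [k3]; module
  · rw [rh_mul (by simpa using r2 : B x (-r) = 0) h11, (rm1 B x).inv (mem_sperp_singleton.2 r2), mul_smul,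
      inv_smul_eq_iff, ← smul_left_cancel_iff (rh B e w), ← mul_smul, ← mul_smul, h8, h10]

theorem kx (he : B e e = 0) (h : ¬ TT B ω e) (hx : TT B ω x) (hx0 : x ≠ 0)
    (hex : B e x = 0) {a : V} (hea : B e a = 0) (hxa : B x a = 0) : ∃ γ : F, a + γ • e ∈ KK B x ω := by
  by_cases hn : n = 5
  · exact kxZ hX (Or.inr hn) he h hx hx0 hex hea hxa
  have h0 : e ≠ 0 := by rintro rfl; exact h TT.zero
  obtain ⟨f, h1, h2, h3⟩ := hU.sd.exists_partner (F ∙ x) he (fun h' => h (hx.of_mem h'))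
    (mem_sperp_singleton.2 (c0 hex))
  have hf : SP B e f := ⟨he, h1, h2⟩
  obtain ⟨s, w, rfl⟩ := hf.exists_eq_of_perp hU.sd hea
  obtain ⟨γ, hγ⟩ := (hf.sd hU.sd).perp_iso_induction hU.sd.ns (Or.inr (by
      have := hf.finrank_spp hU.sd; have := five B; omega))
    (u := ⟨x, mem_sperp_pair.2 ⟨hex, c0 (mem_sperp_singleton.1 h3)⟩⟩) (by simpa using hx0)
    (p := fun w => ∃ γ : F, (w : V) + γ • e ∈ KK B x ω) (fun w h4 h5 => (line_meet hX he h h5
      (spp_left w)).imp fun γ hγ => hx.mem_KK hX hγ (by simpa [c0 hex] using h4))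
    (fun a b ⟨γ, h4⟩ ⟨γ', h5⟩ => ⟨γ + γ', by convert add_mem h4 h5 using 1; simp [add_smul]; abel⟩)
    (x := w) (by simpa [c0 hex] using hxa)
  exact ⟨γ - s, by convert hγ using 1; module⟩

theorem exists_Y (he : B e e = 0) (h : ¬ TT B ω e) :
    ∃ y, y ≠ 0 ∧ ∀ v, B v v = 0 → B y v = 0 → TT B ω v := by
  have h0 : e ≠ 0 := by rintro rfl; exact h TT.zero
  obtain ⟨x, hx, hex, hxe⟩ : ∃ x, TT B ω x ∧ B e x = 0 ∧ x ∉ F ∙ e := by
    obtain ⟨x, h1, h2, h3⟩ := exists_x B he h0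
    obtain ⟨φ, h4⟩ := line_meet hX he h h1 h2
    exact ⟨_, h4, by simp [h2, he], fun h => h3 (by simpa using sub_mem h (smem φ e))⟩
  have hx0 : x ≠ 0 := by rintro rfl; simp at hxe
  have hK : ∀ v ∈ KK B x ω, B v v = 0 → TT B ω v := fun v hv => hx.of_SS hX hx0 (KK_SS hv)
  obtain ⟨b, hb, hb'⟩ : ∃ b ∈ KK B x ω, B e b ≠ 0 := by
    by_contra! H
    obtain ⟨r', hr', r1, r2⟩ := exists_r (B := B) hU.ne (five B) e x
    obtain ⟨γ, hr⟩ := kx hX he h hx hx0 hex r1 r2
    have r3 : B (r' + γ • e) (r' + γ • e) ≠ 0 := by simpa [r1, c0 r1, he]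
    have r1 := H _ hr
    have r2 := (mem_SS.1 (KK_SS hr)).1
    generalize r' + γ • e = r at *
    obtain ⟨f, h1, h2, h3⟩ := hU.sd.exists_partner _ he
      (notMem_pair he (fun h' => h (hx.of_mem h')) hx.1 r3 r2) (mem_sperp_pair.2 ⟨c0 hex, c0 r1⟩)
    have h3 := mem_sperp_pair.1 h3
    obtain ⟨s, hs⟩ := hU.sd.exists_iso_add (x := f + r) he (by simp [h2, r1])
    have e1 : B e (f + r + s • e) = 1 := by simp [h2, r1, he]
    have e2 : B x (f + r + s • e) = 0 := by simp [h3.1, r2, c0 hex]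
    have e3 : B r (f + r + s • e) = B r r := by simp [h3.2, c0 r1]
    generalize f + r + s • e = e' at *
    have e4 : B e' e = -1 := by rw [hU.sd.skew, e1, map_one]
    obtain ⟨γ', h4⟩ := kx hX hs (fun h' => by simpa [e1] using H _ (hx.mem_KK hX h' e2)) hx hx0 (c0 e2)
      (a := r + B e' r • e) (by simp [e4]) (by simp [r2, c0 hex])
    rw [show γ' = 0 by simpa [r1, he, e1] using H _ h4, zero_smul, add_zero] at h4
    exact h ((hK _ (by simpa using sub_mem h4 hr) (by simp [he])).of_smul (n0 (e3 ▸ r3)))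
  obtain ⟨y, hy, hxy⟩ : ∃ y, TT B ω y ∧ B x y = 1 := by
    obtain ⟨y, h1, h2, h3⟩ := hU.sd.exists_partner _ hx.1 hxe (mem_sperp_singleton.2 hex)
    obtain ⟨φ, h4⟩ := line_meet hX he h h1 (mem_sperp_singleton.1 h3)
    exact ⟨_, h4, by simp [h2, c0 hex]⟩
  have hU' : ∀ v ∈ KK B x ω ⊔ F ∙ y, B v v = 0 → TT B ω v := fun v hv hvv => by
    obtain ⟨k, hk, _, hs, rfl⟩ := Submodule.mem_sup.1 hv
    obtain ⟨s, rfl⟩ := Submodule.mem_span_singleton.1 hs
    by_cases s0 : s = 0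
    · exact hK _ (by simpa [s0]) hvv
    have k1 := (mem_SS.1 (KK_SS hk)).1
    obtain ⟨u, c, h1, h2⟩ := exists_rho_map hU.sd hx.1 (x := s • y) (y := k + s • y)
      (by rw [hvv]; simp [hy.1]) (by simp [k1]) (by simp [s0, hxy])
    have h3 : rh B x ⟨u, c, h1.cc⟩ • s • y = k + s • y := h2
    refine h3 ▸ (hy.smul s).map (hx.rhf (KK_SS ?_))
    rw [rh_apply hx.1 h1.eu] at h3
    have : u = s⁻¹ • (k - (c * B x (s • y) + B u (s • y)) • x) := by
      rw [eq_inv_smul_iff₀ s0]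
      simp only [map_smul, hxy, smul_eq_mul, mul_one] at h3 ⊢
      linear_combination (norm := module) h3
    rw [show Hb.u _ = _ from this]
    exact Submodule.smul_mem _ _ (sub_mem hk (Submodule.smul_mem _ _ (hx.mem_KK hX hx hx.1)))
  obtain ⟨z, h1, h2⟩ := hU.sd.exists_perp_one _ fun h' => h (hU' e h' he)
  refine ⟨z, by rintro rfl; simp at h2, fun v hv hzv => hU' v ?_ hv⟩
  obtain ⟨γ, h3⟩ := kx hX he h hx hx0 hex (a := v - B x v • y - (B e (v - B x v • y) / B e b) • b)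
    (by rw [map_sub, map_smul, smul_eq_mul, div_mul_cancel₀ _ hb', sub_self])
    (by simp [hxy, (mem_SS.1 (KK_SS hb)).1])
  have h4 : v + γ • e ∈ KK B x ω ⊔ F ∙ y := by
    convert add_mem (Submodule.mem_sup_left (add_mem h3 ((KK B x ω).smul_mem (B e (v - B x v • y) / B e b) hb)))
      (Submodule.mem_sup_right (smem (B x v) y)) using 1
    abel
  rwa [show γ = 0 by simpa [c0 hzv, h2] using h1 _ h4, zero_smul, add_zero] at h4

theorem uniq_Y (he : B e e = 0) (h : ¬ TT B ω e) {y y' : V} (h0 : y ≠ 0)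
    (hy : ∀ v, B v v = 0 → B y v = 0 → TT B ω v) (hy' : ∀ v, B v v = 0 → B y' v = 0 → TT B ω v) :
    y' ∈ F ∙ y := by
  by_contra H
  have key : ∀ v, B v v = 0 → v ∉ Submodule.span F {y, y'} → TT B ω v := fun v hv hv' => by
    by_contra h'
    have v0 : v ≠ 0 := by rintro rfl; exact h' TT.zero
    have h1 : B y v ≠ 0 := fun h => h' (hy v hv h)
    have h2 : B y' v ≠ 0 := fun h => h' (hy' v hv h)
    obtain ⟨s, hs⟩ := Submodule.mem_span_singleton.1 (hU.sd.mem_span_of_perp (u := v)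
      (w := σ (B y v)⁻¹ • y - σ (B y' v)⁻¹ • y') fun a ha => hU.sd.perp_iso_induction hU.sd.ns
        (Or.inr hU.four) v0 (p := fun a => B (σ (B y v)⁻¹ • y - σ (B y' v)⁻¹ • y') a = 0) (fun a ha haa => by
          by_cases hav : a ∈ F ∙ v
          · obtain ⟨t, rfl⟩ := Submodule.mem_span_singleton.1 hav
            simp [hU.sd.invol, h1, h2]
          · have := line_uniq hX hv h' (hy (a - (B y a / B y v) • v) (by simp [ha, c0 ha, haa, hv])
              (by simp [h1])) (by simp [ha, hv]) (fun h => hav (by simpa using add_mem h (smem (B y a / B y v) v)))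
              (φ := B y a / B y v - B y' a / B y' v) (by
                convert hy' (a - (B y' a / B y' v) • v) (by simp [ha, c0 ha, haa, hv]) (by simp [h2]) using 1
                module)
            simp [hU.sd.invol]; linear_combination this) (fun a b h1 h2 => by rw [map_add, h1, h2, add_zero]) ha)
    by_cases s0 : s = 0
    · refine H (Submodule.mem_span_singleton.2 ⟨σ (B y' v) * σ (B y v)⁻¹, ?_⟩)
      rw [s0, zero_smul, eq_comm, sub_eq_zero] at hs
      rw [mul_smul, hs, smul_smul, ← map_mul, mul_inv_cancel₀ h2, map_one, one_smul]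
    · refine hv' (Submodule.mem_span_pair.2 ⟨s⁻¹ * σ (B y v)⁻¹, -(s⁻¹ * σ (B y' v)⁻¹), ?_⟩)
      rw [neg_smul, mul_smul, mul_smul, ← sub_eq_add_neg, ← smul_sub, ← hs, inv_smul_smul₀ s0]
  have := hU.sd.SUG_le_of_IS' (M := (MulAction.stabilizer (SUG B) ω).map (SUG B).subtype) hU.sd.ns
    (Or.inr (Or.inr (by have := five B; omega))) (by have := five B; omega) (W := Submodule.span F {y, y'})
    (fun h => by
      have := finrank_spp (B := B) h0 H
      rw [spp, h, Submodule.finrank_eq_zero.2 (eq_bot_iff.2 fun v (hv : v ∈ sperp B ⊤) =>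
        hU.sd.sep v fun w => c0 (hv w trivial))] at this
      have := five B; omega)
    fun v hv hv' => IS.of_fix hv fun c hc => ⟨tt B v ⟨c, hc⟩, (key v hv hv').2 _, rfl⟩
  refine h ⟨he, fun c => ?_⟩
  obtain ⟨g, hg, e1⟩ := this (tt B e c).2
  exact (Subtype.ext e1 : g = _) ▸ hg

theorem main (ω : X) (hω : ¬ ∀ g : SUG B, g • ω = ω) :
    ∃ y : V, y ≠ 0 ∧ ∀ g : SUG B, g • ω = ω → g • y ∈ F ∙ y := by
  obtain ⟨e, he, h⟩ : ∃ e, B e e = 0 ∧ ¬ TT B ω e := by
    by_contra! H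
    have := hU.sd.SUG_le_of_IS (M := (MulAction.stabilizer (SUG B) ω).map (SUG B).subtype) hU.sd.ns
      (Or.inr (Or.inr (by have := five B; omega)))
      fun v hv => IS.of_fix hv fun c hc => ⟨tt B v ⟨c, hc⟩, (H v hv).2 _, rfl⟩
    refine hω fun g => ?_
    obtain ⟨g', hg, e1⟩ := this g.2
    exact (Subtype.ext e1 : g' = _) ▸ hg
  obtain ⟨y, h0, hy⟩ := exists_Y hX he h
  refine ⟨y, h0, fun g hg => uniq_Y hX he h h0 hy fun v hv h1 => ?_⟩
  simpa using (hy (g⁻¹ • v) (by simpa) (by rwa [← Bg_left])).map hg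

end Cfsg.Agent.H26.MU
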