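import Mathlib
import Cfsg.Agent.H26.MU5
import Cfsg.Agent.H26.MO9
import Cfsg.Agent.H12.SBridge

/-! The minimal index of a proper subgroup of a unitary group. -/

set_option autoImplicit false
set_option linter.unusedSectionVars false

namespace Cfsg.Agent.H26.MU

open Module H12 MD
open scoped Pointwise

variable {F V : Type*} [Field F] [Finite F] [AddCommGroup V] [Module F V] [FiniteDimensional F V]
  [Finite V] {σ : F →+* F} {B : V →ₛₗ[σ] V →ₗ[F] F}

local notation "Q" => Nat.card F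
local notation "n" => finrank F V
local notation "q" => q0 σ

instance : Finite (SUG B) := Finite.of_injective (fun g : SUG B => (g.1.1 : V → V))
  fun _ _ h => Subtype.ext (UG_ext (congrFun h))

section
variable [hC : UC B]

variable (B) in
def Ls (y : V) : Subgroup (SUG B) where
  carrier := {g | ∃ t : Fˣ, g • y = (t : F) • y}
  one_mem' := ⟨1, by simp⟩
  mul_mem' := by
    rintro a b ⟨s, hs⟩ ⟨t, ht⟩
    exact ⟨t * s, by rw [mul_smul, ht, g_smul, hs, smul_smul, Units.val_mul]⟩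
  inv_mem' := by
    rintro a ⟨s, hs⟩
    exact ⟨s⁻¹, by rw [inv_smul_eq_iff, g_smul, hs, smul_smul]; simp⟩

theorem mem_Ls {y : V} (hy : y ≠ 0) {g : SUG B} (h : g • y ∈ F ∙ y) : g ∈ Ls B y := by
  obtain ⟨t, ht⟩ := Submodule.mem_span_singleton.1 h
  exact ⟨Units.mk0 t (by rintro rfl; exact g_ne g hy (by simpa using ht.symm)), ht.symm⟩

theorem index_Ls {y : V} (hy : y ≠ 0) :
    (Ls B y).index * (Q - 1) = Nat.card {x // x ≠ 0 ∧ (B x x = 0 ↔ B y y = 0)} := by
  rw [← Nat.card_units, Subgroup.index, ← Nat.card_prod]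
  refine Nat.card_congr (Equiv.ofBijective (fun p => ⟨(p.2 : F) • p.1.out • y,
    smul_ne_zero p.2.ne_zero (g_ne _ hy), by simp⟩) ⟨?_, ?_⟩)
  · rintro ⟨a, s⟩ ⟨b, t⟩ h
    simp only [Subtype.mk.injEq] at h
    obtain rfl : a = b := by
      rw [← a.out_eq, ← b.out_eq]
      exact QuotientGroup.eq.2 ⟨t⁻¹ * s, by
        rw [mul_smul, inv_smul_eq_iff, g_smul, Units.val_mul, mul_smul, h, smul_smul]; simp⟩
    rw [Units.ext (smul_left_injective F (g_ne _ hy) h)]
  · rintro ⟨x, hx, h⟩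
    obtain ⟨t, ht, h1⟩ : ∃ t : F, t ≠ 0 ∧ B (t • x) (t • x) = B y y := by
      by_cases h0 : B y y = 0
      · exact ⟨1, one_ne_zero, by rw [one_smul, h.2 h0, h0]⟩
      rcases hC.sd.ns with h' | h'
      · exact (h0 (hC.sd.self_eq_zero h' y)).elim
      obtain ⟨t, ht⟩ := h' (B y y / B x x) (by rw [map_div₀, hC.sd.σ_map, hC.sd.σ_map, neg_div_neg_eq])
      have h2 := mt h.1 h0
      rw [eq_div_iff h2] at ht
      refine ⟨t, ?_, by simp; linear_combination ht⟩
      rintro rfl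
      exact h0 (by simpa using ht.symm)
    obtain ⟨g, hg⟩ := trans1 hy (smul_ne_zero ht hx) h1
    obtain ⟨⟨l, s, hs⟩, hl⟩ := QuotientGroup.mk_out_eq_mul (Ls B y) g
    refine ⟨(g, (s * Units.mk0 t ht)⁻¹), Subtype.ext ?_⟩
    change _ • (g : SUG B ⧸ Ls B y).out • y = x
    rw [hl, mul_smul, hs, g_smul, hg, smul_smul, smul_smul]
    simp [ht, mul_assoc]

theorem index_Ls0 {y : V} (hy : y ≠ 0) (h : B y y = 0) : (Ls B y).index * (Q - 1) = niso B - 1 := by
  rw [index_Ls hy, ← card_iso_ne_zero]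
  exact Nat.card_congr (Equiv.subtypeEquivRight fun x => by simp [h, and_comm])

theorem index_Ls1 {y : V} (h : B y y ≠ 0) : (Ls B y).index * (Q - 1) = Q ^ n - niso B := by
  classical
  have := Fintype.ofFinite V
  rw [index_Ls (by rintro rfl; simp at h), ← Module.natCard_eq_pow_finrank, niso,
    Nat.card_eq_fintype_card (α := V), Nat.card_eq_fintype_card (α := {x // B x x = 0}),
    ← Fintype.card_subtype_compl, ← Nat.card_eq_fintype_card]
  exact Nat.card_congr (Equiv.subtypeEquivRight fun x => by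
    simp only [h, iff_false, and_iff_right_iff_imp]; rintro h rfl; simp at h)

end

variable [hU : UU B]

theorem minIdx {y : V} (hy : y ≠ 0) (h1 : (Ls B y).index * (Q - 1) ≤ (q + 1) * Q ^ (n - 2) * (Q - 1))
    (h2 : (Ls B y).index * (Q - 1) ≤ niso B - 1) (h3 : (Ls B y).index * (Q - 1) ≤ Q ^ n - niso B) :
    MinIdx (SUG B ⧸ Subgroup.center (SUG B)) (Ls B y).index := by
  have hq : 0 < Q - 1 := by have : 2 ≤ Q := Finite.one_lt_card; omega
  refine MinIdx.of_surj (QuotientGroup.mk' _) (QuotientGroup.mk'_surjective _) (fun H hH => ?_)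
    (fun g hg => mem_Ls hy ?_) rfl
  · by_contra! hN
    obtain ⟨z, hz, hz'⟩ := main (B := B) (X := SUG B ⧸ H) (hN.trans_le (Nat.le_of_mul_le_mul_right h1 hq))
      ((1 : SUG B) : SUG B ⧸ H) fun h => hH (by
        rw [← MulAction.stabilizer_quotient H, eq_top_iff]; exact fun g _ => h g)
    have e := Nat.le_of_dvd (Nat.pos_of_ne_zero H.index_ne_zero_of_finite) (Subgroup.index_dvd_of_le
      (show H ≤ Ls B z from fun g hg => mem_Ls hz (hz' g (by rwa [← MulAction.stabilizer_quotient H] at hg))))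
    by_cases h0 : B z z = 0
    · rw [← index_Ls0 hz h0] at h2
      have := Nat.le_of_mul_le_mul_right h2 hq; omega
    · rw [← index_Ls1 h0] at h3
      have := Nat.le_of_mul_le_mul_right h3 hq; omega
  · rw [QuotientGroup.ker_mk'] at hg
    obtain ⟨a, h⟩ := (hU.sd.mem_center_SUG_iff hU.sd.ns (by have := five B; omega)).1 hg
    rw [g_def, h]; exact smem _ _

variable (B) in
theorem minIdx0 (h1 : guIso q n ≤ (q + 1) * (q ^ 2) ^ (n - 2) * (q ^ 2 - 1))
    (h2 : 2 * guIso q n + 1 ≤ (q ^ 2) ^ n) :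
    MinIdx (SUG B ⧸ Subgroup.center (SUG B)) (guIso q n / (q ^ 2 - 1)) := by
  obtain ⟨y, hy0, hy⟩ := hU.sd.exists_iso hU.sd.ns (by have := five B; omega)
  have h := index_Ls0 hy0 hy
  have hq : 0 < Q - 1 := by have : 2 ≤ Q := Finite.one_lt_card; omega
  have h' := hU.sd.niso_unitary hU.ne
  rw [← QQ B] at *
  rw [show guIso q n = _ from (by omega : _ = niso B - 1), ← h, Nat.mul_div_cancel _ hq]
  exact minIdx hy0 (by omega) h.le (by omega)

variable (B) in
theorem minIdx1 (h1 : (q ^ 2) ^ n - (guIso q n + 1) ≤ (q + 1) * (q ^ 2) ^ (n - 2) * (q ^ 2 - 1))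
    (h2 : (q ^ 2) ^ n ≤ 2 * guIso q n + 1) :
    MinIdx (SUG B ⧸ Subgroup.center (SUG B)) (((q ^ 2) ^ n - (guIso q n + 1)) / (q ^ 2 - 1)) := by
  obtain ⟨y, hy, -⟩ := exists_r (B := B) hU.ne (five B) 0 0
  have h := index_Ls1 hy
  have hq : 0 < Q - 1 := by have : 2 ≤ Q := Finite.one_lt_card; omega
  have h' := hU.sd.niso_unitary hU.ne
  rw [← QQ B] at *
  rw [← h', ← h, Nat.mul_div_cancel _ hq]
  exact minIdx (by rintro rfl; simp at hy) (by omega) (by omega) h.le

theorem uu_uB {F : Type*} [Field F] [Fintype F] {k : ℕ} (hF : Fintype.card F = k ^ 2) {m : ℕ} (hm : 5 ≤ m) :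
    UU (uB hF m) :=
  { sd := sd_uB hF m
    tr := (H13.exists_add_conj_eq (frobq_ne_id hF) (frobq_frobq hF) (c := 1) (map_one _)).imp
      fun _ h => by rw [h]; exact one_ne_zero
    wt := Or.inr (by simpa)
    four := by simp; omega
    ne := frobq_ne_id hF }

end Cfsg.Agent.H26.MU
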