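import Mathlib
import Cfsg.Agent.H26.MW1

/-! The possible annihilators in the six-dimensional space of minus type. -/

set_option autoImplicit false
set_option linter.unusedSectionVars false

namespace Cfsg.Agent.H26.MD

open Module QuadraticMap H13
open scoped Pointwise

variable {F V : Type*} [Field F] [Finite F] [AddCommGroup V] [Module F V] [FiniteDimensional F V]
  [Finite V] {Q : QuadraticForm F V} [hC : OC Q] [h6 : M6 Q]

local notation "B" => polar Q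
local notation "q" => Nat.card F
local notation "n" => finrank F V

namespace W

theorem exists_ns3 (a b c : V) : ∃ w, B a w = 0 ∧ B b w = 0 ∧ B c w = 0 ∧ Q w ≠ 0 := by
  by_contra! h
  have e1 := hC.nd.finrank_perp (Submodule.span F {a, b} ⊔ F ∙ c)
  have e2 := Submodule.finrank_add_le_finrank_add_finrank (Submodule.span F {a, b}) (F ∙ c)
  have e3 := finrank_span_pair_le (F := F) a b
  have e4 : finrank F (F ∙ c) ≤ 1 := (finrank_span_le_card _).trans (by simp)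
  have e5 := h6.six
  have := h6.ts (perp Q (Submodule.span F {a, b} ⊔ F ∙ c)) fun w hw =>
    h w (D3p w hw) (D3x w hw) (D3u w hw)
  omega

theorem notMem_ns {p y : V} (hp : Q p = 0) (hy : Q y ≠ 0) : y ∉ F ∙ p := fun h => by
  obtain ⟨c, rfl⟩ := Submodule.mem_span_singleton.1 h
  simp [Q_smul, hp] at hy

theorem two_of_two (h : q = 2) : (2 : F) = 0 := by_contra fun h2 => by have := odd_q h2; omega

theorem smul_two (h : q = 2) {A : AddSubgroup V} {a : V} (ha : a ∈ A) (c : F) : c • a ∈ A := by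
  by_cases hc : c = 0
  · simp [hc]
  · simpa [eq_of_two h hc] using ha

theorem hp2 (h : q = 2) {p y v : V} (hp : Q p = 0) (hp0 : p ≠ 0) (hpy : B p y = 0) (hpv : B p v = 0)
    (hy : Q y ≠ 0) (hv : Q v ≠ 0) (hB : B y v ≠ 0) : ∃ e f, HP Q e f ∧ (B p e = 0 ∧ B y e = 0 ∧ B e v = 0) ∧
      (B p f = 0 ∧ B y f = 0 ∧ B f v = 0) := by
  have h2 := two_of_two h
  have hyy : B y y = 0 := by rw [polar_self', h2, zero_mul]
  replace hy := eq_of_two h hy
  replace hv := eq_of_two h hv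
  replace hB := eq_of_two h hB
  have key : ∀ e f, HP Q e f → B p e = 0 → B y e = 0 → B p f = 0 → B y f = 0 → B e v = 0 →
      ∃ e f, HP Q e f ∧ (B p e = 0 ∧ B y e = 0 ∧ B e v = 0) ∧ (B p f = 0 ∧ B y f = 0 ∧ B f v = 0) := by
    intro e f hh a1 a2 a3 a4 a5
    by_cases a6 : B f v = 0
    · exact ⟨e, f, hh, ⟨a1, a2, a5⟩, a3, a4, a6⟩
    refine ⟨e, y + e + f, ⟨hh.Qu, ?_, by simp [polar_comm Q e y, a2, hh.uu, hh.uv]⟩, ⟨a1, a2, a5⟩,
      by simp [hpy, a1, a3], by simp [hyy, a2, a4], ?_⟩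
    · simp only [Q_add, hy, hh.Qu, hh.Qv, a2, polar_add_left, a4, hh.uv]; linear_combination h2
    · simp only [polar_add_left, hB, a5, eq_of_two h a6]; linear_combination h2
  obtain ⟨e, f, hh, a1, a2, a3, a4⟩ := exists_hp_perp (NL_ns hp hpy (hy.trans_ne one_ne_zero))
  by_cases a5 : B e v = 0
  · exact key e f hh a1 a2 a3 a4 a5
  by_cases a6 : B f v = 0
  · exact key f e hh.symm a3 a4 a1 a2 a6
  replace a5 := eq_of_two h a5
  replace a6 := eq_of_two h a6
  exfalso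
  obtain ⟨s, t, e1⟩ := Submodule.mem_span_pair.1 (mem_line (Q := Q) (z := v + e + f) hp0
    (notMem_of_B a3 (by simp [hh.vu])) hp hh.Qu (by
      simp only [Q_add, hv, hh.Qu, hh.Qv, polar_add_left, hh.uv, polar_comm Q v e, polar_comm Q v f, a5, a6]
      linear_combination 2 * h2) a1 (by simp [hpv, a1, a3])
      (by simp only [polar_add_right, a5, hh.uu, hh.uv]; linear_combination h2))
  simpa [polar_comm Q y p, hpy, a2, a4, hB] using congrArg (B y) e1

variable {X : Type*} [MulAction (Om Q) X] [Finite X]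

variable (Q) in
def HY (p y : V) (ω : X) : Prop := ∀ u, Q u = 0 → B p u = 0 → B y u = 0 → ∀ w ∈ DD3 Q p y u,
  ∀ a ∈ AA Q p ω, rho Q u w • a ∈ AA Q p ω

theorem not_HY {p y : V} {ω : X} (hy : y ∈ AA Q p ω) (h : ¬ HY Q p y ω) :
    ∃ i k, 2 ≤ i ∧ i ∣ q ^ k ∧ i ≤ (MM Q X p y).card := by
  by_contra! h1
  refine h fun u hu hpu hyu w hw a ha => AA_inv (rho_p hpu D3p hw) ?_ ha
  have h2 : (JJ Q (DD3 Q p y u) u p ω).ncard ≤ 1 := by
    by_contra! h2
    exact (h1 _ _ h2 (Dvd.intro _ ((card_JJ D3u ω p).trans (card_sub _)))).not_ge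
      (JJ_le hpu D3p ω hy (by rwa [polar_comm]) D3x)
  exact (Set.ncard_le_one (Set.toFinite _)).1 h2 _ ⟨w, hw, rfl⟩ _ ((rr_le u D3u).self_mem _)

section
variable {p y : V} {ω : X} (hH : HY Q p y ω)
include hH

theorem full_odd (h2 : (2 : F) ≠ 0) {u v : V} (hv : v ∈ AA Q p ω) (hu : Q u = 0) (hpu : B p u = 0)
    (hyu : B y u = 0) (huv : B u v ≠ 0) (c : F) : c • u ∈ AA Q p ω := by
  obtain ⟨w, w1, w2, w3, w4⟩ := exists_ns3 (Q := Q) p y u
  have := BB_mem (T := DD3 Q p y u) hu D3u (hH u hu hpu hyu) hv (w := w)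
    (w' := (c / (B u v * (2 * Q w))) • w) (mem_DD3.2 ⟨⟨w1, w2⟩, w3⟩) (mem_DD3.2 (by simp [w1, w2, w3]))
  convert this using 2
  simp only [polar_smul_left, polar_self', smul_eq_mul]
  field_simp

theorem dl_y (h2 : (2 : F) = 0) (hpy : B p y = 0) {u v : V} (hv : v ∈ AA Q p ω) (hu : Q u = 0)
    (hpu : B p u = 0) (hyu : B y u = 0) (t : F) : dl Q u v (t • y) ∈ AA Q p ω :=
  dl_mem (T := DD3 Q p y u) hu D3u (hH u hu hpu hyu) hv (mem_DD3.2 (by
    simp [hpy, polar_comm Q u y, hyu, h2]))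

theorem full_even (h2 : (2 : F) = 0) (hp : Q p = 0) (hy : y ∈ AA Q p ω) (hQ : Q y ≠ 0) {u : V}
    (hu : Q u = 0) (hpu : B p u = 0) (hyu : B y u = 0)
    (hv : ∀ α, ∃ v ∈ AA Q p ω, B y v = 0 ∧ B u v = α) (c : F) : c • u ∈ AA Q p ω := by
  by_cases hc : c = 0
  · simp [hc]
  obtain ⟨v, v1, v2, v3⟩ := hv (Q y / c)
  have := (AA Q p ω).sub_mem ((AA Q p ω).neg_mem
    (dl_y hH h2 (perp_of_AA hp hy) v1 hu hpu hyu (c / Q y))) hy
  convert this using 1
  simp only [dl, polar_smul_left, v2, v3, Q_smul, smul_eq_mul]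
  match_scalars <;> field_simp <;> ring

theorem spread (hp : Q p = 0) (hp0 : p ≠ 0) (hy : y ∈ AA Q p ω) (hQ : Q y ≠ 0) {u0 : V}
    (hu : Q u0 = 0) (hyu : B y u0 = 0) (hup : u0 ∉ F ∙ p) (h0 : ∀ c : F, c • u0 ∈ AA Q p ω)
    {w : V} (h1 : B p w = 0) (h2 : B y w = 0) : w ∈ AA Q p ω := by
  have hpu := perp_of_AA hp (one_smul F u0 ▸ h0 1)
  obtain ⟨e, f, hh, a1, a2, a3, a4⟩ := exists_hp_perp (NL_ns hp (perp_of_AA hp hy) hQ)
  refine singular_induction (H := pp Q p y) (p := fun x => x ∈ AA Q p ω) hh.Qu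
    (mem_perp_pair.2 ⟨a1, a2⟩) (mem_perp_pair.2 ⟨a3, a4⟩) (by simp [hh.uv]) (fun u hu' hQu => ?_)
    (fun x _ y _ hx hy => add_mem hx hy) w (mem_perp_pair.2 ⟨h1, h2⟩)
  obtain ⟨b1, b2⟩ := mem_perp_pair.1 hu'
  by_cases hB : B u0 u = 0
  · obtain ⟨s, t, rfl⟩ := Submodule.mem_span_pair.1 (mem_line hp0 hup hp hu hQu hpu b1 hB)
    exact add_mem (self_mem_AA _ _ _) (h0 t)
  rw [polar_comm] at hB
  rw [← one_smul F u]
  by_cases h2 : (2 : F) = 0
  · exact full_even hH h2 hp hy hQ hQu b1 b2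
      (fun α => ⟨_, h0 (α / B u u0), by simp [hyu], by simp [hB]⟩) 1
  · exact full_odd hH h2 (one_smul F u0 ▸ h0 1) hQu b1 b2 hB 1

end

variable (hX : Nat.card X ≤ Nat.card F ^ 4 + Nat.card F ^ 3 + Nat.card F)
include hX

theorem only {p y : V} {ω : X} (hp : Q p = 0) (hp0 : p ≠ 0) (hy : y ∈ AA Q p ω) (hQ : Q y ≠ 0)
    (h : ¬ HY Q p y ω) : q ≤ 3 ∧ (MM Q X p y).card ≤ q ∧
      ∀ ω' : X, ∀ z ∈ AA Q p ω', z ∉ F ∙ p → Q z = Q y := by
  classical
  have := Fintype.ofFinite F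
  obtain ⟨i, k, i1, i2, i3⟩ := not_HY hy h
  obtain ⟨μ, a, m1, m2, m3, m4⟩ := exists_mu (X := X) hp hp0
  rw [m1 y (perp_of_AA hp hy) (notMem_ns hp hQ)] at i3 ⊢
  have hq := two_le_q (F := F)
  set S := ∑ c ∈ Finset.univ.erase 0, μ c with hS
  have s1 : S ≤ q := by
    by_contra! h1
    have := Nat.mul_le_mul_right (q ^ 3 + q) (show q + 1 ≤ S from h1)
    have e : (q + 1) * (q ^ 3 + q) = q ^ 4 + q ^ 3 + q + q ^ 2 := by ring
    have := pow_pos (Nat.card_pos (α := F)) 2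
    omega
  have hodd : (2 : F) ≠ 0 → 3 ≤ i := fun h2 => by
    have := Nat.odd_iff.1 (Odd.of_dvd_nat (Nat.odd_iff.2 (odd_q h2)).pow i2); omega
  have s2 : μ (Q y) ≤ S := Finset.single_le_sum (f := μ) (fun _ _ => Nat.zero_le _) (by simpa using hQ)
  have h3 : q ≤ 3 := by
    obtain ⟨T, t1, t2, t3⟩ := exists_sq hQ
    have : T.card * i ≤ q := by
      rw [← smul_eq_mul, ← Finset.sum_const]
      refine (Finset.sum_le_sum fun a ha => ?_).trans
        ((Finset.sum_le_sum_of_subset fun a ha => ?_).trans s1)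
      · obtain ⟨t, ht, rfl⟩ := t1 a ha
        rwa [m2 _ _ ht]
      · obtain ⟨t, ht, rfl⟩ := t1 a ha
        simp [ht, hQ]
    by_cases h2 : (2 : F) = 0
    · have := t3 h2
      have : T.card * 2 ≤ q := (Nat.mul_le_mul_left _ i1).trans ‹_›
      omega
    · have : T.card * 3 ≤ q := (Nat.mul_le_mul_left _ (hodd h2)).trans this
      omega
  have h4 : q ≤ i := by
    by_cases h2 : (2 : F) = 0
    · by_contra h5
      exact two_ne_of_odd (F := F) (by rw [show q = 3 by omega]; decide) h2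
    · have := hodd h2; omega
  refine ⟨h3, s2.trans s1, fun ω' z hz hzp => by_contra fun hne => ?_⟩
  have z1 := Finset.card_pos.2 ⟨_, ob_mem_MM.2 hz⟩
  rw [m1 z (perp_of_AA hp hz) hzp] at z1
  by_cases h0 : Q z = 0
  · rw [h0] at z1
    have := m3 (Q y)
    have e1 := Nat.mul_le_mul_right ((q ^ 2 + 1) * (q - 1)) z1
    have e2 := Nat.mul_le_mul_right (q ^ 3 + q) (h4.trans (i3.trans s2))
    obtain h5 | h5 : q = 2 ∨ q = 3 := by omega
    all_goals simp only [h5] at *; omega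
  · have := Finset.sum_le_sum_of_subset (f := μ) (s := {Q z, Q y}) (t := Finset.univ.erase 0)
      (by simp [Finset.insert_subset_iff, h0, hQ])
    rw [Finset.sum_pair hne] at this
    omega

theorem hy_of {p y v : V} {ω : X} (hp : Q p = 0) (hp0 : p ≠ 0) (hy : y ∈ AA Q p ω) (hQ : Q y ≠ 0)
    (hv : v ∈ AA Q p ω) (hvy : v ∉ Submodule.span F {p, y}) : HY Q p y ω := by
  classical
  by_contra h
  obtain ⟨h1, h2, h3⟩ := only hX hp hp0 hy hQ h
  have hq := two_le_q (F := F)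
  have hn : ∀ c : F, v + c • y ∉ F ∙ p := fun c e => hvy (by
    simpa using Submodule.sub_mem _ (Submodule.span_mono (by simp) e)
      (Submodule.smul_mem (Submodule.span F {p, y}) c (Submodule.subset_span (by simp : y ∈ _))))
  have e0 := h3 ω v hv (by simpa using hn 0)
  have e1 := h3 ω _ (add_mem hv hy) (by simpa using hn 1)
  by_cases h4 : (2 : F) = 0
  swap
  · have e2 := h3 ω _ (sub_mem hv hy) (by simpa [sub_eq_add_neg] using hn (-1))
    rw [Q_add] at e1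
    rw [Q_sub] at e2
    exact mul_ne_zero h4 hQ (by linear_combination e1 + e2 - 2 * e0)
  have h5 : q = 2 := by
    by_contra h5
    exact two_ne_of_odd (F := F) (by rw [show q = 3 by omega]; decide) h4
  have hB : B y v = 1 := eq_of_two h5 fun e => hQ (by
    rw [Q_add, polar_comm, e] at e1; linear_combination e1 - e0)
  have hyy : B y y = 0 := by rw [polar_self', h4, zero_mul]
  have hpy := perp_of_AA hp hy
  obtain ⟨e, f, hh, a, b⟩ := hp2 h5 hp hp0 hpy (perp_of_AA hp hv) hQ (e0.trans_ne hQ) (by simp [hB])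
  have key : ∀ e, Q e = 0 → (B p e = 0 ∧ B y e = 0 ∧ B e v = 0) →
      y ∈ AA Q p (rho Q e y • ω) ∧ v + e ∈ AA Q p (rho Q e y • ω) := fun e he a => by
    have k1 : rho Q e y • p = p := rho_fix (by rw [polar_comm, a.1]) (by rw [polar_comm, hpy])
    have k2 := (g_mem_AA (rho Q e y)).2 hy
    have k3 := (g_mem_AA (rho Q e y)).2 hv
    rw [k1, rho_fix (by rw [polar_comm, a.2.1]) hyy] at k2
    rw [k1, rho_perp he (by rw [polar_comm, a.2.1]) a.2.2, hB, one_smul] at k3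
    exact ⟨k2, k3⟩
  have key2 : ∀ e f, HP Q e f → (B p e = 0 ∧ B y e = 0 ∧ B e v = 0) → B p f = 0 →
      ob Q p ω ≠ ob Q p (rho Q e y • ω) := fun e f hh a b e' => by
    have := h3 ω _ (sub_mem (AA_of_ob e' ▸ (key e hh.Qu a).2) hv)
      (notMem_of_B b (by simp [hh.vu]))
    exact hQ (by simpa [hh.Qu] using this.symm)
  have k3 : ob Q p (rho Q e y • ω) ≠ ob Q p (rho Q f y • ω) := fun e' => by
    have := h3 _ _ (add_mem (sub_mem (key e hh.Qu a).2 (AA_of_ob e' ▸ (key f hh.Qv b).2))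
      (key e hh.Qu a).1) (notMem_of_B b.1 (by simp [hh.vu, hh.vv, polar_comm Q f y, b.2.1]))
    simp [Q_add, Q_sub, hh.Qu, hh.Qv, hh.uv, polar_comm Q e y, polar_comm Q f y, a.2.1, b.2.1] at this
  have := Finset.card_le_card (s := {ob Q p ω, ob Q p (rho Q e y • ω), ob Q p (rho Q f y • ω)})
    (t := MM Q X p y) (by
      simp [Finset.insert_subset_iff, ob_mem_MM, hy, (key e hh.Qu a).1, (key f hh.Qv b).1])
  rw [Finset.card_eq_three.2 ⟨_, _, _, key2 e f hh a b.1, key2 f e hh.symm b a.1, k3, rfl⟩] at this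
  omega

theorem ns_two (h : q = 2) {p y v : V} {ω : X} (hp : Q p = 0) (hp0 : p ≠ 0) (hy : y ∈ AA Q p ω)
    (hQ : Q y ≠ 0) (hv : v ∈ AA Q p ω) (hvy : v ∉ Submodule.span F {p, y}) :
    ∃ w ∈ AA Q p ω, w ∉ Submodule.span F {p, y} ∧ Q w ≠ 0 := by
  classical
  have := Fintype.ofFinite F
  by_cases h0 : Q v = 0
  swap
  · exact ⟨v, hv, hvy, h0⟩
  by_cases hB : B v y = 0
  · exact ⟨v + y, add_mem hv hy, fun e => hvy (by
      simpa using Submodule.sub_mem _ e (Submodule.subset_span (by simp : y ∈ _))),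
      by simpa [Q_add, h0, hB] using hQ⟩
  obtain ⟨μ, a, m1, -, m3, m4⟩ := exists_mu (X := X) hp hp0
  have hpv := perp_of_AA hp hv
  have hvp : v ∉ F ∙ p := fun e => hvy (Submodule.span_mono (by simp) e)
  have z1 := Finset.card_pos.2 ⟨_, ob_mem_MM.2 hy⟩
  rw [m1 y (perp_of_AA hp hy) (notMem_ns hp hQ)] at z1
  have s2 := Finset.single_le_sum (f := μ) (s := Finset.univ.erase 0) (fun _ _ => Nat.zero_le _)
    (a := Q y) (by simpa using hQ)
  have hD : ∀ w ∈ DD2 Q p v, B v w = 0 := fun w hw => (mem_DD2.1 hw).2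
  have hD' : ∀ w ∈ DD2 Q p v, B p w = 0 := fun w hw => (mem_DD2.1 hw).1
  have h1 := card_JJ hD ω p
  have h2 := JJ_le hpv hD' ω hv (Bss h0) hD
  rw [card_DD2 hp0 hvp, h6.six] at h1
  rw [m1 v hpv hvp, h0] at h2
  have h3 := m3 0
  obtain ⟨w, hw, hwp⟩ : ∃ w ∈ TT hD p ω, w ∉ Submodule.span F {p, v} := by
    by_contra! h4
    have h5 : Nat.card (TT hD p ω) ≤ q ^ 2 := (Set.ncard_le_ncard (s := (TT hD p ω : Set V))
      (t := (Submodule.span F {p, v} : Set V)) h4).trans (card_pair_le p v)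
    simp only [h] at *
    have : (JJ Q (DD2 Q p v) v p ω).ncard ≤ 2 := by omega
    have := Nat.mul_le_mul this h5
    omega
  have w1 := hD w hw.1
  have w2 : Q w ≠ 0 := fun e => hwp (mem_line hp0 hvp hp h0 e hpv (hD' w hw.1) w1)
  refine ⟨w, ?_, fun e => hwp ?_, w2⟩
  · have := sub_mem (smul_two h hv (B w y - Q w))
      (dl_mem (T := TT hD p ω) h0 (fun w hw => hD w hw.1) (TT_AA hpv hD hD' ω) hy hw)
    convert this using 1
    simp only [dl, eq_of_two h hB]; module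
  · obtain ⟨s, t, rfl⟩ := Submodule.mem_span_pair.1 e
    obtain rfl : t = 0 := by simpa [polar_comm Q v p, hpv, hB] using w1
    simpa using Submodule.smul_mem _ s (Submodule.subset_span (by simp))

theorem start {p y v : V} {ω : X} (hp : Q p = 0) (hp0 : p ≠ 0) (hy : y ∈ AA Q p ω) (hQ : Q y ≠ 0)
    (hv : v ∈ AA Q p ω) (hvy : v ∉ Submodule.span F {p, y}) :
    ∃ u, Q u = 0 ∧ B y u = 0 ∧ u ∉ F ∙ p ∧ ∀ c : F, c • u ∈ AA Q p ω := by
  have hH := hy_of hX hp hp0 hy hQ hv hvy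
  have hpy := perp_of_AA hp hy
  have hN := NL_ns hp hpy hQ
  by_cases h : q = 2
  · obtain ⟨w, hw, w1, w2⟩ := ns_two hX h hp hp0 hy hQ hv hvy
    have hpw := perp_of_AA hp hw
    by_cases hB : B y w = 0
    · obtain ⟨u, hu, hpu, hyu, huv⟩ := exists_sing hN w1
      exact ⟨u, hu, hyu, notMem_of_B hpw (by rwa [polar_comm]), full_even hH (two_of_two h) hp hy hQ hu
        hpu hyu fun α => ⟨α • w, smul_two h hw α, by simp [hB], by simp [eq_of_two h huv]⟩⟩
    · obtain ⟨e, f, hh, a, b⟩ := hp2 h hp hp0 hpy hpw hQ w2 hB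
      refine ⟨e, hh.Qu, a.2.1, notMem_of_B b.1 (by simp [hh.vu]), smul_two h ?_⟩
      simpa [dl, a.2.2, eq_of_two h hB] using dl_y hH (two_of_two h) hpy hw hh.Qu a.1 a.2.1 1
  obtain ⟨u, hu, hpu, hyu, huv⟩ := exists_sing hN hvy
  have hup : u ∉ F ∙ p := notMem_of_B (perp_of_AA hp hv) (by rwa [polar_comm])
  refine ⟨u, hu, hyu, hup, ?_⟩
  by_cases h2 : (2 : F) = 0
  swap
  · exact full_odd hH h2 hv hu hpu hyu huv
  have hyy : B y y = 0 := by rw [polar_self', h2, zero_mul]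
  obtain ⟨s, s0, s1⟩ : ∃ s : F, s ≠ 0 ∧ s ≠ B y v / (B u v * Q y) := by
    classical
    have := Fintype.ofFinite F
    have := two_le_q (F := F)
    obtain ⟨t, -, ht⟩ := Finset.exists_mem_notMem_of_card_lt_card (s := {(0 : F), B y v / (B u v * Q y)})
      (t := Finset.univ)
      (Finset.card_le_two.trans_lt (by rw [Finset.card_univ, ← Nat.card_eq_fintype_card]; omega))
    exact ⟨t, by simpa using ht⟩
  obtain ⟨u2, hu2, hpu2, hyu2, huv2⟩ := exists_sing hN (v := u) fun e => hup (hN u e hu hpu)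
  have d1 := dl_y hH h2 hpy hv hu hpu hyu s
  have d2 : B u2 (dl Q u v (s • y)) ≠ 0 := by
    have : B u2 (dl Q u v (s • y)) = s * (B y v - s * (B u v * Q y)) * B u2 u := by
      simp only [dl, polar_sub_right, polar_add_right, polar_smul_right, polar_smul_left, Q_smul,
        polar_comm Q u2 y, hyu2, smul_eq_mul]; ring
    rw [this]
    exact mul_ne_zero (mul_ne_zero s0 fun e => s1 (by
      rw [eq_div_iff (mul_ne_zero huv hQ)]; linear_combination -e)) huv2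
  have d3 : B y (dl Q u v (s • y)) = 0 := by simp [dl, hyu, hyy]
  refine full_even hH h2 hp hy hQ hu hpu hyu fun α => ?_
  obtain ⟨t, ht⟩ := exists_sq_eq_of_two_eq_zero h2 (-α / (B u2 (dl Q u v (s • y)) * Q y * B u2 u))
  refine ⟨_, dl_y hH h2 hpy d1 hu2 hpu2 hyu2 t, by simp [dl, hyu2, hyy], ?_⟩
  generalize dl Q u v (s • y) = z at *
  simp only [dl, polar_sub_right, polar_add_right, polar_smul_right, polar_smul_left, Q_smul,
    polar_comm Q u y, polar_comm Q u u2, hyu, d3, ht, smul_eq_mul]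
  field_simp; ring

theorem tri {p : V} (ω : X) (hp : Q p = 0) (hp0 : p ≠ 0) : Reg Q p ω ∨
    ∃ y, B p y = 0 ∧ ∀ a ∈ AA Q p ω, a ∈ Submodule.span F {p, y} := by
  by_contra! h
  obtain ⟨hR, h1⟩ := h
  have L : ∀ y ∈ AA Q p ω, Q y ≠ 0 → ∀ w, B p w = 0 → B y w = 0 → w ∈ AA Q p ω := fun y hy hQ w => by
    obtain ⟨v, hv, hvy⟩ := h1 y (perp_of_AA hp hy)
    obtain ⟨u, a1, a2, a3, a4⟩ := start hX hp hp0 hy hQ hv hvy
    exact spread (hy_of hX hp hp0 hy hQ hv hvy) hp hp0 hy hQ a1 a2 a3 a4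
  have L' : ∀ y ∈ AA Q p ω, Q y ≠ 0 → ∀ s ∈ SS Q p ω, s ∈ Submodule.span F {p, y} := fun y hy hQ s hs => by
    rw [← hC.nd.perp_perp (Submodule.span F {p, y})]
    refine mem_perp.2 fun w hw => eq_zero_of_psi fun c => ?_
    obtain ⟨w1, w2⟩ := mem_perp_pair.1 hw
    simpa using L y hy hQ (c • w) (by simp [w1]) (by simp [w2]) s hs
  by_cases h2 : ∀ a ∈ AA Q p ω, Q a = 0
  · obtain ⟨x, hx, hxp⟩ := h1 0 (by simp)
    obtain ⟨v, hv, hvx⟩ := h1 x (perp_of_AA hp hx)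
    exact hvx (mem_line hp0 (fun e => hxp (Submodule.span_mono (by simp) e)) hp (h2 x hx) (h2 v hv)
      (perp_of_AA hp hx) (perp_of_AA hp hv) (by simpa [Q_add, h2 x hx, h2 v hv] using h2 _ (add_mem hx hv)))
  push Not at h2
  obtain ⟨y, hy, hQ⟩ := h2
  obtain ⟨e, f, hh, a1, a2, a3, a4⟩ := exists_hp_perp (NL_ns hp (perp_of_AA hp hy) hQ)
  refine hR fun s hs => ?_
  obtain ⟨a, b, e1⟩ := Submodule.mem_span_pair.1 (L' y hy hQ s hs)
  obtain ⟨c, d, rfl⟩ := Submodule.mem_span_pair.1 (L' (e + f) (L y hy hQ _ (by simp [a1, a3]) (by simp [a2, a4]))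
    (by simp [Q_add, hh.Qu, hh.Qv, hh.uv]) s hs)
  obtain rfl : d = 0 := by
    simpa [polar_comm Q e p, polar_comm Q e y, a1, a2, hh.uu, hh.uv, eq_comm] using congrArg (B e) e1
  simpa using Submodule.smul_mem _ c (Submodule.mem_span_singleton_self p)

end W

end Cfsg.Agent.H26.MD
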