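import Mathlib
import Cfsg.Agent.H26.MW2

/-! A point stabiliser meeting some root group in a large subgroup fixes a point or a line. -/

set_option autoImplicit false
set_option linter.unusedSectionVars false

namespace Cfsg.Agent.H26.MD

open Module QuadraticMap H13
open scoped Pointwise

variable {F V : Type*} [Field F] [Finite F] [AddCommGroup V] [Module F V] [FiniteDimensional F V]
  [Finite V] {Q : QuadraticForm F V} [hC : OC Q] [h6 : M6 Q]

local notation "B" => polar Q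
local notation "q" => Nat.card F
local notation "n" => finrank F V

namespace W

theorem exists_nonsing {a b : V} (c d : V) (ha : Q a = 0) (hab : B b a ≠ 0) :
    ∃ z, (B a z = 0 ∧ B c z = 0) ∧ (B b z = 0 ∧ B d z = 0) ∧ Q z ≠ 0 := by
  by_contra! h3
  have e1 := hC.nd.finrank_perp (Submodule.span F {a, c} ⊔ Submodule.span F {b, d})
  have e2 := Submodule.finrank_add_le_finrank_add_finrank (Submodule.span F {a, c})
    (Submodule.span F {b, d})
  have e3 := finrank_span_pair_le (F := F) a c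
  have e4 := finrank_span_pair_le (F := F) b d
  have e5 := h6.six
  have e6 := finrank_sup_span_singleton_of_notMem
    (H := perp Q (Submodule.span F {a, c} ⊔ Submodule.span F {b, d})) (w := a) fun h => by
      rw [perp_sup] at h; exact hab (mem_perp_pair.1 h.2).1
  have := h6.ts (perp Q (Submodule.span F {a, c} ⊔ Submodule.span F {b, d}) ⊔ F ∙ a) fun x hx => by
    obtain ⟨y, hy, _, hb, rfl⟩ := Submodule.mem_sup.1 hx
    obtain ⟨t, rfl⟩ := Submodule.mem_span_singleton.1 hb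
    rw [perp_sup] at hy
    simp [Q_add, Q_smul, ha, h3 y (mem_perp_pair.1 hy.1) (mem_perp_pair.1 hy.2), polar_comm Q y a,
      (mem_perp_pair.1 hy.1).1]
  omega

variable {X : Type*} [MulAction (Om Q) X] [Finite X] {ω : X}
  (hL : ∀ p, Gm Q ω p → ∃ y, polar Q p y = 0 ∧ ∀ w, polar Q p w = 0 → polar Q y w = 0 → w ∈ KK Q p ω)
include hL

theorem claim1 {p p' : V} (h : Gm Q ω p) (h' : Gm Q ω p') (hB : B p p' ≠ 0) : ∃ (g : Om Q) (c : F),
    g • ω = ω ∧ c ≠ 0 ∧ g • p = c • p' ∧ ∀ y, (∀ w ∈ KK Q p ω, B w y = 0) → B p' y = 0 → g • y = y := by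
  obtain ⟨y, -, hy⟩ := hL p h
  obtain ⟨y', -, hy'⟩ := hL p' h'
  have hB' : B p' p ≠ 0 := by rwa [polar_comm]
  obtain ⟨v, v1, v2, v3⟩ := exists_nonsing y y' h.s hB'
  have k := (KK Q p ω).smul_mem (B p p' * Q v)⁻¹ (hy v v1.1 v1.2)
  refine ⟨rho Q p ((B p p' * Q v)⁻¹ • v) * rho Q p' v, -(B p p' * Q v), ?_, by simp [hB, v3], ?_,
    fun z h1 h2 => ?_⟩
  · rw [mul_smul, KK_fix (hy' v v2.1 v2.2), KK_fix k]
  · rw [mul_smul, rho_apply h'.s v2.1, rho_apply h.s (KK_p k)]
    simp only [polar_add_right, polar_sub_right, polar_smul_right, polar_smul_left, polar_self', h.s,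
      polar_comm Q v p, polar_comm Q v p', polar_comm Q p' p, v1.1, v2.1, Q_smul, smul_eq_mul]
    match_scalars <;> field_simp <;> ring
  · rw [mul_smul, rho_fix h2 (h1 v (hy v v1.1 v1.2)), rho_fix (h1 p fun c => self_mem_SS h.s ω c) (h1 _ k)]

theorem finishA (hω : ¬ ∀ g : Om Q, g • ω = ω) {p0 y0 : V} (h0 : Gm Q ω p0) (hN : NL Q p0 y0)
    (hy0 : ∀ w, B p0 w = 0 → B y0 w = 0 → w ∈ KK Q p0 ω) :
    ∃ y : V, y ≠ 0 ∧ ∀ g : Om Q, g • ω = ω → g • y ∈ F ∙ y := by
  obtain ⟨p, p', hp, a1, a2, a3, a4⟩ := exists_hp_perp hN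
  have h := h0.of_K hp.Qu hp.ne_left (hy0 p a1 a2)
  have h' := h0.of_K hp.Qv hp.ne_right (hy0 p' a3 a4)
  obtain ⟨g, c, g1, hc, g2, g3⟩ := claim1 hL h h' (by simp [hp.uv])
  obtain ⟨y1, b1, b2⟩ := hL p h
  set y := y1 - B p' y1 • p with hy
  have y1' : B p y = 0 := by simp [hy, b1, hp.uu]
  have y2 : B p' y = 0 := by simp [hy, hp.vu]
  have y3 : ∀ w, B p w = 0 → B y w = 0 → w ∈ KK Q p ω := fun w h1 h2 => b2 w h1 (by simpa [hy, h1] using h2)
  have hF : ¬ Fx Q p ω := fun hF => by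
    have := (hF.g g).smul (by simp [hp.Qu]) c⁻¹
    rw [g1, g2, inv_smul_smul₀ hc] at this
    exact hω (full_two hp.Qu hp.Qv hF this (by simp [hp.uv]))
  have y4 : ∀ w ∈ KK Q p ω, B w y = 0 := fun w hw => by_contra fun e => hF fun z hz => by
    rw [polar_comm] at e
    simpa using KK_fix (add_mem (y3 (z - (B y z / B y w) • w) (by simp [hz, KK_p hw]) (by simp [e]))
      (Submodule.smul_mem _ (B y z / B y w) hw))
  have y5 : y ≠ 0 := fun e => hF fun z hz => KK_fix (y3 z hz (by simp [e]))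
  have y6 : ∀ w ∈ KK Q p' ω, B w y = 0 := fun w hw => by
    have := KK_g g⁻¹ (inv_smul_eq_iff.2 g1.symm) (KK_smul hp.Qv hc hw)
    rw [← g2, inv_smul_smul] at this
    rw [← g3 y y4 y2, polar_comm, Bg_left, polar_comm]; exact y4 _ this
  have key : ∀ x, Gm Q ω x → B x y = 0 := fun x hx => by
    by_cases hpx : B p x = 0
    · exact y4 x (claim0 hL h hx hpx)
    by_contra hxy
    obtain ⟨z, z1, z3, z2, z4⟩ := exists_sing (NL_B hx.s hxy) (v := p) fun e => by
      obtain ⟨a, b, e⟩ := Submodule.mem_span_pair.1 e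
      have e1 := congrArg (B p) e
      have e2 := congrArg (B p') e
      simp only [polar_add_right, polar_smul_right, y1', y2, hp.uu, hp.vu, smul_eq_mul, mul_zero,
        add_zero, mul_eq_zero, hpx, or_false] at e1 e2
      simp [e1] at e2
    rw [polar_comm] at z4
    obtain ⟨a, ha, e⟩ := exists_sieg_map (x := B p z • p') (y := z) hp.Qu
      (by simp [Q_smul, hp.Qv, z1]) (by simp [hp.uv]) (by simp [hp.uv, z4])
    replace e : rho Q p a • B p z • p' = z := e
    have e1 : B y a = 0 := by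
      rw [← e, rho_apply hp.Qu ha] at z2
      simpa [polar_comm Q y p, polar_comm Q y p', y1', y2, hp.uv, z4] using z2
    have e2 := KK_fix (y3 a ha e1)
    have e3 := claim0 hL (e ▸ (h'.smul z4).g _ e2) hx (by rwa [polar_comm])
    have e4 := KK_g _ (inv_smul_eq_iff.2 e2.symm) e3
    rw [← e, inv_smul_smul] at e4
    have e5 := y6 _ (by simpa [z4] using KK_smul (by simp [Q_smul, hp.Qv]) (inv_ne_zero z4) e4)
    rw [Bg_left, inv_inv, rho_fix y1' (by rwa [polar_comm])] at e5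
    exact hxy e5
  refine ⟨y, y5, fun k hk => ?_⟩
  have key' : ∀ x, Gm Q ω x → B x (k • y) = 0 := fun x hx => by
    rw [polar_comm, Bg_left, polar_comm]; exact key _ (hx.g _ (inv_smul_eq_iff.2 hk.symm))
  have : k • y ∈ Submodule.span F {p, y} := by
    by_cases hQ : Q y = 0
    · refine mem_line hp.ne_left (fun e => y5 ?_) hp.Qu hQ (by simpa using hQ) y1' (key' p h)
        (key' y (h.of_K hQ y5 (y3 y y1' (Bss hQ))))
      obtain ⟨t, e⟩ := Submodule.mem_span_singleton.1 e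
      rw [← e] at y2 ⊢
      simp [show t = 0 by simpa [hp.vu] using y2]
    by_contra e
    obtain ⟨u, u1, u2, u3, u4⟩ := exists_sing (NL_ns hp.Qu y1' hQ) e
    exact u4 (key' u (h.of_K u1 (by rintro rfl; simp at u4) (y3 u u2 u3)))
  obtain ⟨a, b, e⟩ := Submodule.mem_span_pair.1 this
  have e1 := key' p' h'
  rw [← e] at e1 ⊢
  simp only [polar_add_right, polar_smul_right, hp.vu, y2, smul_eq_mul, mul_one, mul_zero, add_zero] at e1
  simp [e1, Submodule.smul_mem, Submodule.mem_span_singleton_self]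

theorem finish (hω : ¬ ∀ g : Om Q, g • ω = ω) {p : V} (h : Gm Q ω p) :
    (∃ y : V, y ≠ 0 ∧ ∀ g : Om Q, g • ω = ω → g • y ∈ F ∙ y) ∨ ∃ y : V, y ∉ F ∙ p ∧ Q y = 0 ∧
      B p y = 0 ∧ ∀ g : Om Q, g • ω = ω →
        g • p ∈ Submodule.span F {p, y} ∧ g • y ∈ Submodule.span F {p, y} := by
  rw [or_iff_not_imp_left]
  intro h1
  have key : ∀ p, Gm Q ω p → ∃ y, y ∉ F ∙ p ∧ Q y = 0 ∧ B p y = 0 ∧
      (∀ w, B p w = 0 → B y w = 0 → w ∈ KK Q p ω) ∧
      ∀ x, Gm Q ω x → B p x = 0 → x ∈ Submodule.span F {p, y} := fun p h => by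
    obtain ⟨y, y1, y2⟩ := hL p h
    have y3 : Q y = 0 := by_contra fun e => h1 (finishA hL hω h (NL_ns h.s y1 e) y2)
    have y4 : y ∉ F ∙ p := fun e => h1 (finishA hL hω h (fun z hz _ _ => by
      rwa [Submodule.span_insert, sup_eq_left.2 ((Submodule.span_singleton_le_iff_mem _ _).2 e)] at hz) y2)
    refine ⟨y, y4, y3, y1, y2, fun x hx hB => mem_line h.ne y4 h.s y3 hx.s y1 hB (by_contra fun e => ?_)⟩
    refine h1 (finishA hL hω h (NL_self p) fun z hz _ => ?_)
    simpa using add_mem (y2 (z - (B y z / B y x) • x) (by simp [hz, hB]) (by simp [e]))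
      (Submodule.smul_mem _ (B y z / B y x) (claim0 hL h hx hB))
  obtain ⟨y, y1, y2, y3, y4, y5⟩ := key p h
  have y0 : ∀ t : F, y - t • p ≠ 0 := fun t e => y1 (sub_eq_zero.1 e ▸
    Submodule.smul_mem _ _ (Submodule.mem_span_singleton_self p))
  have y6 : ∀ t : F, Gm Q ω (y - t • p) := fun t => h.of_K
    (by simp [Q_sub, Q_smul, h.s, y2, y3, polar_comm Q y p]) (y0 t)
    (y4 _ (by simp [y3, Bss h.s]) (by simp [y3, Bss y2, polar_comm Q y p]))
  have all : ∀ x, Gm Q ω x → x ∈ Submodule.span F {p, y} := fun x hx => y5 x hx (by_contra fun e => by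
    obtain ⟨z, -, z2, z3, -, z5⟩ := key _ (y6 (B y x / B p x))
    obtain ⟨a, b, e1⟩ := Submodule.mem_span_pair.1 (z5 x hx (by simp [e]))
    obtain ⟨c, d, e2⟩ := Submodule.mem_span_pair.1 (z5 p h (by simp [y3, Bss h.s, polar_comm Q y p]))
    have z6 := (y6 (B y x / B p x)).s
    generalize y - (B y x / B p x) • p = r at *
    exact e (by rw [← e1, ← e2]; simp [Bss z6, Bss z2, z3, polar_comm Q z r]))
  exact ⟨y, y1, y2, y3, fun g hg => ⟨all _ (h.g g hg), all _ ((by simpa using y6 0 : Gm Q ω y).g g hg)⟩⟩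

end W

end Cfsg.Agent.H26.MD
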