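import Mathlib
import Cfsg.Agent.H26.MW3

/-! The root groups of points cannot all act regularly (dimension six, minus type). -/

set_option autoImplicit false
set_option linter.unusedSectionVars false

namespace Cfsg.Agent.H26.MD

open Module QuadraticMap H13
open scoped Pointwise

variable {F V : Type*} [Field F] [Finite F] [AddCommGroup V] [Module F V] [FiniteDimensional F V]
  [Finite V] {Q : QuadraticForm F V} [hC : OC Q] [h6 : M6 Q]

local notation "B" => polar Q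
local notation "q" => Nat.card F
local notation "n" => finrank F V

namespace W

variable {X : Type*} [MulAction (Om Q) X] [Finite X]

theorem shift {ω : X} {p u v t w : V} (hp : Q p = 0) (hu : Q u = 0) (h1 : B p u = 0) (v1 : B p v = 0)
    (v3 : B u v = 0) (t1 : B p t = 0) (hw : B p w = 0) (e : Rl Q (rho Q p w • ω) p u v t) :
    Rl Q ω p u v (t + B w u • v) := by
  obtain ⟨β, e1⟩ := e
  have e2 := conj_rho (rho Q p (-w)) u v
  rw [rho_perp hp (by simp [hw]) h1, rho_perp hp (by simp [hw]) v1, polar_neg_left, neg_smul,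
    ← sub_eq_add_neg, (rr Q p).neg (mem_DD.2 hw), inv_inv] at e2
  refine ⟨β + (B (-w) v + B w u * Q v), ?_⟩
  have e3 := rho_mix hp hu h1 v1 v3 (B w u) (B (-w) v)
  rw [← e2] at e3
  have e4 : ∀ a b : V, B p a = 0 → B p b = 0 → ∀ y : X, rho Q p a • rho Q p b • y = rho Q p (a + b) • y :=
    fun a b ha hb y => by rw [rho_add ha hb, mul_smul]
  calc _ = rho Q p (B w u • v + (B (-w) v + B w u * Q v) • u) • rho Q p (-w) •
        rho Q p (t + β • u) • rho Q p w • ω := by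
        rw [e4 _ w (by simp [t1, h1]) hw, e4 (-w) _ (by simp [hw]) (by simp [t1, h1, hw]),
          e4 _ _ (by simp [v1, h1]) (by simp [t1, h1, hw])]
        exact congrArg (fun z => rho Q p z • ω) (by module)
    _ = _ := by
        rw [e1, (rr Q p).neg (mem_DD.2 hw), ← mul_smul, ← mul_smul, ← mul_smul]
        exact congrArg (· • ω) (by simpa only [mul_assoc] using e3)

set_option maxHeartbeats 800000 in
theorem contra {ω : X} (hR : ∀ x, Q x = 0 → x ≠ 0 → Reg Q x ω) {p p' u u' : V} (hp : HP Q p p')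
    (hu : HP Q u u') (h1 : B p u = 0) (h2 : B p u' = 0) (h3 : B p' u = 0) (h4 : B p' u' = 0)
    (hT : ∀ y : X, y ∈ ob Q p ω) : False := by
  set E := pp Q p p' ⊓ pp Q u u' with hE
  have mE : ∀ {v}, v ∈ E ↔ (B p v = 0 ∧ B p' v = 0) ∧ B u v = 0 ∧ B u' v = 0 := by
    simp only [hE, Submodule.mem_inf, mem_perp_pair, implies_true]
  have h1' : B u p = 0 := by rwa [polar_comm]
  have h2' : B u' p = 0 := by rwa [polar_comm]
  have h3' : B u p' = 0 := by rwa [polar_comm]
  have h4' : B u' p' = 0 := by rwa [polar_comm]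
  have dE : 2 ≤ finrank F E := by
    have d1 := Submodule.finrank_sup_add_finrank_inf_eq (pp Q p p') (pp Q u u')
    have d2 := Submodule.finrank_le (pp Q p p' ⊔ pp Q u u')
    have d3 := hp.finrank_pp
    have d4 := hu.finrank_pp
    have := h6.six
    rw [hE]; omega
  have an : ∀ t ∈ E, Q t = 0 → t = 0 := fun t ht h0 => by
    obtain ⟨⟨t1, t2⟩, t3, t4⟩ := mE.1 ht
    obtain ⟨a, b, rfl⟩ := Submodule.mem_span_pair.1 (mem_line hp.ne_left
      (notMem_of_B h2 (by simp [hu.vu])) hp.Qu hu.Qu h0 h1 t1 t3)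
    simp only [polar_add_right, polar_smul_right, hp.vu, hu.vu, h3, h2', smul_eq_mul, mul_one, mul_zero,
      add_zero, zero_add] at t2 t4
    simp [t2, t4]
  have nd : ∀ z ∈ E, (∀ v ∈ E, B v z = 0) → z = 0 := by
    intro z hz h
    refine hβ (Q := Q) z fun v => ?_
    obtain ⟨⟨z1, z2⟩, z3, z4⟩ := mE.1 hz
    simpa [z1, z2, z3, z4] using h (v - B p' v • p - B p v • p' - B u' v • u - B u v • u') (mE.2 (by
      simp [hp.uu, hp.vv, hp.uv, hp.vu, hu.uu, hu.vv, hu.uv, hu.vu, *]))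
  have un : ∀ {w w'}, B p w = 0 → B p w' = 0 → rho Q p w • ω = rho Q p w' • ω → ∃ c : F, c • p = w - w' :=
    fun a b e => Submodule.mem_span_singleton.1 (hR p hp.Qu hp.ne_left _
      ((rr Q p).sub_mem (mem_DD.2 a) (mem_DD.2 b) e))
  have co : ∀ {v v' w w'}, B p v = 0 → B u v = 0 → B u v' = 0 → B p w = 0 → B p w' = 0 →
      rho Q p w • ω = rho Q u v • ω → rho Q p w' • ω = rho Q u v' • ω →
      rho Q p (rho Q u v • w' + w) • ω = rho Q u (v + v') • ω ∧ B p (rho Q u v • w' + w) = 0 := by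
    intro v v' w w' a1 a2 a3 a4 a5 e e'
    have a6 : rho Q u v • p = p := rho_fix h1' (by rwa [polar_comm])
    have a7 : B p (rho Q u v • w') = 0 := by rw [← a6, Bg, a5]
    refine ⟨?_, by simp [a7, a4]⟩
    rw [rho_add a7 a4, rho_add a2 a3, mul_smul, mul_smul, e, ← e']
    nth_rw 1 [← a6]
    simp [← conj_rho, mul_smul]
  have sw : ∀ {v v' w w'}, B p v = 0 → B p v' = 0 → B u v = 0 → B u v' = 0 → B p w = 0 → B p w' = 0 →
      rho Q p w • ω = rho Q u v • ω → rho Q p w' • ω = rho Q u v' • ω →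
      ∃ c : F, c • p = dl Q u w' v - dl Q u w v' := by
    intro v v' w w' a0 a1 a2 a3 a4 a5 e e'
    obtain ⟨b1, b2⟩ := co a0 a2 a3 a4 a5 e e'
    obtain ⟨b3, b4⟩ := co a1 a3 a2 a5 a4 e' e
    obtain ⟨c, hc⟩ := un b2 b4 (by rw [b1, b3, add_comm])
    exact ⟨c, by rw [hc, rho_eq_dl hu.Qu a2, rho_eq_dl hu.Qu a3]; abel⟩
  have ex : ∀ v ∈ E, ∃ t ∈ E, Rl Q ω p u v t := fun v hv => by
    obtain ⟨⟨v1, v2⟩, v3, v4⟩ := mE.1 hv
    obtain ⟨w, hw, e⟩ := hT (rho Q u v • ω)
    replace hw := mem_DD.1 hw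
    have hτ : B u w = 0 := by
      obtain ⟨v', hv', hvv⟩ := exists_notMem_of_finrank_lt (H := F ∙ v) (W := E)
        (((finrank_span_le_card _).trans (by simp)).trans_lt (by omega : 1 < _))
      obtain ⟨⟨v1', v2'⟩, v3', v4'⟩ := mE.1 hv'
      obtain ⟨w', hw', e'⟩ := hT (rho Q u v' • ω)
      obtain ⟨c, hc⟩ := sw v1 v1' v3 v3' hw (mem_DD.1 hw') e e'
      by_contra hτ
      have := nd (B u w • v' - B u w' • v) (sub_mem (Submodule.smul_mem _ _ hv')
        (Submodule.smul_mem _ _ hv)) fun y hy => by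
          obtain ⟨⟨y1, -⟩, y3, -⟩ := mE.1 hy
          have := congrArg (B y) hc
          simp only [dl, polar_sub_right, polar_add_right, polar_smul_right, polar_comm Q y p,
            polar_comm Q y u, y1, y3, smul_eq_mul] at this ⊢
          linear_combination -this
      exact hvv ((Submodule.smul_mem_iff _ hτ).1 (sub_eq_zero.1 this ▸
        Submodule.smul_mem _ _ (Submodule.mem_span_singleton_self v)))
    refine ⟨w - B p' w • p - B u' w • u, mE.2 (by simp [hp.uu, hp.vu, hu.uu, hu.vu, *]), B u' w, ?_⟩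
    rw [← e, sub_add_cancel, sub_eq_add_neg, ← neg_smul]
    exact congrArg (· • ω) (Subtype.ext (sieg_add_smul_self hp.Qu hw _) : rho Q p _ = rho Q p w)
  have sa : ∀ {v t v' t'}, v ∈ E → t ∈ E → v' ∈ E → t' ∈ E → Rl Q ω p u v t → Rl Q ω p u v' t' →
      B v t' = B v' t := fun {v t v' t'} hv ht hv' ht' ⟨β, e⟩ ⟨β', e'⟩ => by
    obtain ⟨⟨v1, v2⟩, v3, v4⟩ := mE.1 hv
    obtain ⟨⟨v1', v2'⟩, v3', v4'⟩ := mE.1 hv'
    obtain ⟨⟨t1, t2⟩, t3, t4⟩ := mE.1 ht
    obtain ⟨⟨t1', t2'⟩, t3', t4'⟩ := mE.1 ht'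
    obtain ⟨c, hc⟩ := sw v1 v1' v3 v3' (by simp [t1, h1]) (by simp [t1', h1]) e e'
    have := congrArg (B u') hc
    simp only [dl, polar_sub_right, polar_add_right, polar_smul_right, hu.vu, hu.uu, h2', t3, t3',
      polar_comm Q v u, polar_comm Q v' u, v3, v3', smul_eq_mul] at this
    linear_combination -this
  have eig : ∀ {v} (c : F), v ∈ E → Rl Q ω p u v (c • v) → v = 0 := fun {v} c hv ⟨β, e⟩ => by
    obtain ⟨⟨v1, v2⟩, v3, v4⟩ := mE.1 hv
    have e1 := rho_mix hp.Qu hu.Qu h1 v1 v3 c (β - c * Q v)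
    rw [sub_add_cancel] at e1
    rw [← e1, mul_smul, smul_left_cancel_iff] at e
    obtain ⟨d, hd⟩ := Submodule.mem_span_singleton.1 (hR (u - c • p)
      (by simp [Q_sub, Q_smul, hp.Qu, hu.Qu, h1']) (fun h => by simpa [hu.vu, h2'] using congrArg (B u') h)
      _ (mem_SS.2 ⟨by simp [v1, v3, h1', hp.uu], e.symm⟩))
    obtain rfl : d = 0 := by simpa [hu.vu, h2', v4] using congrArg (B u') hd
    have := congrArg (B p') hd
    simp only [zero_smul, polar_zero_right, polar_add_right, v2, polar_smul_right, hp.vu, smul_eq_mul,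
      mul_one, zero_add] at this
    simpa [← this] using hd.symm
  obtain ⟨v, hv, hv0⟩ := exists_notMem_of_finrank_lt (H := ⊥) (W := E) (by rw [finrank_bot]; omega)
  replace hv0 : v ≠ 0 := hv0
  obtain ⟨t, ht, hR⟩ := ex v hv
  have htv : t ∉ F ∙ v := fun e => by
    obtain ⟨c, rfl⟩ := Submodule.mem_span_singleton.1 e
    exact hv0 (eig c hv hR)
  obtain ⟨⟨v1, v2⟩, v3, v4⟩ := mE.1 hv
  obtain ⟨⟨t1, t2⟩, t3, t4⟩ := mE.1 ht
  by_cases h0 : (2 : F) = 0
  · obtain ⟨β, e⟩ := hR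
    obtain ⟨b1, b2⟩ := co v1 v3 v3 (by simp [t1, h1]) (by simp [t1, h1]) e e
    obtain ⟨c, hc⟩ := un b2 (w' := 0) (by simp) (by
      rw [b1, ← two_smul F v, h0, zero_smul, (rr Q u).zero, (rr Q p).zero])
    have := congrArg (B u') hc
    rw [rho_perp hu.Qu v3 (by simp [t3, hu.uu])] at this
    simp only [polar_sub_right, polar_add_right, polar_smul_right, hu.vu, h2', t4, polar_comm Q v u, v3,
      smul_eq_mul, polar_zero_right] at this
    have e1 : B v t = 0 := by linear_combination -this - β * h0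
    have e2 : Submodule.span F {v, t} = E := Submodule.eq_of_le_of_finrank_le
      (Submodule.span_le.2 (by simp [Set.insert_subset_iff, hv, ht]))
      ((finrank_span_pair_eq (linearIndependent_pair_of_notMem hv0 htv)).symm ▸
        finrank_le_two_of_anisotropic an)
    refine hv0 (nd v hv fun z hz => ?_)
    obtain ⟨a, b, rfl⟩ := Submodule.mem_span_pair.1 (e2 ▸ hz)
    simp [polar_comm Q t v, e1, h0]
  have key : ∀ c : F, ∃ c' : F, ∀ v' ∈ E, ∀ t' ∈ E, Rl Q ω p u v' t' →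
      c * B t t' + c * c' * B v' t + c' * B v' v = 0 ∧ True := fun c => by
    obtain ⟨w, hw, e⟩ := hT ((rho Q u (c • p'))⁻¹ • ω)
    replace hw := mem_DD.1 hw
    refine ⟨-B w u, fun v' hv' t' ht' hR' => ⟨?_, trivial⟩⟩
    have r1 := shift (ω := (rho Q u (c • p'))⁻¹ • ω) (w := c • p') hu.Qu hp.Qu h1' t3 t1 v3 (by simp [h3'])
      (by rw [smul_inv_smul]; exact hR.symm hp.Qu hu.Qu h1 t1 v3)
    rw [polar_smul_left, hp.vu, smul_eq_mul, mul_one] at r1
    have r2 := r1.symm hu.Qu hp.Qu h1' (by simp [v3, t3]) t1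
    rw [← e] at r2
    have m1 := E.add_mem hv (E.smul_mem c ht)
    have r3 := sa m1 (E.add_mem ht (E.smul_mem _ m1)) hv' ht'
      (shift hp.Qu hu.Qu h1 (by simp [v1, t1]) (by simp [v3, t3]) t1 hw r2) hR'
    have r4 := sa hv ht hv' ht' hR hR'
    simp only [polar_add_left, polar_add_right, polar_smul_left, polar_smul_right, smul_eq_mul] at r3
    linear_combination r3 - r4
  obtain ⟨a, ha⟩ := key 1
  obtain ⟨b, hb⟩ := key (-1)
  have e1 := nd ((a + b) • v + (a - b) • t) (E.add_mem (E.smul_mem _ hv) (E.smul_mem _ ht)) fun z hz => by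
    obtain ⟨s, hs, hz'⟩ := ex z hz
    simp only [polar_add_right, polar_smul_right, smul_eq_mul]
    linear_combination (ha z hz s hs hz').1 + (hb z hz s hs hz').1
  obtain rfl : a = b := by_contra fun e => htv ((Submodule.smul_mem_iff _ (sub_ne_zero.2 e)).1
    (eq_neg_of_add_eq_zero_right e1 ▸
      neg_mem (Submodule.smul_mem _ _ (Submodule.mem_span_singleton_self v))))
  obtain rfl : a = 0 := by simpa [hv0, ← two_mul, h0] using e1
  exact htv (an t ht (by simpa [h0] using (ha v hv t ht hR).1) ▸ zero_mem _)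

variable (hX : Nat.card X ≤ Nat.card F ^ 4 + Nat.card F ^ 3 + Nat.card F)
include hX

theorem not_all_reg [MulAction.IsPretransitive (Om Q) X] (ω : X) :
    ¬ ∀ x, Q x = 0 → x ≠ 0 → Reg Q x ω := by
  intro hR
  have h8 := h6.six
  obtain ⟨p, p', hp, -⟩ := exists_hp_perp (NL_self (Q := Q) 0)
  obtain ⟨u, u', hu, a1, a2, a3, a4⟩ := exists_hp_perp (NL_B hp.Qu (y := p') (by simp [hp.uv]))
  refine contra hR hp hu a1 a3 a2 a4 fun y => ?_
  have key : ∀ y : X, q ^ 4 ≤ (ob Q p y).ncard := fun y => by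
    obtain ⟨g, rfl⟩ := MulAction.exists_smul_eq (Om Q) ω y
    have := reg_card hp.ne_left (by simpa using (hR (g⁻¹ • p) (by simp [hp.Qu]) (g_ne _ hp.ne_left)).g g)
    rw [card_AA hp.ne_left, h8, pow_succ'] at this
    exact Nat.le_of_mul_le_mul_left this Nat.card_pos
  by_contra hy
  have h1 := Set.ncard_le_card (ob Q p ω ∪ ob Q p y)
  rw [Set.ncard_union_eq (Set.disjoint_left.2 fun z h h' => hy
    ((((rr Q p).orb_eq h').symm.trans ((rr Q p).orb_eq h)).le ((rr Q p).self_mem y)))] at h1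
  have h2 := key ω
  have h3 := key y
  have h4 := two_le_q (F := F)
  have h5 : q ^ 4 = q * q ^ 3 := by ring
  have h7 : q < q ^ 3 := lt_self_pow₀ h4 (by norm_num)
  nlinarith [Nat.mul_le_mul_right (q ^ 3) h4]

theorem main [MulAction.IsPretransitive (Om Q) X] (ω : X) (hω : ¬ ∀ g : Om Q, g • ω = ω) :
    (∃ y : V, y ≠ 0 ∧ ∀ g : Om Q, g • ω = ω → g • y ∈ F ∙ y) ∨ ∃ p y : V, p ≠ 0 ∧ Q p = 0 ∧ y ∉ F ∙ p ∧
      Q y = 0 ∧ B p y = 0 ∧ ∀ g : Om Q, g • ω = ω →
        g • p ∈ Submodule.span F {p, y} ∧ g • y ∈ Submodule.span F {p, y} := by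
  have h1 := not_all_reg (Q := Q) hX ω
  push Not at h1
  obtain ⟨p, hp, hp0, h1⟩ := h1
  refine (finish (fun x hx => ?_) hω ⟨hp, hp0, h1⟩).imp id fun ⟨y, h⟩ => ⟨p, y, hp0, hp, h⟩
  obtain ⟨y, h2, h3⟩ := (tri hX ω hx.s hx.ne).resolve_left hx.nr
  refine ⟨y, h2, fun w h4 h5 c => mem_SS_of fun a ha => ?_⟩
  obtain ⟨s, t, rfl⟩ := Submodule.mem_span_pair.1 (h3 a ha)
  simp [h4, h5]

end W

end Cfsg.Agent.H26.MD
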