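import Mathlib
import Cfsg.Agent.H26.MW4
import Cfsg.Agent.H26.MS5

/-! Minimal index of a proper subgroup of the six-dimensional orthogonal group of minus type. -/

set_option autoImplicit false
set_option linter.unusedSectionVars false

namespace Cfsg.Agent.H26.MD

open Module QuadraticMap H13
open scoped Pointwise Classical

variable {F V : Type*} [Field F] [Finite F] [AddCommGroup V] [Module F V] [FiniteDimensional F V]
  [Finite V] {Q : QuadraticForm F V} [hC : OC Q] [h6 : M6 Q]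

local notation "B" => polar Q
local notation "q" => Nat.card F
local notation "n" => finrank F V

namespace W

theorem index_Ls {y : V} (hy : y ≠ 0) :
    {c : F | c ≠ 0 ∧ c ^ 2 * Q y = Q y}.ncard * (Ls Q y).index = Nat.card {x // Q x = Q y ∧ x ≠ 0} := by
  have h1 : MulAction.stabilizer (Om Q) y ≤ Ls Q y := fun g hg =>
    mem_Ls.2 (by rw [hg]; exact Submodule.mem_span_singleton_self y)
  have h2 : MulAction.orbit (Om Q) y = {x | Q x = Q y ∧ x ≠ 0} := Set.ext fun x =>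
    ⟨by rintro ⟨g, rfl⟩; exact ⟨Qg _ _, g_ne g hy⟩, fun h => trans1 hy h.2 h.1⟩
  have h3 : MulAction.orbit (Ls Q y) y = (· • y) '' {c : F | c ≠ 0 ∧ c ^ 2 * Q y = Q y} := Set.ext fun x =>
    ⟨by
      rintro ⟨g, rfl⟩
      obtain ⟨c, hc⟩ := Submodule.mem_span_singleton.1 (mem_Ls.1 g.2)
      exact ⟨c, ⟨by rintro rfl; exact g_ne g.1 hy (by simpa using hc.symm), by rw [← Q_smul, hc, Qg]⟩, hc⟩,
    by
      rintro ⟨c, hc, rfl⟩
      obtain ⟨g, hg⟩ := trans1 (Q := Q) hy (smul_ne_zero hc.1 hy) (by rw [Q_smul, hc.2])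
      exact ⟨⟨g, mem_Ls.2 (hg ▸ Submodule.smul_mem _ _ (Submodule.mem_span_singleton_self y))⟩, hg⟩⟩
  rw [← Set.ncard_image_of_injective _ (smul_left_injective F hy), ← h3, ← MulAction.index_stabilizer]
  exact (Subgroup.relIndex_mul_index h1).trans (by rw [MulAction.index_stabilizer, h2]; rfl)

theorem nz_sub : nz Q - 1 = (q - 1) * ((q + 1) * (q ^ 3 + 1)) := by
  have h := nz6 (Q := Q)
  obtain ⟨r, hr⟩ : ∃ r, q = r + 1 := ⟨q - 1, by have := two_le_q (F := F); omega⟩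
  rw [hr] at h ⊢
  refine Nat.sub_eq_of_eq_add ?_
  simp only [Nat.add_sub_cancel]
  zify at *
  linear_combination h

theorem index_Ls0 {y : V} (hy : y ≠ 0) (h : Q y = 0) : (Ls Q y).index = (q + 1) * (q ^ 3 + 1) := by
  refine Nat.eq_of_mul_eq_mul_left (by have := two_le_q (F := F); omega : 0 < q - 1) ?_
  rw [← nz_sub (Q := Q), ← card_nonzero_singular, ← h, ← index_Ls hy, h, ← Set.ncard_univ,
    ← Set.ncard_diff_singleton_of_mem (Set.mem_univ (0 : F))]
  congr 2; ext; simp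

theorem index_Ls1 {y : V} (h : Q y ≠ 0) : (q + 1) * (q ^ 3 + 1) ≤ (Ls Q y).index := by
  have hy : y ≠ 0 := by rintro rfl; simp at h
  have h1 : {c : F | c ≠ 0 ∧ c ^ 2 * Q y = Q y} = {1, -1} := by
    ext c; simp only [Set.mem_setOf_eq, mul_eq_right₀ h, Set.mem_insert_iff,
      Set.mem_singleton_iff, sq_eq_one_iff, and_iff_right_iff_imp]
    rintro (rfl | rfl) <;> simp
  have := index_Ls (Q := Q) hy
  rw [h1, Nat.card_congr (Equiv.subtypeEquivRight fun x =>
    and_iff_left_of_imp (b := x ≠ 0) fun (e : Q x = Q y) e' => h (by simp [← e, e']))] at this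
  replace this := this.trans (Nc6 h)
  have hq := two_le_q (F := F)
  by_cases h2 : (2 : F) = 0
  · rw [show (-1 : F) = 1 by linear_combination -h2] at this
    simp only [Set.mem_singleton_iff, Set.insert_eq_of_mem, Set.ncard_singleton, one_mul] at this
    obtain ⟨r, hr⟩ : ∃ r, q = r + 2 := ⟨q - 2, by omega⟩
    rw [this, hr]
    nlinarith [Nat.zero_le (r ^ 2), Nat.zero_le (r ^ 3), Nat.zero_le (r ^ 4), Nat.zero_le (r ^ 5)]
  · rw [Set.ncard_pair fun e => h2 (by linear_combination e)] at this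
    have h3 := odd_q h2
    obtain ⟨r, hr⟩ : ∃ r, q = r + 3 := ⟨q - 3, by omega⟩
    refine Nat.le_of_mul_le_mul_left (?_ : 2 * _ ≤ 2 * _) two_pos
    rw [this, hr]
    nlinarith [Nat.zero_le (r ^ 2), Nat.zero_le (r ^ 3), Nat.zero_le (r ^ 4), Nat.zero_le (r ^ 5)]

theorem index_line {H : Subgroup (Om Q)} {p y : V} (hp0 : p ≠ 0) (hp : Q p = 0) (hy : y ∉ F ∙ p)
    (hQ : Q y = 0) (hB : B p y = 0)
    (h : ∀ g ∈ H, g • p ∈ Submodule.span F {p, y} ∧ g • y ∈ Submodule.span F {p, y}) :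
    (q + 1) * (q ^ 3 + 1) ≤ H.index := by
  set W := Submodule.span F {p, y}
  have hW : finrank F W = 2 := finrank_span_pair_eq (linearIndependent_pair_of_notMem hp0 hy)
  have c1 := MS.orbit_le H (p, y)
  have c2 := (MS.ncard_pairs {x : V | Q x = 0 ∧ x ≠ 0} (fun x => {z | (B x z = 0 ∧ z ∉ F ∙ x) ∧ Q z = 0})
    _).1 fun x hx => (cnt0 hx.1 hx.2).ge
  have c3 := (MS.ncard_pairs ((W : Set V) \ {0}) (fun x => W \ (F ∙ x : Submodule F V)) (q ^ 2 - q)).2
    fun x hx => by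
      rw [Set.ncard_diff ((Submodule.span_singleton_le_iff_mem x W).2 hx.1), ← hW, ← card_sub]
      exact Nat.sub_le_sub_left (MS.card_line hx.2).ge _
  rw [show {x : V | Q x = 0 ∧ x ≠ 0}.ncard = _ from card_nonzero_singular, nz_sub] at c2
  rw [MS.ncard_ne, hW] at c3
  have c4 := (c2.trans (Set.ncard_le_ncard (t := MulAction.orbit (Om Q) (p, y)) fun z hz => by
    obtain ⟨g, g1, g2⟩ := trans2 hp0 hp hy hB hz.1.2 hz.1.1 hz.2.1.2 hz.2.1.1 (hz.2.2.trans hQ.symm)
    exact ⟨g, Prod.ext g1 g2⟩)).trans (c1.trans (Nat.mul_le_mul_right _ ((Set.ncard_le_ncard (by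
      rintro _ ⟨g, rfl⟩
      exact ⟨⟨(h g g.2).1, g_ne g.1 hp0⟩, (h g g.2).2, g_notMem g.1 hy⟩)).trans c3)))
  obtain ⟨r, hr⟩ : ∃ r, q = r + 2 := ⟨q - 2, by have := two_le_q (F := F); omega⟩
  rw [hr, show (r + 2) ^ 2 - 1 = (r + 1) * (r + 3) from Nat.sub_eq_of_eq_add (by ring),
    show (r + 2) ^ 2 - (r + 2) = (r + 2) * (r + 1) from Nat.sub_eq_of_eq_add (by ring),
    show r + 2 - 1 = r + 1 from rfl] at c4
  rw [hr]
  refine le_trans ?_ (Nat.le_of_mul_le_mul_left (a := ((r + 2) ^ 2 + 1) * ((r + 2) ^ 3 + 1))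
    (le_of_eq_of_le (by ring) c4) (by positivity))
  exact Nat.mul_le_mul_right _ (by nlinarith)

theorem minIdx : MinIdx (POm Q) ((q + 1) * (q ^ 3 + 1)) := by
  have h8 := h6.six
  obtain ⟨y, hy0, hy⟩ := exists_singular Q (by omega)
  refine MinIdx.of_surj (QuotientGroup.mk' _) (QuotientGroup.mk'_surjective _) (fun H hH => ?_)
    (fun g hg => mem_Ls.2 ?_) (index_Ls0 hy0 hy)
  · by_contra! hN
    have hs : ∀ g ∈ H, g • ((1 : Om Q) : Om Q ⧸ H) = (1 : Om Q) := fun g hg => by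
      rwa [← MulAction.stabilizer_quotient H] at hg
    rcases main (Q := Q) (X := Om Q ⧸ H) (Nat.le_of_lt_succ (hN.trans_eq (by rw [Nat.succ_eq_add_one]; ring))) _
      (MS.no_fix hH (1 : Om Q)) with ⟨z, hz, hz'⟩ | ⟨p, z, a1, a2, a3, a4, a5, a6⟩
    · have e := Nat.le_of_dvd (Nat.pos_of_ne_zero H.index_ne_zero_of_finite) (Subgroup.index_dvd_of_le
        (show H ≤ Ls Q z from fun g hg => mem_Ls.2 (hz' g (hs g hg))))
      by_cases h0 : Q z = 0
      · exact hN.not_ge (index_Ls0 hz h0 ▸ e)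
      · exact hN.not_ge ((index_Ls1 h0).trans e)
    · exact hN.not_ge (index_line a1 a2 a3 a4 a5 fun g hg => a6 g (hs g hg))
  · rw [QuotientGroup.ker_mk'] at hg
    rcases (hC.nd.mem_center_Om_iff (good_of_five hC.five) (by omega) g).1 hg with h | h
    · rw [g_def, h]; exact Submodule.mem_span_singleton_self y
    · rw [g_def, h]; exact neg_mem (Submodule.mem_span_singleton_self y)

end W

end Cfsg.Agent.H26.MD
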