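import Cfsg.Agent.H25.Comp6

/-! Fixed point free action of a nonabelian group of order `pq`: orbit lemmas. -/

set_option autoImplicit false
set_option linter.style.haveILetI false

namespace Cfsg.Agent.H26

open Subgroup Cfsg.Agent.H20 Cfsg.Agent.H21 Cfsg.Agent.BG Cfsg.Agent.H25
open scoped commutatorElement IsMulCommutative

variable {G : Type*} [Group G] [Finite G] {A B D F H K M S T U V W X Y Z : Subgroup G} {f h q r : ℕ}

/-- the norm argument -/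
theorem orbit_fix (hM : IsMulCommutative M) (hA : A ≤ N⟦M⟧) (hcop : (♯M).Coprime (♯A)) (hf : M ⊓ C⟦A⟧ = ⊥)
    (hW : W ≤ M) (hB : B ≤ A) (hX : ∀ a ∈ A, a ∉ B → cj a W ≤ X) (hi : W ⊓ X = ⊥) : W ⊓ C⟦B⟧ = ⊥ := by
  classical
  haveI := Fintype.ofFinite A
  rw [eq_bot_iff]
  intro w hw
  let v : M := ⟨w, hW hw.1⟩
  have h1 : ((∏ x : A, H1.conjHom hA x v : M) : G) ∈ M ⊓ C⟦A⟧ := by
    refine mem_inf.2 ⟨Subtype.coe_prop _, mem_cent.2 fun a ha =>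
      ((H1.conjHom_eq_self_iff hA ⟨a, ha⟩ _).1 ?_).symm⟩
    rw [map_prod]
    exact Fintype.prod_equiv (Equiv.mulLeft ⟨a, ha⟩) _ _ fun x => by simp
  rw [hf, Subgroup.mem_bot, ← Finset.prod_filter_mul_prod_filter_not Finset.univ (fun x : A => (x : G) ∈ B),
    Finset.prod_congr rfl (g := fun _ => v) fun x hx => (H1.conjHom_eq_self_iff hA x v).2
      (mem_cent.1 hw.2 _ (Finset.mem_filter.1 hx).2).symm, Finset.prod_const, coe_mul] at h1
  have h2 : ((∏ x ∈ Finset.univ.filter (fun x : A => ¬ (x : G) ∈ B), H1.conjHom hA x v : M) : G) ∈ X :=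
    prod_mem (S := X.subgroupOf M) fun x hx => hX x x.2 (Finset.mem_filter.1 hx).2 (conj_mem_cj.2 hw.1)
  have h3 : (Finset.univ.filter (fun x : A => (x : G) ∈ B)).card = ♯B := by
    rw [← card_subgroupOf hB, Nat.card_eq_fintype_card, Fintype.card_subtype]; rfl
  rw [h3] at h1
  have h4 : w ^ ♯B ∈ W ⊓ X := mem_inf.2 ⟨pow_mem hw.1 _, by
    have := eq_inv_of_mul_eq_one_left h1
    rw [SubgroupClass.coe_pow] at this
    exact this ▸ inv_mem h2⟩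
  rw [hi] at h4
  exact mem_of_pow_mem h4 ((hcop.coprime_dvd_right (card_dvd hB)).coprime_dvd_left
    (orderOf_dvd_card_of_mem (hW hw.1))).symm

omit [Finite G] in
/-- independence through operators -/
theorem indep_of_ops {ι : Type*} (hM : IsMulCommutative M) (hW : W ≤ M) (P : ι → Subgroup G) (hP : ∀ i, P i ≤ M)
    (s : Finset ι) (h : ∀ i ∈ s, ∃ K : Subgroup G, K ≤ C⟦P i⟧ ∧ W ⊓ C⟦K⟧ = ⊥ ∧ K ≤ N⟦W⟧ ∧ ∀ j, K ≤ N⟦P j⟧) :
    W ⊓ ⨆ i ∈ s, P i = ⊥ := by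
  classical
  induction s using Finset.induction_on with
  | empty => simp
  | insert i s hi ih =>
    obtain ⟨K, h1, h2, h3, h4⟩ := h i (Finset.mem_insert_self _ _)
    have h5 := ih fun j hj => h j (Finset.mem_insert_of_mem hj)
    have hs : (⨆ i ∈ s, P i) ≤ M := iSup₂_le fun j _ => hP j
    have hK : K ≤ N⟦⨆ i ∈ s, P i⟧ := norm_iSup fun j => norm_iSup fun _ => h4 j
    rw [Finset.iSup_insert, eq_bot_iff, ← h2]
    refine le_inf inf_le_left (cent_symm ?_)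
    rw [← commg_eq_bot', eq_bot_iff, ← h5]
    refine le_inf ((commutator_mono inf_le_left le_rfl).trans (commg_le_left h3))
      ((commutator_mono inf_le_right le_rfl).trans ?_)
    refine commg_sup_left_le (le_norm_of_comm hM (hP i) hs) le_normalizer ?_ (commg_le_left hK)
    rw [commg_eq_bot'.2 h1]; exact bot_le

/-- the orbit lemma -/
theorem orbit_lemma (hM : IsMulCommutative M) (hA : A ≤ N⟦M⟧) (hcop : (♯M).Coprime (♯A)) (hf : M ⊓ C⟦A⟧ = ⊥)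
    (hW : W ≤ M) (hB : B ≤ A)
    (h : ∀ a ∈ A, a ∉ B → ∃ K : Subgroup G, K ≤ C⟦cj a W⟧ ∧ W ⊓ C⟦K⟧ = ⊥ ∧ ∀ b ∈ A, K ≤ N⟦cj b W⟧) :
    W ⊓ C⟦B⟧ = ⊥ := by
  classical
  haveI := Fintype.ofFinite A
  refine orbit_fix hM hA hcop hf hW hB (X := ⨆ i ∈ Finset.univ.filter (fun x : A => ¬ (x : G) ∈ B), cj (i : G) W)
    (fun a ha ha' => le_iSup₂_of_le (⟨a, ha⟩ : A) (by simpa using ha') le_rfl) ?_
  refine indep_of_ops hM hW _ (fun i => cj_le_of_mem_norm (hA i.2) hW) _ fun i hi => ?_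
  obtain ⟨K, h1, h2, h3⟩ := h i i.2 (Finset.mem_filter.1 hi).2
  exact ⟨K, h1, h2, by simpa using h3 1 (one_mem _), fun j => h3 j j.2⟩

/-- `A` is nonabelian of order `f * h` with normal subgroup `F` of order `f`. -/
structure PQ (f h : ℕ) (A F : Subgroup G) : Prop where
  pf : f.Prime
  ph : h.Prime
  ne : f ≠ h
  le : F ≤ A
  norm : A ≤ N⟦F⟧
  card : ♯F = f
  idx : F.relIndex A = h
  comm : ⁅F, A⁆ = F

namespace PQ

theorem cardA (c : PQ f h A F) : ♯A = f * h := by rw [← card_mul_relIndex c.le, c.card, c.idx]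

theorem primeF (c : PQ f h A F) : (♯F).Prime := c.card ▸ c.pf

theorem sol (c : PQ f h A F) : Group.IsSolvable A :=
  solvable_of_quo c.norm (sol_of_card_prime c.primeF) (sol_of_card_prime (by rw [card_quo c.norm, c.idx]; exact c.ph))

theorem relIndex_prime (c : PQ f h A F) (hB : B ≤ A) (hp : (♯B).Prime) : (B.relIndex A).Prime := by
  have h1 := card_mul_relIndex hB
  rw [c.cardA] at h1
  rcases (hp.dvd_mul).1 (Dvd.intro _ h1) with h2 | h2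
  · rw [(Nat.prime_dvd_prime_iff_eq hp c.pf).1 h2] at h1
    rw [Nat.eq_of_mul_eq_mul_left c.pf.pos h1]; exact c.ph
  · rw [(Nat.prime_dvd_prime_iff_eq hp c.ph).1 h2, mul_comm f] at h1
    rw [Nat.eq_of_mul_eq_mul_left c.ph.pos h1]; exact c.pf

theorem sup_eq (c : PQ f h A F) (hB : B ≤ A) (hp : (♯B).Prime) (hH : H ≤ A) (hp' : (♯H).Prime) (hne : B ≠ H) :
    B ⊔ H = A :=
  sup_eq_of_relIndex_prime (c.relIndex_prime hB hp) hB hH fun h1 =>
    hne (eq_of_le_of_card_prime hp h1 (ne_bot_of_card_prime hp')).symm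

theorem tri (c : PQ f h A F) (hB : B ≤ A) : B = ⊥ ∨ (♯B).Prime ∨ B = A := by
  by_cases h1 : B = ⊥
  · exact Or.inl h1
  obtain ⟨X, hX, hp⟩ := exists_prime_subgroup_of_ne_bot h1
  rcases eq_or_eq_of_relIndex_prime (c.relIndex_prime (hX.trans hB) hp) hX hB with h2 | h2
  · exact Or.inr (Or.inl (h2 ▸ hp))
  · exact Or.inr (Or.inr h2)

theorem exists_H (c : PQ f h A F) : ∃ H ≤ A, (♯H).Prime ∧ H ≠ F := by
  obtain ⟨H, hH, h1⟩ := exists_prime_subgroup (A := A) c.ph (by rw [c.cardA]; exact dvd_mul_left _ _)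
  exact ⟨H, hH, h1 ▸ c.ph, fun h2 => c.ne (by rw [← c.card, ← h2, h1])⟩

theorem not_norm (c : PQ f h A F) (hH : H ≤ A) (hp : (♯H).Prime) (hne : H ≠ F) : ¬ A ≤ N⟦H⟧ := fun h1 => by
  have h2 : F ⊓ H = ⊥ := (prime_inf_eq_bot_or_le c.primeF).resolve_right fun h3 =>
    hne (eq_of_le_of_card_prime hp h3 (ne_bot_of_card_prime c.primeF)).symm
  have h3 := cent_of_disjoint (c.le.trans h1) (hH.trans c.norm) h2
  have h4 : F ≤ C⟦A⟧ := by
    rw [← c.sup_eq c.le c.primeF hH hp hne.symm]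
    exact le_cent_sup (comm_le_cent (comm_of_cyclic (isCyclic_of_card_prime c.primeF))) h3
  exact ne_bot_of_card_prime c.primeF (by rw [← c.comm, commg_eq_bot.2 h4])

theorem sup_cj (c : PQ f h A F) (hH : H ≤ A) (hp : (♯H).Prime) (hne : H ≠ F) {a : G} (ha : a ∈ A) (ha' : a ∉ H) :
    H ⊔ cj a H = A := by
  refine c.sup_eq hH hp (cj_le_of_mem ha hH) (by rwa [card_cj]) fun h1 => c.not_norm hH hp hne ?_
  rw [← sup_eq_of_relIndex_prime (c.relIndex_prime hH hp) hH (zpowers_le.2 ha) (by rwa [zpowers_le])]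
  exact sup_le le_normalizer (zpowers_le.2 (mem_norm_iff_cj.2 h1.symm))

theorem card_eq (c : PQ f h A F) (hH : H ≤ A) (hp : (♯H).Prime) (hne : H ≠ F) : ♯H = h := by
  have h2 : F ⊓ H = ⊥ := (prime_inf_eq_bot_or_le c.primeF).resolve_right fun h3 =>
    hne (eq_of_le_of_card_prime hp h3 (ne_bot_of_card_prime c.primeF)).symm
  have h3 := card_sup_of_disjoint (Or.inr (hH.trans c.norm)) h2
  rw [c.sup_eq c.le c.primeF hH hp hne.symm, c.cardA, c.card] at h3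
  exact (Nat.eq_of_mul_eq_mul_left c.pf.pos h3).symm

theorem ne_of_card (c : PQ f h A F) (hH : ♯H = h) : H ≠ F := fun h1 => c.ne (by rw [← c.card, ← h1, hH])

theorem quo (c : PQ f h A F) (hA : A ≤ N⟦W⟧) (hd : A ⊓ W = ⊥) : PQ f h (quo A W) (quo F W) := by
  have h1 : ♯(H20.quo F W) = f := by
    rw [card_quo_of_disjoint (c.le.trans hA) (eq_bot_iff.2 ((inf_le_inf_right _ c.le).trans hd.le)), c.card]
  refine ⟨c.pf, c.ph, c.ne, quo_mono _ c.le, quo_norm _ c.norm, h1, ?_, by rw [← quo_commg (c.le.trans hA) hA, c.comm]⟩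
  have h2 := card_mul_relIndex (quo_mono W c.le)
  rw [card_quo_of_disjoint hA hd, c.cardA, h1] at h2
  exact Nat.eq_of_mul_eq_mul_left c.pf.pos h2

end PQ

theorem commg_eq_of_fpf (hA : A ≤ N⟦K⟧) (hcop : (♯K).Coprime (♯A)) (hs : SolOr A K) (hf : K ⊓ C⟦A⟧ = ⊥) :
    ⁅K, A⁆ = K := by
  have h1 := coprime_commg_sup_cent hA hcop hs
  rwa [hf, sup_bot_eq] at h1

theorem frob_sub (hU : IsMulCommutative U) (hD : IsMulCommutative D) (hB : (♯B).Prime) (hBD : B ≤ N⟦D⟧)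
    (hDB : (♯D).Coprime (♯B)) (hDU : D ≤ N⟦U⟧) (hBU : B ≤ N⟦U⟧) (hUD : (♯U).Coprime (♯D))
    (hf : U ⊓ C⟦B⟧ = ⊥) : ⁅D, B⁆ ≤ C⟦U⟧ := by
  by_cases h1 : ⁅D, B⁆ = ⊥
  · rw [h1]; exact bot_le
  have h2 : B ≤ N⟦⁅D, B⁆⟧ := norm_commutator hBD le_normalizer
  exact Frobenius_cent_compl_abelian (prime_frob_mk h2 h1 hB (coprime_comm_commg_inf_cent hD hBD hDB)) hU
    (sup_le ((commg_le_left hBD).trans hDU) hBU) (coprime_of_le_right hUD (commg_le_left hBD)) hf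

/-- the hyperplane lemma -/
theorem PQ.hyper (c : PQ f h A F) (hV : IsMulCommutative V) (hD : IsMulCommutative D) (hAV : A ≤ N⟦V⟧)
    (hAD : A ≤ N⟦D⟧) (hDV : D ≤ N⟦V⟧) (hVA : (♯V).Coprime (♯A)) (hDA : (♯D).Coprime (♯A))
    (hVD : (♯V).Coprime (♯D)) (hfV : V ⊓ C⟦A⟧ = ⊥) (hfD : D ⊓ C⟦A⟧ = ⊥) (hc : V ⊓ C⟦D⟧ = ⊥) (hY : Y ≤ D)
    (hi : (Y.relIndex D).Prime) (h1 : V ⊓ C⟦Y⟧ ≠ ⊥) :
    ∃ B ≤ A, (♯B).Prime ∧ ⁅D, B⁆ ≤ Y ∧ V ⊓ C⟦Y⟧ ⊓ C⟦B⟧ = ⊥ := by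
  have hDc : ∀ X ≤ D, D ≤ N⟦V ⊓ C⟦X⟧⟧ := fun X hX => norm_inf_cent hDV (le_norm_of_comm hD le_rfl hX)
  have hcj : ∀ a ∈ A, cj a (V ⊓ C⟦Y⟧) = V ⊓ C⟦cj a Y⟧ := fun a ha => by
    rw [cj_inf, cj_cent, cj_eq_of_mem_norm (hAV ha)]
  have h2 : V ⊓ C⟦Y⟧ ⊓ C⟦A ⊓ N⟦Y⟧⟧ = ⊥ := by
    refine orbit_lemma hV hAV hVA hfV inf_le_left inf_le_left fun a ha ha' => ⟨cj a Y, ?_, ?_, fun b hb => ?_⟩
    · rw [hcj a ha]; exact cent_symm inf_le_right
    · rw [inf_assoc, ← cent_sup, sup_eq_of_relIndex_prime hi hY (cj_le_of_mem_norm (hAD ha) hY)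
        fun h => ha' ⟨ha, mem_norm_of_cj_le h⟩, hc]
    · rw [hcj b hb]
      exact (cj_le_of_mem_norm (hAD ha) hY).trans (hDc _ (cj_le_of_mem_norm (hAD hb) hY))
  have key : ∀ B ≤ A, (♯B).Prime → ∀ U ≤ V ⊓ C⟦Y⟧, D ≤ N⟦U⟧ → B ≤ N⟦U⟧ → U ⊓ C⟦B⟧ = ⊥ → ¬ ⁅D, B⁆ ≤ Y → U = ⊥ := by
    intro B hB hp U hU hDU hBU hf hn
    have h3 := frob_sub (comm_of_le (hU.trans inf_le_left) hV) hD hp (hB.trans hAD) (coprime_of_le_right hDA hB)
      hDU hBU (coprime_of_le_left hVD (hU.trans inf_le_left)) hf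
    rw [eq_bot_iff, ← hc, ← sup_eq_of_relIndex_prime hi hY (commg_le_left (hB.trans hAD)) hn]
    exact le_inf (hU.trans inf_le_left) (le_cent_sup (hU.trans inf_le_right) (cent_symm h3))
  rcases c.tri (inf_le_left : A ⊓ N⟦Y⟧ ≤ A) with h3 | h3 | h3
  · rw [h3, cent_bot, inf_top_eq] at h2
    exact absurd h2 h1
  · refine ⟨_, inf_le_left, h3, ?_, h2⟩
    by_contra h4
    exact h1 (key _ inf_le_left h3 _ le_rfl (hDc Y hY) (norm_inf_cent (inf_le_left.trans hAV) inf_le_right) h2 h4)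
  · have hAY : A ≤ N⟦Y⟧ := h3.ge.trans inf_le_right
    have hDY : D ≤ N⟦Y⟧ := le_norm_of_comm hD le_rfl hY
    have h4 : ⁅D, F⁆ ≤ Y := by
      rw [← quo_le_cent_iff hDY (c.le.trans hAY), cent_comm, ← c.comm, quo_commg (c.le.trans hAY) hAY]
      exact (commutator_mono (quo_mono _ c.le) le_rfl).trans
        (der1_cent_cyclic (isCyclic_of_card_prime (by rwa [card_quo hDY])) (quo_norm _ hAD))
    refine ⟨F, c.le, c.primeF, h4, ?_⟩
    obtain ⟨H, hH, hp, hne⟩ := c.exists_H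
    have hs := c.sup_eq c.le c.primeF hH hp hne.symm
    refine key H hH hp _ inf_le_left ?_ (norm_inf_cent (norm_inf_cent (hH.trans hAV) (hH.trans hAY))
      (hH.trans c.norm)) ?_ fun h5 => ?_
    · rw [inf_assoc, ← cent_sup]
      refine norm_inf_cent hDV (norm_of_commg_le ?_)
      refine commg_sup_left_le (norm_of_le le_sup_left) (norm_of_le le_sup_right) ?_ ?_
      · exact (commg_le_left hDY).trans le_sup_left
      · rw [commutator_comm]; exact h4.trans le_sup_left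
    · rw [inf_assoc, ← cent_sup, hs, ← h2, h3]
    · have h6 : ⁅D, A⁆ ≤ Y := hs ▸ commg_sup_right_le (c.le.trans hAY) (hH.trans hAY) h4 h5
      rw [commg_eq_of_fpf hAD hDA (Or.inl c.sol) hfD, ← relIndex_eq_one] at h6
      exact hi.one_lt.ne' h6

/-- abelian form of the two layer lemma for the complement -/
theorem PQ.lemY (c : PQ f h A F) (hH : H ≤ A) (hp : (♯H).Prime) (hne : H ≠ F) (hK : IsMulCommutative K)
    (hAK : A ≤ N⟦K⟧) (hSK : S ≤ N⟦K⟧) (hAS : A ≤ N⟦S⟧) (hKA : (♯K).Coprime (♯A)) (hSA : ⁅S, A⁆ = S)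
    (hfK : K ⊓ C⟦A⟧ = ⊥) (hKS : K ⊓ C⟦S⟧ = ⊥) : K ⊓ C⟦⁅S, H⁆ ⊔ H⟧ = ⊥ := by
  have hSL : S ≤ N⟦⁅S, H⁆ ⊔ H⟧ := norm_of_commg_le (commg_sup_left_le (norm_of_le le_sup_left)
    (norm_of_le le_sup_right) ((commg_le_left (le_sup_left.trans (sup_le_norm_commg S H))).trans le_sup_left)
    (by rw [commutator_comm]; exact le_sup_left))
  have hW : S ≤ N⟦K ⊓ C⟦⁅S, H⁆ ⊔ H⟧⟧ := norm_inf_cent hSK hSL
  have h1 := orbit_lemma (W := K ⊓ C⟦⁅S, H⁆ ⊔ H⟧) hK hAK hKA hfK inf_le_left hH fun a ha ha' =>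
    ⟨cj a ⁅S, H⁆, cent_cj a (cent_symm (inf_le_right.trans (cent_anti le_sup_left))), ?_, fun b hb => ?_⟩
  · rwa [inf_eq_left.2 (inf_le_right.trans (cent_anti le_sup_right))] at h1
  · rw [cj_commutator, cj_eq_of_mem_norm (hAS ha), eq_bot_iff, ← hKS]
    refine le_inf (inf_le_left.trans inf_le_left) (cent_symm ?_)
    generalize hW0 : K ⊓ C⟦⁅S, H⁆ ⊔ H⟧ ⊓ C⟦⁅S, cj a H⁆⟧ = W₀
    have h2 : ⁅S, H⁆ ≤ S ⊓ C⟦W₀⟧ := le_inf (commg_le_left (hH.trans hAS))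
      (cent_symm (hW0.ge.trans (inf_le_left.trans (inf_le_right.trans (cent_anti le_sup_left)))))
    have h3 : ⁅S, cj a H⁆ ≤ S ⊓ C⟦W₀⟧ := le_inf (commg_le_left ((cj_le_of_mem ha hH).trans hAS))
      (cent_symm (hW0.ge.trans inf_le_right))
    have h4 := commg_sup_right_le (norm_of_commg_le_of_le inf_le_left h2) (norm_of_commg_le_of_le inf_le_left h3) h2 h3
    rw [c.sup_cj hH hp hne ha ha', hSA] at h4
    exact h4.trans inf_le_right
  · refine (cj_le_of_mem_norm (hAS ha) (commg_le_left (hH.trans hAS))).trans ?_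
    rw [← cj_eq_of_mem_norm (hAS hb)]
    exact norm_cj b (by rwa [cj_eq_of_mem_norm (hAS hb)])

end Cfsg.Agent.H26
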