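import Cfsg.Agent.H26.PQ1

/-! Fixed point free action of a nonabelian group of order `pq`: the three layer lemma. -/

set_option autoImplicit false
set_option linter.style.haveILetI false

namespace Cfsg.Agent.H26

open Subgroup Cfsg.Agent.H20 Cfsg.Agent.H21 Cfsg.Agent.BG Cfsg.Agent.H25
open scoped commutatorElement IsMulCommutative

variable {G : Type*} [Group G] [Finite G] {A B D F H K M Q S T U V W X Y Z Z₀ : Subgroup G} {f h q r : ℕ}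

theorem exists_hyper [hq : Fact q.Prime] (hD : IsElementaryAbelian q D) (hDV : D ≤ N⟦V⟧)
    (hcop : (♯V).Coprime (♯D)) (h1 : V ≠ ⊥) (hc : V ⊓ C⟦D⟧ = ⊥) :
    ∃ Y ≤ D, (Y.relIndex D).Prime ∧ V ⊓ C⟦Y⟧ ≠ ⊥ := by
  obtain ⟨Y, hY, hY1, hY2⟩ : ∃ Y ≤ D, IsCyclic (quo D Y) ∧ ¬ V ⊓ C⟦Y⟧ ≤ ⊥ := by
    by_contra h
    push Not at h
    exact h1 (eq_bot_iff.2 (coprime_abelian_gen_cent hD.1 hDV hcop h))
  refine ⟨Y, hY, ?_, fun h => hY2 h.le⟩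
  have h2 := card_dvd_of_elem_cyclic (elem_quo hD Y) hY1
  rw [card_quo (le_norm_of_comm hD.1 le_rfl hY)] at h2
  rw [((Nat.dvd_prime hq.out).1 h2).resolve_left fun h => hY2 (hc ▸ inf_le_inf_left _
    (cent_anti (relIndex_eq_one.1 h)))]
  exact hq.out

theorem cent_le_der (hT : T ≤ N⟦K⟧) (hcop : (♯K).Coprime (♯T)) (hs : SolOr T K) (h : ⁅K, T⁆ = K) :
    K ⊓ C⟦T⟧ ≤ ⁅K, K⁆ := by
  have h1 : K ≤ N⟦⁅K, K⁆⟧ := norm_der le_normalizer
  have h2 : T ≤ N⟦⁅K, K⁆⟧ := norm_der hT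
  rw [← quo_eq_bot_iff (inf_le_left.trans h1), coprime_quo_cent' h1 h2 hT hcop hs]
  have h3 := coprime_comm_commg_inf_cent (quo_der_comm K) (quo_norm _ hT) (coprime_quo_quo hcop _)
  rwa [← quo_commg h1 h2, h] at h3

theorem commg_inf_cent_le (hB : B ≤ N⟦S⟧) (hcop : (♯S).Coprime (♯B)) (hs : SolOr B S) (hW : ⁅S, S⁆ ≤ W)
    (hSW : S ≤ N⟦W⟧) (hBW : B ≤ N⟦W⟧) : ⁅S, B⁆ ⊓ C⟦B⟧ ≤ W := by
  have h0 := commg_le_left hB
  rw [← quo_eq_bot_iff (inf_le_left.trans (h0.trans hSW)), coprime_quo_cent' (h0.trans hSW) hBW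
    (norm_commutator hB le_normalizer) (coprime_of_le_left hcop h0) (hs.of_le le_rfl h0), quo_commg hSW hBW]
  exact coprime_comm_commg_inf_cent ((quo_comm_iff hSW).2 hW) (quo_norm _ hB) (coprime_quo_quo hcop _)

/-- a Frobenius section over a class two group -/
theorem lemW [hr : Fact r.Prime] [hq : Fact q.Prime] (hU : IsElementaryAbelian r U) (hK : IsPGroup q K)
    (hB : (♯B).Prime) (hKU : K ≤ N⟦U⟧) (hBU : B ≤ N⟦U⟧) (hBK : B ≤ N⟦K⟧) (hTK : T ≤ N⟦K⟧) (hBT : B ≤ N⟦T⟧)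
    (hKB : (♯K).Coprime (♯B)) (hKT : (♯K).Coprime (♯T)) (hTB : (♯T).Coprime (♯B)) (hKr : (♯K).Coprime r)
    (hBr : (♯B).Coprime r) (hKT' : ⁅K, T⁆ = K) (hcl : ⁅K, K⁆ ≤ C⟦K⟧) (hcT : ⁅K, K⁆ ≤ C⟦T⟧)
    (hreg : T ⊓ C⟦B⟧ ≤ C⟦K⟧) (hf : U ⊓ C⟦B⟧ = ⊥) : ⁅K, K⁆ ≤ C⟦U⟧ := by
  by_contra hcon
  have hBc := comm_of_cyclic (isCyclic_of_card_prime hB)
  have hsK := sol_of_pgroup hK
  obtain ⟨B', N, Z, m, ψ, hB', h, -, -, hN, -, h0, -⟩ := exists_comp hU hKU hBU hBK hBc hKB hKr hBr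
    (by rw [commg_eq_bot.2 hcl]; exact bot_le) (NormalIn.der_self K) (NormalIn.bot K)
    (fun h => hcon (cent_symm (by simpa [cent_bot] using h)))
  replace h0 := h0 hf
  obtain rfl := eq_of_le_of_card_prime hB hB' (h.ne_bot h0)
  have hKZ : ¬ K ≤ Z := fun h' => hN ((commutator_mono h' le_rfl).trans h.centK)
  have h1 := wielandt_section h.normalZ hsK hTK hBK (h.normZ_of hTK (by rw [commg_eq_bot.2 hcT]; exact bot_le))
    h.normZR hBT hBc (ne_bot_of_card_prime hB) hKT hKB hTB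
    (fun x hx hx1 => by rwa [cent1_eq_of_card_prime hB hx hx1])
    ((cent_le_der hTK hKT (Or.inr hsK) hKT').trans h.der_le)
  rw [← h.sq] at h1
  refine not_sq_eq_pow hB (h.one_lt hKZ) h1 ?_
  have h2 : ♯(Z ⊔ K ⊓ C⟦B'⟧ : Subgroup G) = ♯Z * Z.relIndex (K ⊓ C⟦B'⟧) := by
    rw [← card_mul_relIndex (le_sup_left : Z ≤ Z ⊔ K ⊓ C⟦B'⟧),
      relIndex_sup_of_norm' (Or.inr (inf_le_left.trans h.normZK))]
  generalize Z.relIndex (K ⊓ C⟦B'⟧) = c at *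
  have h3 := h.le_of_sum h0 (c := √c) fun x hx hx1 => by
    have h3 := h.bound x hx (Z ⊔ K ⊓ C⟦B'⟧) fun k hk h3 => centQuo_le_sup h.normalZ h.normZR hKB
      (Or.inr hsK) ⟨hk, (mem_centQuo (h.normZK hk) h.normZR).2 fun t ht =>
        commg_mem_of_zpowers (h.normZK hk) (h.normZR hx) h3 (le_zpowers_of_prime hB x hx hx1 ht)⟩
    rw [h2, Nat.cast_mul, mul_le_mul_iff_right₀ (by exact_mod_cast card_pos Z)] at h3
    exact Real.le_sqrt_of_sq_le h3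
  have h4 := pow_le_pow_left₀ (Nat.cast_nonneg m) h3 2
  rw [mul_pow, Real.sq_sqrt (Nat.cast_nonneg c), ← Nat.cast_pred hB.pos] at h4
  exact_mod_cast h4

/-- fixed points of the normal closure of a subgroup of prime order -/
theorem PQ.star2 (c : PQ f h A F) (hm : MinAct ⊥ (S ⊔ A) S K Z₀) (hAS : A ≤ N⟦S⟧) (hsK : Group.IsSolvable K)
    (hKA : (♯K).Coprime (♯A)) (hSA : (♯S).Coprime (♯A)) (hKS : (♯K).Coprime (♯S)) (hfK : K ⊓ C⟦A⟧ = ⊥)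
    (hfS : S ⊓ C⟦A⟧ = ⊥) (hmin : ∀ E < S, A ≤ N⟦E⟧ → E ≤ C⟦K⟧) (hB : B ≤ A) (hp : (♯B).Prime) :
    K ⊓ C⟦⁅S, B⁆ ⊔ B⟧ ≤ Z₀ := by
  have hAK := le_sup_right.trans hm.norm
  have hSK := le_sup_left.trans hm.norm
  have hSK' : ¬ S ≤ C⟦K⟧ := fun h => hm.lt.ne_bot (by rw [← hm.commg, commg_eq_bot'.2 h])
  by_cases hBF : B = F
  · subst hBF
    rcases (commg_le_left (hB.trans hAS)).eq_or_lt with h1 | h1
    · rw [h1]
      exact (inf_le_inf_left _ (cent_anti le_sup_left)).trans hm.cent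
    have h2 := hmin _ h1 (norm_commutator hAS c.norm)
    have h3 : S ≤ C⟦B⟧ := by
      by_contra h3
      have h4 := hmin _ (lt_of_le_of_ne inf_le_left fun h => h3 (h.ge.trans inf_le_right)) (norm_inf_cent hAS c.norm)
      exact hSK' ((coprime_commg_sup_cent (hB.trans hAS) (coprime_of_le_right hSA hB)
        (Or.inl (sol_of_card_prime hp))).ge.trans (sup_le h2 h4))
    refine (inf_le_inf_left _ (cent_anti le_sup_right)).trans (hm.max _ (lt_of_le_of_ne inf_le_left fun h4 => ?_)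
      (norm_inf_cent hm.norm (sup_le (norm_of_cent h3) c.norm)))
    obtain ⟨H, hH, hpH, hne⟩ := c.exists_H
    have h5 : (K ⊔ S) ⊓ C⟦A⟧ = ⊥ := by
      rw [coprime_sup_inf_cent hSK hAK hAS hKA (Or.inl c.sol), hfK, hfS, sup_bot_eq]
    have h6 : (K ⊔ S) ⊓ C⟦H⟧ = ⊥ := by
      rw [eq_bot_iff, ← h5, ← c.sup_eq c.le hp hH hpH hne.symm]
      exact le_inf inf_le_left (le_cent_sup (inf_le_left.trans (sup_le (h4.ge.trans inf_le_right) h3)) inf_le_right)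
    exact hSK' (cent_of_nil_coprime (prime_Frobenius_kernel_nil (hH.trans (norm_sup hAK hAS)) hpH h6) le_sup_right
      le_sup_left hKS.symm)
  · have hAZ := le_sup_right.trans hm.normZ
    have hSZ := le_sup_left.trans hm.normZ
    have hKZ := hm.normalZ.norm
    have hd : A ⊓ Z₀ = ⊥ := inf_eq_bot_coprime (coprime_of_le_left hKA hm.lt.le).symm
    have hBc : ♯(H20.quo B Z₀) = ♯B :=
      card_quo_of_disjoint (hB.trans hAZ) (eq_bot_iff.2 ((inf_le_inf_right _ hB).trans hd.le))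
    have h1 := (c.quo hAZ hd).lemY (H := H20.quo B Z₀) (K := H20.quo K Z₀) (S := H20.quo S Z₀) (quo_mono _ hB)
      (hBc ▸ hp) ((c.quo hAZ hd).ne_of_card (hBc.trans (c.card_eq hB hp hBF))) ((quo_comm_iff hKZ).2 hm.der)
      (quo_norm _ hAK) (quo_norm _ hSK) (quo_norm _ hAS) (coprime_quo_quo hKA _)
      (by rw [← quo_commg hSZ hAZ, commg_eq_of_fpf hAS hSA (Or.inl c.sol) hfS])
      (by rw [← coprime_quo_cent' hKZ hAZ hAK hKA (Or.inl c.sol), hfK, quo_bot])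
      (by rw [← coprime_quo_cent' hKZ hSZ hSK hKS (Or.inr hsK), quo_eq_bot hm.cent])
    rw [← quo_commg hSZ (hB.trans hAZ), ← quo_sup ((commg_le_left (hB.trans hAS)).trans hSZ) (hB.trans hAZ)] at h1
    rw [← quo_eq_bot_iff (inf_le_left.trans hKZ), eq_bot_iff, ← h1]
    exact quo_inf_cent_le

/-- the abelian case -/
theorem PQ.abel (c : PQ f h A F) (hAS : A ≤ N⟦S⟧) (hsS : Group.IsSolvable S) (hSK : S ≤ N⟦K⟧) (hAK : A ≤ N⟦K⟧)
    (hSA : (♯S).Coprime (♯A)) (hKA : ⁅K, A⁆ = K) (hY : Y ⊴ K) (hY' : ¬ K ≤ Y)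
    (h0 : ∀ t ∈ S, ∃ B ≤ A, (♯B).Prime ∧ ⁅K, B⁆ ≤ cj t Y) :
    ∃ B ≤ A, (♯B).Prime ∧ ⁅K, ⁅S, B⁆ ⊔ B⁆ ≤ Y := by
  have h3 : ∀ U : Subgroup G, U ≤ centQuo K Y ↔ ⁅K, U⁆ ≤ Y := fun U =>
    ⟨fun h => (le_centQuo_of_commg (h.trans (cospre_le_norm _)) hY.norm).1 h,
      fun h => (le_centQuo_of_commg (norm_of_commg_le_of_le hY.le h) hY.norm).2 h⟩
  obtain ⟨B, hB, hp, h1⟩ := h0 1 (one_mem _)
  rw [cj_one, ← h3] at h1
  refine ⟨B, hB, hp, (h3 _).1 (sup_le ?_ h1)⟩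
  have h4 : ∀ t ∈ S, cj t⁻¹ B ≤ centQuo K Y := fun t ht => by
    obtain ⟨B', hB', hp', h2⟩ := h0 t ht
    rw [le_cj_iff, cj_commutator, cj_eq_of_mem_norm (hSK (inv_mem ht)), ← h3] at h2
    by_cases hBB : B = B'
    · rwa [hBB]
    exfalso
    have hsol : Group.IsSolvable ↥(S ⊔ A) := sol_sup hsS c.sol (Or.inr hAS)
    have hA1 : IsPiHallOf (primesOf A) A (S ⊔ A) :=
      Hall.of_compl' (Compl.of_norm (Or.inr hAS) rfl (inf_eq_bot_coprime hSA))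
        (isPi_compl_primesOf_iff.2 hSA) (isPi_primesOf A)
    have hM : (S ⊔ A) ⊓ centQuo K Y ⊔ S = S ⊔ A := by
      refine le_antisymm (sup_le inf_le_left le_sup_left) (sup_le le_sup_right ?_)
      rw [← c.sup_eq hB hp hB' hp' hBB]
      refine sup_le (le_sup_of_le_left (le_inf (hB.trans (by rw [c.sup_eq hB hp hB' hp' hBB]; exact le_sup_right)) h1)) ?_
      rw [← cj_cj_inv t B']
      refine cj_le_of_mem (mem_sup_right ht) (le_sup_of_le_left (le_inf ?_ h2))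
      rw [cj_cj_inv, c.sup_eq hB hp hB' hp' hBB]
      exact cj_le_of_mem (mem_sup_left (inv_mem ht)) (hB'.trans le_sup_right)
    obtain ⟨A₁, hA₁⟩ := exists_hall (primesOf A) (sol_of_le hsol (inf_le_left : (S ⊔ A) ⊓ centQuo K Y ≤ _))
    have hA2 := hA₁.trans_relIndex inf_le_left (by
      conv => enter [2, 2]; rw [← hM]
      rw [relIndex_sup_of_norm' (Or.inl (inf_le_left.trans (sup_le le_normalizer hAS)))]
      exact (isPi_compl_primesOf_iff.2 hSA).relIndex _)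
    obtain ⟨g, hg, hg1⟩ := hA2.sol_exists_cj_eq hsol hA1
    have h5 : ⁅K, A₁⁆ ≤ Y := (h3 _).1 (hA₁.le.trans inf_le_right)
    have hgK := cj_eq_of_mem_norm ((sup_le hSK hAK : S ⊔ A ≤ _) hg)
    rw [← cj_le_cj (g := g), cj_commutator, hg1, hgK, hKA] at h5
    exact hY' (by rwa [← hgK, cj_le_cj] at h5)
  refine commutator_le.2 fun t ht b hb => ?_
  have h5 := h4 t⁻¹ (inv_mem ht) (conj_mem_cj_of_mem hb _)
  rw [inv_inv] at h5
  exact mul_mem h5 (inv_mem (h1 hb))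

theorem elem_der [Fact q.Prime] (hK : IsPGroup q K) (h1 : frattiniOf K ≤ C⟦K⟧) : IsElementaryAbelian q ⁅K, K⁆ := by
  have h2 : ⁅K, K⁆ ≤ C⟦K⟧ := (der_le_frattiniOf (nilpotent_of_pgroup hK)).trans h1
  have hc : IsMulCommutative ↥⁅K, K⁆ := comm_iff_le_cent.2 (h2.trans (cent_anti (H21.der_le K)))
  refine ⟨hc, fun x hx => ?_⟩
  let E : Subgroup G :=
    { carrier := {x | x ∈ ⁅K, K⁆ ∧ x ^ q = 1}
      mul_mem' := fun {a b} ha hb => ⟨mul_mem ha.1 hb.1, by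
        rw [Commute.mul_pow (comm_iff.1 hc a ha.1 b hb.1), ha.2, hb.2, one_mul]⟩
      one_mem' := ⟨one_mem _, one_pow _⟩
      inv_mem' := fun {a} ha => ⟨inv_mem ha.1, by rw [inv_pow, ha.2, inv_one]⟩ }
  have h3 : ⁅K, K⁆ ≤ E := commutator_le.2 fun a ha b hb => ⟨commutator_mem_commutator ha hb, by
    have h4 : ∀ n : ℕ, ⁅a, b⁆ ^ n = ⁅a ^ n, b⁆ := fun n => by
      induction n with
      | zero => simp
      | succ n ih =>
        have h5 := mem_cent.1 (h2 (commutator_mem_commutator ha hb)) (a ^ n) (pow_mem ha n)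
        rw [pow_succ', ih, pow_succ]
        calc ⁅a, b⁆ * ⁅a ^ n, b⁆ = (⁅a, b⁆ * a ^ n) * (b * (a ^ n)⁻¹ * b⁻¹) := by
              simp only [commutatorElement_def, mul_assoc]
          _ = ⁅a ^ n * a, b⁆ := by rw [← h5]; simp only [commutatorElement_def]; group
    rw [h4, commutatorElement_eq_one_iff_mul_comm]
    exact (mem_cent.1 (h1 (pow_mem_frattiniOf hK ha)) b hb).symm⟩
  exact (h3 hx).2

theorem PQ.three_layer (c : PQ f h A F) [hr : Fact r.Prime] [hq : Fact q.Prime]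
    (hV : IsElementaryAbelian r V) (hQV : Q ≤ N⟦V⟧)
    (hAV : A ≤ N⟦V⟧) (hDV : D ≤ N⟦V⟧) (hAQ : A ≤ N⟦Q⟧) (hDQ : D ≤ N⟦Q⟧) (hAD : A ≤ N⟦D⟧) (hQ : IsPGroup q Q)
    (hqr : q ≠ r) (hDA : (♯D).Coprime (♯A)) (hDq : (♯D).Coprime q) (hAq : (♯A).Coprime q)
    (hAr : (♯A).Coprime r) (hf : Q ⊓ C⟦V⟧ = ⊥) (hfV : V ⊓ C⟦A⟧ = ⊥) (hfQ : Q ⊓ C⟦A⟧ = ⊥)
    (hfD : D ⊓ C⟦A⟧ = ⊥) : D ≤ C⟦Q⟧ := by
  by_contra hcon
  obtain ⟨S, ⟨hSD, hAS, hSQ⟩, hmin⟩ := (Set.toFinite {S : Subgroup G | S ≤ D ∧ A ≤ N⟦S⟧ ∧ ¬ S ≤ C⟦Q⟧}).exists_minimal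
    ⟨D, le_rfl, hAD, hcon⟩
  have hSA := coprime_of_le_left hDA hSD
  have hSq := coprime_of_le_left hDq hSD
  have hsA : ∀ U : Subgroup G, SolOr A U := fun U => Or.inl c.sol
  have hmin0 : ∀ E < S, A ≤ N⟦E⟧ → E ≤ C⟦Q⟧ := fun E hE hAE => by
    by_contra h
    exact hE.not_ge (hmin ⟨hE.le.trans hSD, hAE, h⟩ hE.le)
  obtain ⟨s, hs, hS⟩ := exists_pgroup_of_max hAS hSA (hsA S) hSQ hmin0
  haveI := Fact.mk hs
  obtain ⟨K, Z₀, hK, hm⟩ := exists_minAct (C := ⊥) (sup_le (hSD.trans hDQ) hAQ) le_sup_left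
    (sup_le le_normalizer hAS) (by simp) (by simp) (coprime_of_isPGroup hQ hSq) (sol_of_pgroup hQ)
    fun h => hSQ (commg_eq_bot'.1 (eq_bot_iff.2 h))
  have hKq := hQ.to_le hK
  have hAK := le_sup_right.trans hm.norm
  have hSK := le_sup_left.trans hm.norm
  have hKA := coprime_of_isPGroup hKq hAq
  have hKS := coprime_of_isPGroup hKq hSq
  have hKr := coprime_of_isPGroup hKq ((Nat.coprime_primes hr.out hq.out).2 hqr.symm)
  have hmin1 : ∀ E < S, A ≤ N⟦E⟧ → E ≤ C⟦K⟧ := fun E hE hAE => (hmin0 E hE hAE).trans (cent_anti hK)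
  have hS1 : S ≠ ⊥ := by rintro rfl; simp at hSQ
  have hfS : S ⊓ C⟦A⟧ = ⊥ := eq_bot_iff.2 ((inf_le_inf_right _ hSD).trans hfD.le)
  have hfK : K ⊓ C⟦A⟧ = ⊥ := eq_bot_iff.2 ((inf_le_inf_right _ hK).trans hfQ.le)
  have hsK := sol_of_pgroup hKq
  have hstar := fun B => c.star2 (B := B) hm hAS hsK hKA hSA hKS hfK hfS hmin1
  have hKV := hK.trans hQV
  have hSV := hSD.trans hDV
  have hVK : (♯V).Coprime (♯K) := coprime_of_isPGroup (isPGroup_of_elem hV) hKr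
  have hVA : (♯V).Coprime (♯A) := coprime_of_isPGroup (isPGroup_of_elem hV) hAr
  have hLK : ∀ B ≤ A, ⁅S, B⁆ ⊔ B ≤ N⟦K⟧ := fun B hB =>
    sup_le ((commg_le_left (hB.trans hAS)).trans hSK) (hB.trans hAK)
  have hLc : ∀ B ≤ A, (♯K).Coprime (♯(⁅S, B⁆ ⊔ B : Subgroup G)) := fun B hB =>
    coprime_sup_right (coprime_of_le_right hKS (commg_le_left (hB.trans hAS))) (coprime_of_le_right hKA hB)
      (Or.inr (norm_commutator (hB.trans hAS) le_normalizer))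
  -- hyperplanes
  have hyp : ∀ E ≤ K, IsElementaryAbelian q E → E ≠ ⊥ → A ≤ N⟦E⟧ → ∃ Y ≤ E, (Y.relIndex E).Prime ∧
      ⁅V, E⁆ ⊓ C⟦E⟧ = ⊥ ∧ ⁅V, E⁆ ⊓ C⟦Y⟧ ≠ ⊥ ∧ ∀ Y ≤ E, (Y.relIndex E).Prime → ⁅V, E⁆ ⊓ C⟦Y⟧ ≠ ⊥ →
        ∃ B ≤ A, (♯B).Prime ∧ ⁅E, B⁆ ≤ Y ∧ ⁅V, E⁆ ⊓ C⟦Y⟧ ⊓ C⟦B⟧ = ⊥ := by
    intro E hE he hE1 hAE
    have h1 := commg_le_left (hE.trans hKV)
    have h2 := coprime_comm_commg_inf_cent hV.1 (hE.trans hKV) (coprime_of_le_right hVK hE)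
    have h3 : E ≤ N⟦⁅V, E⁆⟧ := norm_commutator (hE.trans hKV) le_normalizer
    obtain ⟨Y, hY, h4, h5⟩ := exists_hyper he h3 (coprime_of_le hVK h1 hE)
      (fun h => hE1 (eq_bot_iff.2 (hf ▸ le_inf (hE.trans hK) (commg_eq_bot'.1 h)))) h2
    exact ⟨Y, hY, h4, h2, h5, fun Y hY h6 h7 => c.hyper (comm_of_le h1 hV.1) he.1 (norm_commutator hAV hAE) hAE h3
      (coprime_of_le_left hVA h1) (coprime_of_le_left hKA hE) (coprime_of_le hVK h1 hE)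
      (eq_bot_iff.2 ((inf_le_inf_right _ h1).trans hfV.le)) (eq_bot_iff.2 ((inf_le_inf_right _ hE).trans hfK.le))
      h2 hY h6 h7⟩
  by_cases hab : ⁅K, K⁆ = ⊥
  · have hc := der_eq_bot_iff.1 hab
    have hZ0 : Z₀ = ⊥ := by
      rw [eq_bot_iff, ← coprime_comm_commg_inf_cent hc hSK hKS, hm.commg]
      exact le_inf hm.lt.le (commg_eq_bot.1 (eq_bot_iff.2 hm.commX))
    have he := elem_of_frattiniOf_eq_bot hKq (eq_bot_iff.2 (hZ0 ▸ hm.frattini_le))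
    obtain ⟨Y, hY, h1, -, h2, h3⟩ := hyp K le_rfl he hm.lt.ne_bot hAK
    have hY3 : ¬ K ≤ Y := fun h => h1.one_lt.ne' (relIndex_eq_one.2 h)
    obtain ⟨B, hB, hp, h4⟩ := c.abel hAS (sol_of_pgroup hS) hSK hAK hSA (commg_eq_of_fpf hAK hKA (hsA K) hfK)
      (NormalIn.of_comm hc hY) hY3 fun t ht => by
        have htK := cj_eq_of_mem_norm (hSK ht)
        obtain ⟨B, hB, hp, h4, -⟩ := h3 (cj t Y) (htK ▸ cj_mono t hY) (by rwa [← htK, relIndex_cj]) (by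
          rwa [← cj_eq_of_mem_norm (norm_commutator hSV hSK ht), ← cj_cent, ← cj_inf, Ne, cj_eq_bot])
        exact ⟨B, hB, hp, h4⟩
    rw [commg_eq_of_fpf (hLK B hB) (hLc B hB) (Or.inr hsK) (eq_bot_iff.2 (hZ0 ▸ hstar B hB hp))] at h4
    exact hY3 h4
  have hZK : Z₀ ≤ C⟦K⟧ := commg_eq_bot.1 (eq_bot_iff.2 hm.commK)
  have hcl : ⁅K, K⁆ ≤ C⟦K⟧ := hm.der.trans hZK
  have hSc : ⁅K, K⁆ ≤ C⟦S⟧ := hm.der.trans (commg_eq_bot.1 (eq_bot_iff.2 hm.commX))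
  obtain ⟨Y, hY, h1, h2, h3, h4⟩ := hyp _ (H21.der_le K) (elem_der hKq (hm.frattini_le.trans hZK)) hab (norm_der hAK)
  obtain ⟨B, hB, hp, h5, h6⟩ := h4 Y hY h1 h3
  have hU : IsElementaryAbelian r (⁅V, ⁅K, K⁆⁆ ⊓ C⟦Y⟧) :=
    elem_of_le hV (inf_le_left.trans (commg_le_left ((H21.der_le K).trans hKV)))
  have hKU : K ≤ N⟦⁅V, ⁅K, K⁆⁆ ⊓ C⟦Y⟧⟧ :=
    norm_inf_cent (norm_commutator hKV (norm_der le_normalizer)) (norm_of_cent (cent_symm (hY.trans hcl)))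
  have hBU : B ≤ N⟦⁅V, ⁅K, K⁆⁆ ⊓ C⟦Y⟧⟧ :=
    norm_inf_cent (hB.trans (norm_commutator hAV (norm_der hAK))) (norm_of_commg_le_of_le hY h5)
  have hU1 : ¬ ⁅V, ⁅K, K⁆⁆ ⊓ C⟦Y⟧ ≤ C⟦⁅K, K⁆⟧ := fun h => h3 (eq_bot_iff.2 (h2 ▸ le_inf inf_le_left h))
  generalize ⁅V, ⁅K, K⁆⁆ ⊓ C⟦Y⟧ = U at *
  have hBK := hB.trans hAK
  have hBS := hB.trans hAS
  have hKB := coprime_of_le_right hKA hB
  have hBr := coprime_of_le_left hAr hB
  have hSB := coprime_of_le_right hSA hB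
  obtain ⟨B', N, Z, m, ψ, hB', h, -, hN0, hN, -, h0, -⟩ := exists_comp hU hKU hBU hBK
    (comm_of_cyclic (isCyclic_of_card_prime hp)) hKB hKr hBr (by rw [commg_eq_bot.2 hcl]; exact bot_le)
    (NormalIn.der_self K) (NormalIn.bot K) (by simpa [cent_bot] using hU1)
  replace h0 := h0 h6
  obtain rfl := eq_of_le_of_card_prime hp hB' (h.ne_bot h0)
  have hKZ : ¬ K ≤ Z := fun h' => hN ((commutator_mono h' le_rfl).trans h.centK)
  have hZ0 : Z₀ ≤ Z := hm.le_Z h.toSym (by simp)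
  have hSZ : S ≤ N⟦Z⟧ := h.normZ_of hSK (by rw [commg_eq_bot.2 hSc]; exact bot_le)
  have hT := commg_le_left hBS
  have hTK := hT.trans hSK
  have hBT : B' ≤ N⟦⁅S, B'⁆⟧ := norm_commutator hBS le_normalizer
  have hKT := coprime_of_le_right hKS hT
  have h7 : ⁅S, B'⁆ ⊓ C⟦B'⟧ ≤ C⟦K⟧ := (commg_inf_cent_le (W := S ⊓ C⟦K⟧) hBS hSB (Or.inl (sol_of_card_prime hp))
    (le_inf (H21.der_le S) (hmin1 _ (der_lt_of_sol (sol_of_pgroup hS) hS1) (norm_der hAS)))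
    (norm_inf_cent le_normalizer hSK) (norm_inf_cent hBS hBK)).trans inf_le_right
  have hK3 := commg_le_left hTK
  have h8 := lemW hU (hKq.to_le hK3) hp (hK3.trans hKU) hBU (norm_commutator hBK hBT)
    (norm_commutator hTK le_normalizer) hBT (coprime_of_le_left hKB hK3) (coprime_of_le_left hKT hK3)
    (coprime_of_le_left hSB hT) (coprime_of_le_left hKr hK3) hBr (coprime_commg_commg hTK hKT)
    ((der_mono hK3).trans (hcl.trans (cent_anti hK3))) ((der_mono hK3).trans (hSc.trans (cent_anti hT)))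
    (h7.trans (cent_anti hK3)) h6
  have h9 : ⁅⁅K, ⁅S, B'⁆⁆, K ⊓ C⟦⁅S, B'⁆⟧⁆ ≤ ⊥ := by
    refine three_subgroup_le (by simp) (by simp) (by simp) ?_ ?_
    · rw [commg_eq_bot'.2 inf_le_right, commutator_bot_left]
    · exact (commg_eq_bot.2 ((commg_le_der inf_le_left le_rfl).trans (hSc.trans (cent_anti hT)))).le
  have h10 : ⁅K, ⁅S, B'⁆⁆ ≤ Z := fun k hk => h.rad k (hK3 hk) fun y hy => by
    have := commg_sup_right_le (hK3.trans h.normNK) (inf_le_left.trans h.normNK)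
      ((le_inf ((H21.der_le _).trans hK3) h8).trans hN0) (h9.trans bot_le)
    rw [coprime_commg_sup_cent hTK hKT (Or.inr hsK)] at this
    exact this (commutator_mem_commutator hk hy)
  have hLZ : ⁅S, B'⁆ ⊔ B' ≤ N⟦Z⟧ := sup_le (hT.trans hSZ) h.normZR
  have h11 : K ⊓ C⟦B'⟧ ≤ Z := by
    refine le_trans (le_inf inf_le_left ((le_centQuo_of_commg (inf_le_left.trans h.normZK) hLZ).2 ?_))
      ((centQuo_le_sup h.normalZ hLZ (hLc _ hB) (Or.inr hsK)).trans (sup_le le_rfl ((hstar _ hB hp).trans hZ0)))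
    refine commg_sup_left_le (hT.trans hSZ) h.normZR ?_ ?_
    · rw [commutator_comm]; exact (commutator_mono inf_le_left le_rfl).trans h10
    · rw [commg_eq_bot'.2 inf_le_right]; exact bot_le
  obtain ⟨-, n, h12, rfl⟩ := h.fermat h0 hBK hp hKB hKq h11 hKZ
  haveI := Fact.mk hp
  have h13 := ward_fermat (S := S ⊓ C⟦B'⟧) h.toSym rfl h12 (Nat.pos_of_ne_zero (by
      rintro rfl
      simpa using h.one_lt hKZ)) h.sq hBK (hS.to_le inf_le_left) (cent_symm inf_le_right) (inf_le_left.trans hSK)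
    (hSc.trans (cent_anti inf_le_left)) hKB (coprime_of_le_right hKS inf_le_left) (coprime_of_le_left hSB inf_le_left)
    (fun t ht => hmin1 _ (frattiniOf_lt hS1) (norm_frattiniOf hAS) (pow_mem_frattiniOf hS ht.1))
    (reg_of_cent_le h.normalZ h.normZR (le_zpowers_of_prime hp) hKB (Or.inr hsK) h11)
  have h14 := commg_sup_right_le (hT.trans hSZ) (inf_le_left.trans hSZ) h10 h13
  rw [coprime_commg_sup_cent hBS hSB (Or.inl (sol_of_card_prime hp)), hm.commg] at h14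
  exact hKZ h14

end Cfsg.Agent.H26
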