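import Cfsg.Agent.H26.PQ2
import Cfsg.Agent.H25.Comp7

/-! Fixed point free action of a nonabelian group of order `pq`: Fitting height. -/

set_option autoImplicit false
set_option linter.style.haveILetI false

namespace Cfsg.Agent.H26

open Subgroup Cfsg.Agent.H20 Cfsg.Agent.H21 Cfsg.Agent.BG Cfsg.Agent.H25
open scoped commutatorElement IsMulCommutative

universe u

section
variable {G : Type*} [Group G] [Finite G] {A B D E F H K M Q S T U V W X Y Z Z₀ : Subgroup G} {f h q r : ℕ}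

theorem exists_PQ (hf : f.Prime) (hh : h.Prime) (hlt : h < f) (hA : ♯A = f * h) (hn : ¬ IsMulCommutative A) :
    ∃ F, PQ f h A F := by
  obtain ⟨F, hF, h1⟩ := exists_prime_subgroup (A := A) hf (by rw [hA]; exact dvd_mul_right _ _)
  have h2 : F.relIndex A = h := by
    have := card_mul_relIndex hF
    rw [hA, h1] at this
    exact Nat.eq_of_mul_eq_mul_left hf.pos this
  have h3 : F ⊴ A := normalIn_of_index_minFac hF (by
    rw [h2, hA]
    refine le_antisymm ?_ (Nat.minFac_le_of_dvd hh.two_le (dvd_mul_left _ _))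
    have h3 := Nat.minFac_prime (n := f * h) (by have := hf.one_lt; have := hh.one_lt; nlinarith)
    rcases h3.dvd_mul.1 (Nat.minFac_dvd _) with h4 | h4
    · rw [(Nat.prime_dvd_prime_iff_eq h3 hf).1 h4]; exact hlt.le
    · rw [(Nat.prime_dvd_prime_iff_eq h3 hh).1 h4])
  refine ⟨F, hf, hh, hlt.ne', hF, h3.norm, h1, h2,
    eq_of_le_of_card_prime (h1 ▸ hf) (commg_le_left h3.norm) fun h4 => hn ?_⟩
  exact comm_of_quo_cyclic (le_centerOf hF (commg_eq_bot.1 h4))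
    (isCyclic_of_card_prime (by rw [card_quo h3.norm, h2]; exact hh))

/-- homomorphic images of `PQ` groups -/
structure PQ' (f h : ℕ) (A F : Subgroup G) : Prop where
  pf : f.Prime
  ph : h.Prime
  ne : f ≠ h
  le : F ≤ A
  norm : A ≤ N⟦F⟧
  card : ♯F ∣ f
  idx : F.relIndex A ∣ h
  comm : ⁅F, A⁆ = F

omit [Finite G] in
theorem PQ.weak (c : PQ f h A F) : PQ' f h A F :=
  ⟨c.pf, c.ph, c.ne, c.le, c.norm, c.card.dvd, c.idx.dvd, c.comm⟩

omit [Finite G] in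
theorem PQ'.pmap (c : PQ' f h A F) {G' : Type*} [Group G'] (φ : E →* G') (hA : A ≤ E) :
    PQ' f h (pmap φ A) (pmap φ F) := by
  refine ⟨c.pf, c.ph, c.ne, pmap_mono φ c.le, pmap_norm φ c.norm, (card_pmap_dvd φ _).trans c.card, ?_,
    by rw [← pmap_commg φ (c.le.trans hA) hA, c.comm]⟩
  rw [pmap_def, pmap_def]
  refine (relIndex_map_dvd' φ _ _).trans ?_
  rw [relIndex_subgroupOf hA]; exact c.idx

theorem PQ'.cases (c : PQ' f h A F) : PQ f h A F ∨ ♯A ∣ h := by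
  rcases (Nat.dvd_prime c.pf).1 c.card with h1 | h1
  · refine Or.inr ?_
    rw [← card_mul_relIndex c.le, h1, one_mul]; exact c.idx
  rcases (Nat.dvd_prime c.ph).1 c.idx with h2 | h2
  · exfalso
    have h3 : A = F := le_antisymm (relIndex_eq_one.1 h2) c.le
    have h4 := c.comm
    rw [h3, der_eq_bot_iff.2 (comm_of_cyclic (isCyclic_of_card_prime (h1 ▸ c.pf)))] at h4
    exact ne_bot_of_card_prime (h1 ▸ c.pf) h4.symm
  · exact Or.inl ⟨c.pf, c.ph, c.ne, c.le, c.norm, h1, h2, c.comm⟩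

theorem PQ'.sol (c : PQ' f h A F) : Group.IsSolvable A := by
  rcases c.cases with h1 | h1
  · exact h1.sol
  rcases (Nat.dvd_prime c.ph).1 h1 with h2 | h2
  · rw [eq_bot_of_card h2]; infer_instance
  · exact sol_of_card_prime (h2 ▸ c.ph)

theorem pmap_fpf' {G' : Type*} [Group G'] (φ : E →* G') (hK : K ≤ E) (hA : A ≤ E) (hn : A ≤ N⟦K⟧)
    (hcop : (♯K).Coprime (♯A)) (hs : Group.IsSolvable K) (h : K ⊓ C⟦A⟧ = ⊥) : pmap φ K ⊓ C⟦pmap φ A⟧ = ⊥ := by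
  rw [pmap_def, pmap_def, ← coprime_map_cent (A := A.subgroupOf E) (K := K.subgroupOf E) φ (norm_comap E.subtype hn)
    (by rwa [card_subgroupOf hK, card_subgroupOf hA])
    (Or.inr ((isSolvable_map_iff E.subtype_injective).1 (by rwa [map_subgroupOf_eq_of_le hK]))), eq_bot_iff]
  rintro _ ⟨x, hx, rfl⟩
  rw [show x = 1 from Subtype.ext (Subgroup.mem_bot.1 (h ▸ ⟨hx.1, (mem_cent_subgroupOf hA).1 hx.2⟩)), map_one]
  exact one_mem _

theorem pcore_eq_bot_of_faithful [Fact r.Prime] (hn : A ≤ N⟦K⟧) (hV : IsElementaryAbelian r V)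
    (hm : MinNormal V (K ⊔ A)) (hKV : K ⊓ C⟦V⟧ = ⊥) : piCoreOf {r} K = ⊥ :=
  eq_bot_iff.2 (hKV ▸ le_inf (piCoreOf_le _ _) (hm.le_cent_of_piNat (isPGroup_of_elem hV)
    (piCoreOf_normalIn_of _ (NormalIn.sup_left hn)) ((isPi_piCoreOf _ _).relIndex _)))

theorem PQ'.faithful_nil (c : PQ' f h A F) [hr : Fact r.Prime] (hK : Group.IsSolvable K) (hn : A ≤ N⟦K⟧)
    (hcop : (♯K).Coprime (♯A)) (hf : K ⊓ C⟦A⟧ = ⊥) (hV : IsElementaryAbelian r V) (hm : MinNormal V (K ⊔ A))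
    (hKV : K ⊓ C⟦V⟧ = ⊥) (hfV : V ⊓ C⟦A⟧ = ⊥) (hAr : (♯A).Coprime r) : Group.IsNilpotent K := by
  rcases c.cases with c | h1
  swap
  · rcases (Nat.dvd_prime c.ph).1 h1 with h2 | h2
    · rw [eq_bot_of_card h2, cent_bot, inf_top_eq] at hf
      rw [hf]; infer_instance
    · exact prime_Frobenius_kernel_nil hn (h2 ▸ c.ph) hf
  have h8 := commg_le_fitting hK c.sol hn le_rfl hcop fun q hq D hD hAD hDq => by
    haveI := Fact.mk hq
    have hQ := piCoreOf_le {q} K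
    by_cases hQ1 : piCoreOf {q} K = ⊥
    · simp [hQ1, cent_bot]
    have hKn : K ≤ N⟦V⟧ := le_sup_left.trans hm.2.1
    refine (commg_le_left hAD).trans (c.three_layer hV (hQ.trans hKn) (le_sup_right.trans hm.2.1) (hD.trans hKn)
      (norm_piCoreOf _ hn) (hD.trans (piCoreOf_normalIn _ _).norm) hAD (isPGroup_piCoreOf q _) ?_
      (coprime_of_le_left hcop hD) hDq (Nat.Coprime.coprime_dvd_left ((dvd_card_of_isPGroup
        (isPGroup_piCoreOf q _) hQ1).trans (card_dvd hQ)) hcop).symm hAr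
      (eq_bot_iff.2 ((inf_le_inf_right _ hQ).trans hKV.le)) hfV
      (eq_bot_iff.2 ((inf_le_inf_right _ hQ).trans hf.le)) (eq_bot_iff.2 ((inf_le_inf_right _ hD).trans hf.le)))
    rintro rfl
    exact hQ1 (pcore_eq_bot_of_faithful hn hV hm hKV)
  rw [commg_eq_of_fpf hn hcop (Or.inr hK) hf] at h8
  exact nil_of_le (nil_fittingOf _) h8

theorem inverts_of_fpf (hH : ♯H ∣ 2) (hn : H ≤ N⟦U⟧) (hf : U ⊓ C⟦H⟧ = ⊥) {x : G} (hx : x ∈ H) (h1 : x ≠ 1) {u : G}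
    (hu : u ∈ U) : x * u * x⁻¹ = u⁻¹ := by
  have hp : (♯H).Prime := by
    rw [((Nat.dvd_prime Nat.prime_two).1 hH).resolve_left (one_lt_card (ne_bot_of_mem hx h1)).ne']
    exact Nat.prime_two
  have h2 : x ^ 2 = 1 := orderOf_dvd_iff_pow_eq_one.1 ((orderOf_dvd_card_of_mem hx).trans hH)
  have h3 := MonoidHom.FixedPointFree.coe_eq_inv_of_involutive (φ := H1.conjHom hn ⟨x, hx⟩) (fun v hv => by
    have h3 : (v : G) ∈ U ⊓ C⟦H⟧ := ⟨v.2, by
      rw [← cent1_eq_of_card_prime hp hx h1]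
      exact mem_cent1.2 ((H1.conjHom_eq_self_iff hn _ v).1 hv)⟩
    exact Subtype.ext (Subgroup.mem_bot.1 (hf ▸ h3))) (fun v => by
      rw [← MulAut.mul_apply, ← map_mul, show (⟨x, hx⟩ * ⟨x, hx⟩ : H) = 1 from Subtype.ext (by simpa [sq] using h2),
        map_one, MulAut.one_apply])
  exact congrArg Subtype.val (congrFun h3 ⟨u, hu⟩)

theorem comm_of_fpf_two (hH : ♯H ∣ 2) (hn : H ≤ N⟦U⟧) (hf : U ⊓ C⟦H⟧ = ⊥) : IsMulCommutative U := by
  by_cases h1 : H = ⊥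
  · rw [h1, cent_bot, inf_top_eq] at hf
    rw [hf]; exact comm_bot
  obtain ⟨x, hx, hx1⟩ := exists_ne_one h1
  refine comm_iff.2 fun a ha b hb => ?_
  have h2 := inverts_of_fpf hH hn hf hx hx1 (mul_mem ha hb)
  rw [← inv_inj, ← h2, mul_inv_rev, ← inverts_of_fpf hH hn hf hx hx1 ha, ← inverts_of_fpf hH hn hf hx hx1 hb]
  group

theorem commg_cent_of_fpf_two (hH : ♯H ∣ 2) (hn : H ≤ N⟦U⟧) (hf : U ⊓ C⟦H⟧ = ⊥) (hK : K ≤ N⟦U⟧) :
    ⁅K, H⁆ ≤ C⟦U⟧ := by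
  refine commutator_le.2 fun k hk x hx => mem_cent.2 fun u hu => ?_
  by_cases h1 : x = 1
  · simp [h1]
  have h2 := inverts_of_fpf hH hn hf (inv_mem hx) (inv_ne_one.2 h1) hu
  have h3 := inverts_of_fpf hH hn hf hx h1 (conj_mem_of_norm' (hK hk) (inv_mem hu))
  rw [inv_inv] at h2
  symm
  calc ⁅k, x⁆ * u = k * (x * (k⁻¹ * (x⁻¹ * u * x) * k) * x⁻¹) * k⁻¹ * ⁅k, x⁆ := by
        simp only [commutatorElement_def]; group
    _ = u * ⁅k, x⁆ := by rw [h2, h3]; group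

theorem PQ'.faithful_comm (c : PQ' 3 2 A F) [hr : Fact r.Prime] (hK : Group.IsSolvable K) (hn : A ≤ N⟦K⟧)
    (hcop : (♯K).Coprime (♯A)) (hf : K ⊓ C⟦A⟧ = ⊥) (hV : IsElementaryAbelian r V) (hm : MinNormal V (K ⊔ A))
    (hKV : K ⊓ C⟦V⟧ = ⊥) (hfV : V ⊓ C⟦A⟧ = ⊥) (hAr : (♯A).Coprime r) : ⁅K, K⁆ = ⊥ := by
  have hnil := c.faithful_nil hK hn hcop hf hV hm hKV hfV hAr
  rcases c.cases with c | h1
  swap
  · exact der_eq_bot_iff.2 (comm_of_fpf_two h1 hn hf)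
  by_contra hcon
  have hKn : K ≤ N⟦V⟧ := le_sup_left.trans hm.2.1
  have hAn : A ≤ N⟦V⟧ := le_sup_right.trans hm.2.1
  have hKr : (♯K).Coprime r := by
    have := (pCoreOf_sylow_of_nil (p := r) hnil).eq_bot_iff.1 (pcore_eq_bot_of_faithful hn hV hm hKV)
    exact this.coprime_prime hr.out
  have hVK : (♯V).Coprime (♯K) := coprime_of_isPGroup (isPGroup_of_elem hV) hKr
  have hVA : (♯V).Coprime (♯A) := coprime_of_isPGroup (isPGroup_of_elem hV) hAr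
  obtain ⟨D, hD, hD1⟩ := exists_minNormal_le (inf_cent_ne_bot_of_nil hnil (NormalIn.der_self K) hcon)
    (norm_inf_cent (norm_der hn) hn)
  have hDK : D ≤ K := hD1.trans (inf_le_left.trans (H21.der_le K))
  have hDc : D ≤ C⟦K⟧ := hD1.trans inf_le_right
  obtain ⟨q, hq, he⟩ := hD.exists_elem (sol_of_le hK hDK)
  haveI := Fact.mk hq
  have hc : V ⊓ C⟦D⟧ = ⊥ := (hm.inf_eq_bot_or_le (norm_cent (sup_le (norm_of_cent (cent_symm hDc)) hD.2.1))).resolve_right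
    fun h => hD.1 (eq_bot_iff.2 (hKV ▸ le_inf hDK (cent_symm h)))
  obtain ⟨Y, hY, h1, h2⟩ := exists_hyper he (hDK.trans hKn) (coprime_of_le_right hVK hDK) hm.1 hc
  obtain ⟨B, hB, hp, h3, h4⟩ := c.hyper hV.1 he.1 hAn hD.2.1 (hDK.trans hKn) hVA (coprime_of_le_left hcop hDK)
    (coprime_of_le_right hVK hDK) hfV (eq_bot_iff.2 ((inf_le_inf_right _ hDK).trans hf.le)) hc hY h1 h2
  have hKU : K ≤ N⟦V ⊓ C⟦Y⟧⟧ := norm_inf_cent hKn (norm_of_cent (cent_symm (hY.trans hDc)))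
  have hBU : B ≤ N⟦V ⊓ C⟦Y⟧⟧ := norm_inf_cent (hB.trans hAn) (norm_of_commg_le_of_le hY h3)
  have hUV : V ⊓ C⟦Y⟧ ≤ V := inf_le_left
  generalize V ⊓ C⟦Y⟧ = U at *
  have hKa : ∀ a ∈ A, K ≤ N⟦cj a U⟧ := fun a ha => by
    rw [← cj_eq_of_mem_norm (hn ha)]; exact norm_cj a hKU
  have hall : ∀ X ≤ K, (∀ a ∈ A, X ≤ C⟦cj a U⟧) → X = ⊥ := fun X hX h => by
    have h5 : (⨆ a : A, cj (a : G) U) = V := by
      refine (hm.eq_bot_or_eq (iSup_le fun a : A => cj_le_of_mem_norm (hAn a.2) hUV)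
        (sup_le (norm_iSup fun a : A => hKa a a.2) (le_norm_iff_cj_le.2 fun b hb => ?_))).resolve_left fun h5 => h2 ?_
      · rw [cj_iSup]
        exact iSup_le fun a => le_iSup_of_le (⟨b, hb⟩ * a) (by rw [cj_cj]; rfl)
      · exact eq_bot_iff.2 (h5 ▸ le_iSup_of_le (1 : A) (by simp))
    rw [eq_bot_iff, ← hKV, ← h5]
    exact le_inf hX (cent_symm (iSup_le fun a => cent_symm (h a a.2)))
  by_cases hBF : B = F
  · subst hBF
    have h5 := odd_prime_sdprod_cent1_abelem _ rfl hK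
      ((Nat.coprime_two_right).1 (hcop.coprime_dvd_right (by rw [c.cardA]; norm_num))) (by rw [c.card]; decide)
      (hB.trans hn) (coprime_of_le_right hcop hB) hp (elem_of_le hV hUV) hKU hBU (coprime_of_le_left hVK hUV) h4
    have h6 := hall _ (commg_le_left (hB.trans hn)) fun a ha => by
      rw [← cj_eq_of_mem_norm (norm_commutator hn c.norm ha)]; exact cent_cj a h5
    obtain ⟨H, hH, hpH, hne⟩ := c.exists_H
    refine hcon (der_eq_bot_iff.2 (comm_of_fpf_two (c.card_eq hH hpH hne).dvd (hH.trans hn) ?_))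
    rw [eq_bot_iff, ← hf, ← c.sup_eq c.le hp hH hpH hne.symm]
    exact le_inf inf_le_left (le_cent_sup (inf_le_left.trans (commg_eq_bot.1 h6)) inf_le_right)
  have h5 := commg_cent_of_fpf_two (c.card_eq hB hp hBF).dvd hBU h4 hKU
  have hFB : F ⊓ B = ⊥ := (prime_inf_eq_bot_or_le c.primeF).resolve_right fun h3 =>
    hBF (eq_of_le_of_card_prime hp h3 (ne_bot_of_card_prime c.primeF)).symm
  obtain ⟨x, hx, hx1⟩ := exists_ne_one (ne_bot_of_card_prime c.primeF)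
  have hx3 : x ^ 3 = 1 := orderOf_dvd_iff_pow_eq_one.1 (c.card ▸ orderOf_dvd_card_of_mem hx)
  have hxA := c.le hx
  have hxB : x ∉ B := fun h => hx1 (Subgroup.mem_bot.1 (hFB ▸ ⟨hx, h⟩))
  have htri : ∀ a ∈ A, a ∉ B → cj a U = cj x U ∨ cj a U = cj x⁻¹ U := fun a ha ha' => by
    rw [← c.sup_eq c.le c.primeF hB hp (Ne.symm hBF)] at ha
    obtain ⟨y, hy, b, hb, rfl⟩ := (mem_sup_of_norm' (hB.trans c.norm)).1 ha
    rw [cj_mul, cj_eq_of_mem_norm (hBU hb)]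
    rw [← eq_zpowers_of_card_prime c.primeF hx hx1, ← mem_powers_iff_mem_zpowers] at hy
    obtain ⟨i, rfl⟩ := hy
    have : x ^ i = x ^ (i % 3) := by conv_lhs => rw [← Nat.div_add_mod i 3, pow_add, pow_mul, hx3, one_pow, one_mul]
    have h6 : i % 3 < 3 := Nat.mod_lt _ (by norm_num)
    simp only at ha' ⊢
    rw [this] at ha' ⊢
    interval_cases i % 3
    · simp [hb] at ha'
    · simp
    · right
      rw [show x ^ 2 = x⁻¹ from eq_inv_of_mul_eq_one_left (by rw [← pow_succ, hx3])]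
  let Kc : G → Subgroup G := fun a => K ⊓ C⟦cj a U⟧
  have hKc : ∀ a ∈ A, ∀ b, cj a (Kc b) = Kc (a * b) := fun a ha b => by
    simp only [Kc]
    rw [cj_inf, cj_cent, cj_cj, cj_eq_of_mem_norm (hn ha)]
  have hKcn : ∀ a ∈ A, Kc a ⊴ K := fun a ha => NormalIn.cent_of_norm (hKa a ha)
  have hM : ∀ a ∈ A, a ∉ B → Kc x ⊓ Kc x⁻¹ ≤ Kc a := fun a ha ha' => by
    simp only [Kc]
    rcases htri a ha ha' with h | h <;> rw [h]
    exacts [inf_le_left, inf_le_right]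
  have hMK : Kc x ⊓ Kc x⁻¹ ≤ K := inf_le_left.trans inf_le_left
  have hM1 : Kc x ⊓ Kc x⁻¹ ⊓ C⟦U⟧ = ⊥ := hall _ (inf_le_left.trans hMK) fun a ha => by
    by_cases ha' : a ∈ B
    · rw [cj_eq_of_mem_norm (hBU ha')]; exact inf_le_right
    · exact inf_le_left.trans ((hM a ha ha').trans inf_le_right)
  have hBM : B ≤ N⟦Kc x ⊓ Kc x⁻¹⟧ := le_norm_iff_cj_le.2 fun b hb => by
    have key : ∀ y ∈ A, y ∉ B → cj b (Kc x ⊓ Kc x⁻¹) ≤ Kc y := fun y hy hy' => by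
      rw [cj_le_iff, hKc _ (inv_mem (hB hb))]
      exact hM _ (mul_mem (inv_mem (hB hb)) hy) fun h => hy' ((mul_mem_cancel_left (inv_mem hb)).1 h)
    exact le_inf (key x hxA hxB) (key _ (inv_mem hxA) fun h => hxB (inv_mem_iff.1 h))
  have hMB : Kc x ⊓ Kc x⁻¹ ≤ C⟦B⟧ := by
    rw [← commg_eq_bot, eq_bot_iff, ← hM1]
    exact le_inf (commg_le_left hBM) ((commutator_mono hMK le_rfl).trans h5)
  have hM0 : Kc x ⊓ Kc x⁻¹ = ⊥ := by
    by_contra h6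
    refine inf_cent_ne_bot_of_nil hnil ((hKcn x hxA).inf (hKcn _ (inv_mem hxA))) h6 ?_
    have h7 := orbit_fix (M := K ⊓ C⟦K⟧) (W := Kc x ⊓ Kc x⁻¹ ⊓ C⟦K⟧) (X := C⟦U⟧) (comm_center K)
      (norm_inf_cent hn hn) (coprime_of_le_left hcop inf_le_left)
      (eq_bot_iff.2 ((inf_le_inf_right _ inf_le_left).trans hf.le)) (inf_le_inf_right _ hMK) hB
      (fun a ha ha' => by
        rw [cj_le_iff, cj_cent]
        exact inf_le_left.trans ((hM _ (inv_mem ha) fun h => ha' (inv_mem_iff.1 h)).trans inf_le_right))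
      (eq_bot_iff.2 ((inf_le_inf_right _ inf_le_left).trans hM1.le))
    rwa [inf_eq_left.2 (inf_le_left.trans hMB)] at h7
  have hxx : x * x = x⁻¹ := eq_inv_of_mul_eq_one_left (by rw [← hx3]; simp [pow_succ])
  have hxx' : x⁻¹ * x⁻¹ = x := by rw [← mul_inv_rev, hxx, inv_inv]
  have h7 : Kc x⁻¹ ⊓ Kc 1 = ⊥ := by
    have := congrArg (cj x) hM0
    rwa [cj_inf, hKc x hxA, hKc x hxA, hxx, mul_inv_cancel, cj_bot] at this
  have h8 : Kc 1 ⊓ Kc x = ⊥ := by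
    have := congrArg (cj x⁻¹) hM0
    rwa [cj_inf, hKc _ (inv_mem hxA), hKc _ (inv_mem hxA), hxx', inv_mul_cancel, cj_bot] at this
  have h9 : ∀ a ∈ A, ⁅K, cj a B⁆ ≤ Kc a := fun a ha => by
    rw [← mul_one a, ← hKc a ha, mul_one]
    conv_lhs => rw [← cj_eq_of_mem_norm (hn ha), ← cj_commutator]
    exact cj_mono a (le_inf (commg_le_left (hB.trans hn)) (by rwa [cj_one]))
  have h10 : K ≤ Kc 1 ⊔ Kc x := by
    have h10 : ⁅K, B⁆ ≤ Kc 1 ⊔ Kc x := by simpa using (h9 1 (one_mem _)).trans le_sup_left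
    have h11 := (h9 x hxA).trans (le_sup_right : _ ≤ Kc 1 ⊔ Kc x)
    have h12 : Kc 1 ⊔ Kc x ≤ K := sup_le inf_le_left inf_le_left
    have := commg_sup_right_le (norm_of_commg_le_of_le h12 h10) (norm_of_commg_le_of_le h12 h11) h10 h11
    rwa [c.sup_cj hB hp hBF hxA hxB, commg_eq_of_fpf hn hcop (Or.inr hK) hf] at this
  have h11 : K ≤ Kc x ⊔ Kc x⁻¹ := by
    have := cj_mono x h10
    rwa [cj_eq_of_mem_norm (hn hxA), cj_sup, hKc x hxA, hKc x hxA, hxx, mul_one] at this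
  have hd : ∀ a ∈ A, ∀ b ∈ A, Kc a ⊓ Kc b = ⊥ → Kc a ≤ C⟦Kc b⟧ := fun a ha b hb h =>
    cent_of_disjoint (inf_le_left.trans (hKcn b hb).norm) (inf_le_left.trans (hKcn a ha).norm) h
  have h12 : Kc 1 ≤ C⟦K⟧ := (le_cent_sup (hd _ (one_mem _) _ hxA h8)
    (hd _ (one_mem _) _ (inv_mem hxA) (by rwa [inf_comm]))).trans (cent_anti h11)
  have h13 : Kc x ≤ C⟦K⟧ := by
    have := cent_cj x h12
    rwa [cj_eq_of_mem_norm (hn hxA), hKc x hxA, mul_one] at this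
  exact hcon (commg_eq_bot.2 (h10.trans (sup_le h12 h13)))

end

theorem PQ'.le_fitting {f h : ℕ} (I : ℕ → Prop)
    (h0 : ∀ (G : Type u) [Group G] [Finite G] (K A F V : Subgroup G) (r : ℕ) [Fact r.Prime], PQ' f h A F →
      Group.IsSolvable K → A ≤ N⟦K⟧ → (♯K).Coprime (♯A) → K ⊓ C⟦A⟧ = ⊥ → IsElementaryAbelian r V →
      MinNormal V (K ⊔ A) → K ⊓ C⟦V⟧ = ⊥ → V ⊓ C⟦A⟧ = ⊥ → (♯A).Coprime r → ∃ k, I k ∧ K.lowerCentralSeries k = ⊥)
    {G : Type u} [Group G] [Finite G] {K A F X : Subgroup G} (c : PQ' f h A F) (hK : Group.IsSolvable K)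
    (hn : A ≤ N⟦K⟧) (hcop : (♯K).Coprime (♯A)) (hf : K ⊓ C⟦A⟧ = ⊥) (hX : X ≤ K)
    (hI : ∀ k, I k → X ≤ K.lowerCentralSeries k) : X ≤ fittingOf K := by
  refine le_fitting_of_sections hK c.sol hn hX fun U V r hr hVU hU hKV hRV hm he => ?_
  haveI := Fact.mk hr
  suffices h : ∃ k, I k ∧ (quo K V).lowerCentralSeries k ≤ C⟦quo U V⟧ by
    obtain ⟨k, hk, hk'⟩ := h
    rw [← quo_lowerCentralSeries hKV] at hk'
    exact (quo_mono _ (hI k hk)).trans hk'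
  have hf' : quo K V ⊓ C⟦quo A V⟧ = ⊥ := pmap_fpf' _ hKV hRV hn hcop hK hf
  have hUK := quo_mono V (hU.trans (fittingOf_le K))
  replace hK := quo_solvable hK V
  replace c : PQ' f h (quo A V) (quo F V) := c.pmap _ hRV
  replace hn := quo_norm V hn
  replace hcop := coprime_quo_quo hcop V
  generalize quo K V = K' at *
  generalize quo A V = A' at *
  generalize quo F V = F' at *
  generalize quo U V = W at *
  obtain ⟨Γ, _, _, φ, V', h1, h2, h4, h5, h6, h7⟩ := exists_faithful hm.2.1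
  obtain ⟨k, hk, hk'⟩ := h0 Γ (H20.pmap φ K') (H20.pmap φ A') (H20.pmap φ F') V' r (c.pmap φ le_sup_right) (pmap_solvable φ hK)
    (pmap_norm φ hn) ((hcop.coprime_dvd_left (card_pmap_dvd φ _)).coprime_dvd_right (card_pmap_dvd φ _))
    (pmap_fpf' φ le_sup_left le_sup_right hn hcop hK hf') (h5 r he)
    (pmap_sup φ le_sup_left le_sup_right ▸ h7 hm) (h2 _)
    (h6 _ le_sup_right (eq_bot_iff.2 ((inf_le_inf_right _ hUK).trans hf'.le)))
    ((coprime_prime_of_elem he hm.1 (coprime_of_le_left hcop hUK)).coprime_dvd_left (card_pmap_dvd φ _))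
  refine ⟨k, hk, h4 _ ((lowerCentralSeries_le_self _ k).trans le_sup_left) ?_⟩
  rw [pmap_lcs φ le_sup_left, hk']

theorem PQ.lcs_le_fitting {f h : ℕ} {G : Type u} [Group G] [Finite G] {K A F : Subgroup G} (c : PQ f h A F)
    (hK : Group.IsSolvable K) (hn : A ≤ N⟦K⟧) (hcop : (♯K).Coprime (♯A)) (hf : K ⊓ C⟦A⟧ = ⊥) :
    ∃ n, K.lowerCentralSeries n ≤ fittingOf K := by
  obtain ⟨n, hmin⟩ := exists_lcs_min K
  refine ⟨n, PQ'.le_fitting (fun _ => True) (fun G _ _ K A F V r _ c h1 h2 h3 h4 h5 h6 h7 h8 h9 => ?_) c.weak hK hn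
    hcop hf (lowerCentralSeries_le_self _ _) fun k _ => hmin k⟩
  obtain ⟨k, hk⟩ := (isNilpotent_iff_lowerCentralSeries _).1 (c.faithful_nil h1 h2 h3 h4 h5 h6 h7 h8 h9)
  exact ⟨k, trivial, hk⟩

theorem PQ.der_le_fitting {G : Type u} [Group G] [Finite G] {K A F : Subgroup G} (c : PQ 3 2 A F)
    (hK : Group.IsSolvable K) (hn : A ≤ N⟦K⟧) (hcop : (♯K).Coprime (♯A)) (hf : K ⊓ C⟦A⟧ = ⊥) :
    ⁅K, K⁆ ≤ fittingOf K :=
  PQ'.le_fitting (fun k => k = 1) (fun _ _ _ _ _ _ _ _ _ c h1 h2 h3 h4 h5 h6 h7 h8 h9 =>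
    ⟨1, rfl, c.faithful_comm h1 h2 h3 h4 h5 h6 h7 h8 h9⟩) c.weak hK hn hcop hf (H21.der_le K)
    fun _ hk => hk ▸ le_rfl

end Cfsg.Agent.H26
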