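import Cfsg.Agent.H26.ClassSize

/-! Wielandt: odd order automorphisms of doubly transitive groups. -/

set_option autoImplicit false

namespace Cfsg.Agent.H26

open MulAction Matrix

theorem design_arith {n k ν l c d : ℤ} {r : ℕ} (hr : Odd r) (hk : 1 ≤ k) (hkn : k < n) (hc : IsCoprime k n)
    (h1 : ν + l = k) (h2 : k ^ 2 = ν + l * n) (h3 : k ^ r = c + d * n) (h4 : c ^ 2 = ν ^ r) : k = 1 ∨ k = n - 1 := by
  obtain ⟨s, rfl⟩ := hr
  have h5 : k * (n - k) = ν * (n - 1) := by linear_combination (-1 : ℤ) * h2 - n * h1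
  have hν : 0 < ν := by
    by_contra h
    nlinarith
  have hνk : ν ≤ k := by
    by_contra h
    nlinarith
  obtain ⟨m, hm⟩ : ν ^ s ∣ c := by
    rw [← Int.pow_dvd_pow_iff two_ne_zero, h4]
    exact ⟨ν, by ring⟩
  have h6 : m ^ 2 = ν := by
    apply mul_left_cancel₀ (pow_ne_zero 2 (pow_ne_zero s hν.ne'))
    rw [← mul_pow, ← hm, h4]
    ring
  have h7 : IsCoprime n (ν ^ s) := by
    have : ν = k ^ 2 + n * (-l) := by linear_combination (-1 : ℤ) * h2
    rw [this]
    exact ((hc.symm.pow_right).add_mul_left_right _).pow_right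
  have h8 : n ∣ ν ^ s * (k - m) := by
    have h9 : n ∣ (k ^ 2) ^ s - ν ^ s := (show n ∣ k ^ 2 - ν from ⟨l, by linear_combination h2⟩).trans (sub_dvd_pow_sub_pow _ _ s)
    obtain ⟨e, he⟩ := h9
    exact ⟨d - k * e, by linear_combination h3 + hm - k * he⟩
  obtain ⟨t, ht⟩ := h7.dvd_of_dvd_mul_left h8
  have h9 : m ≤ k := by nlinarith
  have h10 : -k ≤ m := by nlinarith
  have h11 : t = 0 ∨ t = 1 := by
    have : 0 ≤ t := by
      by_contra h
      nlinarith
    have : t < 2 := by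
      by_contra h
      nlinarith
    omega
  rcases h11 with rfl | rfl
  · left
    have : m = k := by linarith
    subst this
    nlinarith
  · right
    have h12 : m = k - n := by linarith
    have h13 : k = (n - k) * (n - 1) := by
      apply mul_left_cancel₀ (show n - k ≠ 0 by omega)
      rw [← h6, h12] at h5
      linear_combination h5
    by_contra h
    have : 2 ≤ n - k := by omega
    nlinarith

variable {G Ω : Type*} [Group G] [MulAction G Ω] [Fintype Ω] [DecidableEq Ω]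

/-- twisted invariant matrices -/
def Tw (γ : MulAut G) (M : Matrix Ω Ω ℤ) : Prop := ∀ (g : G) (x y : Ω), M (γ g • x) (g • y) = M x y

omit [DecidableEq Ω] in
theorem Tw.mul {γ δ : MulAut G} {M N : Matrix Ω Ω ℤ} (h : Tw γ M) (h' : Tw δ N) : Tw (γ * δ) (M * N) := by
  intro g x y
  rw [Matrix.mul_apply, Matrix.mul_apply]
  exact (Fintype.sum_equiv (MulAction.toPerm (δ g)) _ _ fun z => by
    rw [MulAction.toPerm_apply, MulAut.mul_apply, h, h']).symm

theorem Tw.pow {γ : MulAut G} {M : Matrix Ω Ω ℤ} (h : Tw γ M) (n : ℕ) : Tw (γ ^ n) (M ^ n) := by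
  induction n with
  | zero =>
    intro g x y
    simp [one_apply]
  | succ n ih => rw [pow_succ, pow_succ]; exact ih.mul h

omit [Fintype Ω] [DecidableEq Ω] in
theorem Tw.transpose {γ : MulAut G} {M : Matrix Ω Ω ℤ} (h : Tw γ M) : Tw γ⁻¹ Mᵀ := by
  intro g x y
  rw [transpose_apply, transpose_apply, ← h (γ⁻¹ g) y x, MulAut.apply_inv_self]

omit [Fintype Ω] in
theorem Tw.exists_eq (h2 : IsMultiplyPretransitive G Ω 2) {a b : Ω} (hab : a ≠ b) {M : Matrix Ω Ω ℤ}
    (h : Tw (1 : MulAut G) M) : ∃ c d : ℤ, M = c • (1 : Matrix Ω Ω ℤ) + d • Matrix.of fun _ _ => (1 : ℤ) := by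
  haveI := isPretransitive_of_is_two_pretransitive (h2 := h2)
  refine ⟨M a a - M a b, M a b, ?_⟩
  ext x y
  by_cases e : x = y
  · obtain ⟨g, rfl⟩ := exists_smul_eq G a x
    subst e
    have := h g a a
    rw [MulAut.one_apply] at this
    rw [this, Matrix.add_apply, Matrix.smul_apply, Matrix.smul_apply, one_apply_eq, of_apply]
    simp
  · obtain ⟨g, rfl, rfl⟩ := is_two_pretransitive_iff.1 h2 hab e
    have := h g a b
    rw [MulAut.one_apply] at this
    rw [this, Matrix.add_apply, Matrix.smul_apply, Matrix.smul_apply, one_apply_ne e, of_apply]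
    simp

theorem wielandt_design (h2 : IsMultiplyPretransitive G Ω 2) (o : Ω) {α : MulAut G} (hα : Odd (orderOf α))
    (Δ : Set Ω) (hΔ : ∀ g : G, g • o = o → ∀ x ∈ Δ, α g • x ∈ Δ) (h0 : Δ.Nonempty)
    (hc : (Nat.card Δ).Coprime (Fintype.card Ω)) : Nat.card Δ = 1 ∨ Nat.card Δ = Fintype.card Ω - 1 := by
  classical
  haveI := isPretransitive_of_is_two_pretransitive (h2 := h2)
  have hle : Nat.card Δ ≤ Fintype.card Ω := Nat.card_eq_fintype_card (α := Ω) ▸ Nat.card_le_card_of_injective _ Subtype.val_injective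
  have hpos : 0 < Nat.card Δ := by haveI := h0.to_subtype; exact Nat.card_pos
  rcases hle.eq_or_lt with e | hlt
  · left
    rwa [← e, Nat.coprime_self] at hc
  obtain ⟨a, b, hab⟩ := Fintype.exists_pair_of_one_lt_card (by omega : 1 < Fintype.card Ω)
  let M : Matrix Ω Ω ℤ := Matrix.of fun x y => if ∃ g : G, g • o = y ∧ (α g)⁻¹ • x ∈ Δ then 1 else 0
  have hM : ∀ (g : G) (x : Ω), M x (g • o) = if (α g)⁻¹ • x ∈ Δ then 1 else 0 := by
    intro g x
    refine if_congr ⟨?_, fun h => ⟨g, rfl, h⟩⟩ rfl rfl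
    rintro ⟨g', e, h⟩
    have := hΔ (g⁻¹ * g') (by rw [mul_smul, e, inv_smul_smul]) _ h
    rwa [map_mul, map_inv, mul_smul, smul_inv_smul] at this
  have hT : Tw α M := by
    intro g x y
    obtain ⟨g', rfl⟩ := exists_smul_eq G o y
    rw [← mul_smul, hM, hM, map_mul, _root_.mul_inv_rev, mul_smul, inv_smul_smul]
  set J : Matrix Ω Ω ℤ := Matrix.of fun _ _ => (1 : ℤ) with hJ
  set k : ℤ := ((Nat.card Δ : ℕ) : ℤ) with hk
  set n : ℤ := ((Fintype.card Ω : ℕ) : ℤ) with hn
  have hcol : ∀ y, ∑ x, M x y = k := by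
    intro y
    obtain ⟨g, rfl⟩ := exists_smul_eq G o y
    rw [← Fintype.sum_equiv (MulAction.toPerm (α g)) (fun x => if x ∈ Δ then (1 : ℤ) else 0) _ fun x => by
      rw [MulAction.toPerm_apply, hM, inv_smul_smul], Finset.sum_boole, hk, Nat.card_eq_fintype_card, Fintype.card_subtype]
  have hrow : ∀ x, ∑ y, M x y = k := by
    have h1 : ∀ x, ∑ y, M x y = ∑ y, M a y := by
      intro x
      obtain ⟨g, rfl⟩ := exists_smul_eq G a x
      obtain ⟨g, rfl⟩ := α.surjective g
      exact (Fintype.sum_equiv (MulAction.toPerm g) _ _ fun y => by rw [MulAction.toPerm_apply, hT]).symm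
    have h3 : ∑ x, ∑ y, M x y = ∑ y, ∑ x, M x y := Finset.sum_comm
    simp only [h1, hcol, Finset.sum_const, Finset.card_univ, nsmul_eq_mul] at h3
    intro x
    rw [h1]
    exact mul_left_cancel₀ (by omega) h3
  have hJM : J * M = k • J := by
    ext x y
    simp [Matrix.mul_apply, hJ, hcol]
  have hMJ : M * J = k • J := by
    ext x y
    simp [Matrix.mul_apply, hJ, hrow]
  have hJJ : J * J = n • J := by
    ext x y
    simp [Matrix.mul_apply, hJ, hn]
  have hJT : Jᵀ = J := rfl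
  have hJP : ∀ s : ℕ, J * M ^ s = k ^ s • J := by
    intro s
    induction s with
    | zero => simp
    | succ s ih => rw [pow_succ, ← mul_assoc, ih, smul_mul_assoc, hJM, smul_smul, pow_succ]
  have hPJ : ∀ s : ℕ, (M ^ s)ᵀ * J = k ^ s • J := fun s => by
    rw [← hJT, ← transpose_mul, hJP, transpose_smul, hJT]
  obtain ⟨ν, l, h3⟩ := Tw.exists_eq h2 hab (inv_mul_cancel α ▸ hT.transpose.mul hT)
  obtain ⟨c, d, h4⟩ := Tw.exists_eq h2 hab (pow_orderOf_eq_one α ▸ hT.pow (orderOf α))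
  rw [← hJ] at h3 h4
  have h5 : ∀ s : ℕ, ∃ e : ℤ, (M ^ s)ᵀ * M ^ s = ν ^ s • (1 : Matrix Ω Ω ℤ) + e • J := by
    intro s
    induction s with
    | zero => exact ⟨0, by simp⟩
    | succ s ih =>
      obtain ⟨e, he⟩ := ih
      refine ⟨ν * e + l * k ^ s * k ^ s, ?_⟩
      rw [pow_succ', transpose_mul, mul_assoc, ← mul_assoc Mᵀ, h3, add_mul, mul_add, smul_mul_assoc, one_mul,
        mul_smul_comm, he, smul_mul_assoc, mul_smul_comm, hJP, mul_smul_comm, hPJ]
      module
  have e1 : ν + l = k := by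
    have := congrFun (congrFun h3 a) a
    simp only [Matrix.add_apply, Matrix.smul_apply, one_apply_eq, smul_eq_mul, mul_one, hJ, of_apply, Matrix.mul_apply, transpose_apply] at this
    rw [← this, ← hcol a]
    refine Finset.sum_congr rfl fun x _ => ?_
    simp only [M, of_apply]
    split_ifs <;> simp
  have e2 : k ^ 2 = ν + l * n := by
    have h6 : Mᵀ * M * J = (k ^ 2) • J := by
      have := hPJ 1
      rw [pow_one, pow_one] at this
      rw [mul_assoc, hMJ, mul_smul_comm, this, smul_smul, pow_two]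
    rw [h3, add_mul, smul_mul_assoc, one_mul, smul_mul_assoc, hJJ] at h6
    have := congrFun (congrFun h6 a) a
    simpa [hJ] using this.symm
  have e3 : k ^ orderOf α = c + d * n := by
    have h6 := hJP (orderOf α)
    rw [h4, mul_add, mul_smul_comm, mul_one, mul_smul_comm, hJJ] at h6
    have := congrFun (congrFun h6 a) a
    simpa [hJ] using this.symm
  have e4 : c ^ 2 = ν ^ orderOf α := by
    obtain ⟨e, h6⟩ := h5 (orderOf α)
    rw [h4, transpose_add, transpose_smul, transpose_smul, transpose_one, hJT] at h6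
    simp only [add_mul, mul_add, smul_mul_assoc, mul_smul_comm, one_mul, mul_one, hJJ] at h6
    have h7 := congrFun (congrFun h6 a) a
    have h8 := congrFun (congrFun h6 a) b
    simp only [hJ, one_apply_ne hab, Matrix.add_apply, Matrix.smul_apply, of_apply, one_apply_eq, smul_eq_mul] at h7 h8
    linear_combination h7 - h8
  have := design_arith hα (by omega) (by omega) (Nat.isCoprime_iff_coprime.2 hc) e1 e2 e3 e4
  omega

omit [DecidableEq Ω] in
theorem exists_perm_of_fixed [Finite G] [IsPretransitive G Ω] {o w : Ω} {α : MulAut G}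
    (h : ∀ g : G, g • o = o → α g • w = w) : ∃ σ : Equiv.Perm Ω, ∀ (g : G) (x : Ω), α g • σ x = σ (g • x) := by
  choose t ht using exists_smul_eq G o
  have h1 : ∀ (g : G) (x : Ω), α g • α (t x) • w = α (t (g • x)) • w := by
    intro g x
    have := h ((t (g • x))⁻¹ * (g * t x)) (by rw [mul_smul, mul_smul, ht, inv_smul_eq_iff, ht])
    rwa [map_mul, map_mul, mul_smul, mul_smul, map_inv, inv_smul_eq_iff] at this
  refine ⟨Equiv.ofBijective (fun x => α (t x) • w) (Finite.surjective_iff_bijective.1 fun y => ?_), h1⟩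
  obtain ⟨g, rfl⟩ := exists_smul_eq G (α (t o) • w) y
  obtain ⟨g, rfl⟩ := α.surjective g
  exact ⟨g • o, (h1 g o).symm⟩

omit [DecidableEq Ω] in
theorem exists_perm_of_coprime [Finite G] (h2 : IsMultiplyPretransitive G Ω 2) (o : Ω) {α : MulAut G}
    (hα : Odd (orderOf α)) (ω : Ω)
    (hk : (Nat.card (orbit ((stabilizer G o).map α.toMonoidHom) ω)).Coprime (Fintype.card Ω)) :
    (∃ σ : Equiv.Perm Ω, ∀ (g : G) (x : Ω), α g • σ x = σ (g • x)) ∧
      (Nat.card (orbit ((stabilizer G o).map α.toMonoidHom) ω) = 1 ∨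
        Nat.card (orbit ((stabilizer G o).map α.toMonoidHom) ω) = Fintype.card Ω - 1) := by
  classical
  haveI := isPretransitive_of_is_two_pretransitive (h2 := h2)
  set Δ := orbit ((stabilizer G o).map α.toMonoidHom) ω with hΔ
  have h1 : ∀ g : G, g • o = o → ∀ x ∈ Δ, α g • x ∈ Δ := fun g hg x hx =>
    mapsTo_smul_orbit (⟨α g, g, hg, rfl⟩ : (stabilizer G o).map α.toMonoidHom) ω hx
  have h3 := wielandt_design h2 o hα Δ h1 ⟨ω, mem_orbit_self ω⟩ hk
  refine ⟨?_, h3⟩
  rcases h3 with h3 | h3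
  · obtain ⟨w, hw⟩ := Set.ncard_eq_one.1 h3
    refine exists_perm_of_fixed (o := o) (w := w) fun g hg => ?_
    have := h1 g hg w (by rw [hw]; rfl)
    rwa [hw] at this
  · have h4 := Set.ncard_add_ncard_compl Δ
    have h5 : 0 < Fintype.card Ω := Fintype.card_pos_iff.2 ⟨o⟩
    rw [Nat.card_eq_fintype_card] at h4
    change Δ.ncard = _ at h3
    obtain ⟨w, hw⟩ := Set.ncard_eq_one.1 (show Δᶜ.ncard = 1 by omega)
    refine exists_perm_of_fixed (o := o) (w := w) fun g hg => ?_
    have h6 : w ∈ Δᶜ := by rw [hw]; rfl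
    have : α g • w ∈ Δᶜ := fun h7 => h6 (by
      simpa using h1 g⁻¹ (by rw [inv_smul_eq_iff, hg]) _ h7)
    rwa [hw] at this

omit [DecidableEq Ω] in
theorem exists_perm_of_hall [Finite G] (h2 : IsMultiplyPretransitive G Ω 2) (o : Ω) {α : MulAut G}
    (hα : Odd (orderOf α)) (hH : (Nat.card (stabilizer G o)).Coprime (stabilizer G o).index) :
    ∃ σ : Equiv.Perm Ω, ∀ (g : G) (x : Ω), α g • σ x = σ (g • x) := by
  haveI := isPretransitive_of_is_two_pretransitive (h2 := h2)
  refine (exists_perm_of_coprime h2 o hα o ?_).1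
  rw [index_stabilizer_of_transitive, Nat.card_eq_fintype_card (α := Ω)] at hH
  refine Nat.Coprime.coprime_dvd_left ?_ hH
  rw [← Subgroup.card_map_of_injective (f := α.toMonoidHom) α.injective, Nat.card_coe_set_eq, ← index_stabilizer]
  exact Subgroup.index_dvd_card _

theorem perm_conj_of_smul {Ω : Type*} (G : Subgroup (Equiv.Perm Ω)) {α : MulAut G} {σ : Equiv.Perm Ω}
    (h : ∀ (g : G) (x : Ω), α g • σ x = σ (g • x)) : σ ∈ Subgroup.normalizer (G : Set (Equiv.Perm Ω)) ∧
      ∀ g : G, ((α g : G) : Equiv.Perm Ω) = σ * (g : Equiv.Perm Ω) * σ⁻¹ := by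
  have h1 : ∀ g : G, ((α g : G) : Equiv.Perm Ω) = σ * (g : Equiv.Perm Ω) * σ⁻¹ := by
    intro g
    rw [eq_mul_inv_iff_mul_eq]
    ext x
    exact h g x
  refine ⟨Subgroup.mem_normalizer_iff.2 fun g => ⟨fun hg => h1 ⟨g, hg⟩ ▸ (α ⟨g, hg⟩).2, fun hg => ?_⟩, h1⟩
  obtain ⟨y, hy⟩ := α.surjective ⟨_, hg⟩
  have := h1 y
  rw [hy, mul_left_inj, mul_right_inj] at this
  exact this ▸ y.2

end Cfsg.Agent.H26
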